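import Cfsg.Agent.Lib.Coprime.PGroup
import Cfsg.Agent.Lib.Basic.CoprimeAction
import Cfsg.Agent.Lib.Coprime.Comm

/-!
Baer's trick: a group of class at most two in which squaring is bijective carries a commutative
group structure with the same automorphisms.  The norm argument for abelian `p`-groups.
-/

set_option autoImplicit false

namespace Cfsg.Agent.Lib.Coprime.Baer

open Subgroup
open scoped commutatorElement

universe u

/-- The center as a commutative group. -/
instance centerCommGroup (G : Type*) [Group G] : CommGroup (center G) :=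
  { (inferInstance : Group ↥(center G)) with
    mul_comm := fun a b => Subtype.ext (mem_center_iff.mp b.2 a) }

/-- The hypotheses for Baer's trick. -/
structure Hyp (G : Type*) [Group G] (h : ℕ) : Prop where
  central : ∀ x y z : G, ⁅x, y⁆ * z = z * ⁅x, y⁆
  two : ∀ x : G, x ^ (2 * h) = x

/-- The underlying set of the commutative group. -/
def BaerT (G : Type*) : Type _ := G

section

variable {G : Type*} [Group G] {h : ℕ} (H : Hyp G h)

include H

theorem comm_mem_center (x y : G) : ⁅x, y⁆ ∈ center G := by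
  rw [mem_center_iff]
  exact fun z => (H.central x y z).symm

/-- The commutator with values in the center. -/
def cc (x y : G) : center G := ⟨⁅x, y⁆, comm_mem_center H x y⟩

theorem cc_val (x y : G) : ((cc H x y : center G) : G) = ⁅x, y⁆ := rfl

theorem cc_mul_left (x y z : G) : cc H (x * y) z = cc H x z * cc H y z := by
  apply Subtype.ext
  show ⁅x * y, z⁆ = ⁅x, z⁆ * ⁅y, z⁆
  have h1 : ⁅x * y, z⁆ = x * ⁅y, z⁆ * (z * x⁻¹ * z⁻¹) := by
    simp only [commutatorElement_def]
    group
  calc ⁅x * y, z⁆ = x * ⁅y, z⁆ * (z * x⁻¹ * z⁻¹) := h1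
    _ = ⁅y, z⁆ * x * (z * x⁻¹ * z⁻¹) := by rw [H.central y z x]
    _ = ⁅y, z⁆ * ⁅x, z⁆ := by
      rw [commutatorElement_def x z]
      group
    _ = ⁅x, z⁆ * ⁅y, z⁆ := H.central y z _

theorem cc_inv_symm (x y : G) : cc H y x = (cc H x y)⁻¹ := by
  apply Subtype.ext
  show ⁅y, x⁆ = ⁅x, y⁆⁻¹
  rw [commutatorElement_inv]

theorem cc_mul_right (x y z : G) : cc H x (y * z) = cc H x y * cc H x z := by
  rw [cc_inv_symm H (y * z) x, cc_mul_left, mul_inv, cc_inv_symm H x y, cc_inv_symm H x z]
  simp only [inv_inv]

theorem cc_central_right (x : G) (w : center G) : cc H x (w : G) = 1 := by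
  apply Subtype.ext
  show ⁅x, (w : G)⁆ = 1
  rw [commutatorElement_eq_one_iff_mul_comm]
  exact (mem_center_iff.mp w.2 x)

theorem cc_central_left (x : G) (w : center G) : cc H (w : G) x = 1 := by
  rw [cc_inv_symm H x, cc_central_right, inv_one]

theorem cc_inv_right (x : G) : cc H x x⁻¹ = 1 := by
  apply Subtype.ext
  show ⁅x, x⁻¹⁆ = 1
  rw [commutatorElement_eq_one_iff_mul_comm]
  simp

theorem cc_one_right (x : G) : cc H x 1 = 1 := by
  apply Subtype.ext
  show ⁅x, (1 : G)⁆ = 1
  simp

theorem cc_one_left (x : G) : cc H 1 x = 1 := by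
  apply Subtype.ext
  show ⁅(1 : G), x⁆ = 1
  simp

/-- The operation of the commutative group. -/
def bmul (x y : G) : G := x * y * ((cc H y x ^ h : center G) : G)

theorem bmul_assoc (x y z : G) : bmul H (bmul H x y) z = bmul H x (bmul H y z) := by
  have hcomm : ∀ (w : center G) (a : G), (w : G) * a = a * w := fun w a => (mem_center_iff.mp w.2 a).symm
  simp only [bmul, cc_mul_left, cc_mul_right, cc_central_left, cc_central_right, mul_one]
  -- move central elements to the right
  have e1 : x * y * ((cc H y x ^ h : center G) : G) * z * (((cc H z x * cc H z y) ^ h : center G) : G) =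
      x * y * z * (((cc H y x ^ h) * (cc H z x * cc H z y) ^ h : center G) : G) := by
    rw [Subgroup.coe_mul, mul_assoc (x * y), hcomm, ← mul_assoc (x * y), mul_assoc (x * y * z)]
  have e2 : x * (y * z * ((cc H z y ^ h : center G) : G)) * (((cc H y x * cc H z x) ^ h : center G) : G) =
      x * y * z * (((cc H z y ^ h) * (cc H y x * cc H z x) ^ h : center G) : G) := by
    rw [Subgroup.coe_mul]
    simp only [mul_assoc]
  rw [e1, e2]
  congr 2
  rw [mul_pow, mul_pow]
  exact (mul_assoc _ _ _).symm.trans (mul_comm _ _)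

theorem two_center (a : center G) : a ^ (2 * h) = a := by
  apply Subtype.ext
  exact H.two a

theorem bmul_comm (x y : G) : bmul H x y = bmul H y x := by
  have hcomm : ∀ (w : center G) (a : G), (w : G) * a = a * w := fun w a => (mem_center_iff.mp w.2 a).symm
  have h1 : y * x = x * y * ((cc H y x : center G) : G) := by
    rw [← hcomm, cc_val]
    simp only [commutatorElement_def]
    group
  have h2 : (cc H y x) ^ h = (cc H y x) * (cc H x y) ^ h := by
    rw [cc_inv_symm H y x, inv_pow]
    have h3 := two_center H (cc H y x)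
    rw [two_mul, pow_add] at h3
    rw [eq_mul_inv_iff_mul_eq]
    exact h3
  simp only [bmul]
  rw [h1, h2, Subgroup.coe_mul]
  simp only [mul_assoc]

theorem bmul_one_left (x : G) : bmul H 1 x = x := by
  simp [bmul, cc_one_right]

theorem bmul_inv_left (x : G) : bmul H x⁻¹ x = 1 := by
  have h1 : cc H x x⁻¹ = 1 := cc_inv_right H _
  simp [bmul, h1]

theorem bmul_map (φ : MulAut G) (x y : G) : φ (bmul H x y) = bmul H (φ x) (φ y) := by
  have h1 : φ (((cc H y x) ^ h : center G) : G) = ((cc H (φ y) (φ x)) ^ h : center G) := by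
    rw [Subgroup.coe_pow, map_pow, Subgroup.coe_pow]
    congr 1
    exact map_commutatorElement φ _ _
  simp only [bmul]
  rw [map_mul, map_mul, h1]

/-- The commutative group structure. -/
def baerCommGroup : CommGroup (BaerT G) :=
  letI : Mul (BaerT G) := ⟨fun x y => (bmul H (x : G) (y : G) : G)⟩
  letI : One (BaerT G) := ⟨((1 : G) : G)⟩
  letI : Inv (BaerT G) := ⟨fun x => (((x : G)⁻¹ : G) : G)⟩
  { Group.ofLeftAxioms (G := BaerT G) (bmul_assoc H) (bmul_one_left H) (bmul_inv_left H) with
    mul_comm := bmul_comm H }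

/-- Automorphisms of `G` act on the commutative group. -/
def baerAut (φ : MulAut G) : @MulAut (BaerT G) (@CommGroup.toGroup _ (baerCommGroup H)).toMul :=
  letI := baerCommGroup H
  { toFun := fun x => (φ (x : G) : G)
    invFun := fun x => (φ⁻¹ (x : G) : G)
    left_inv := fun x => φ.symm_apply_apply (x : G)
    right_inv := fun x => φ.apply_symm_apply (x : G)
    map_mul' := bmul_map H φ }

theorem baerAut_apply (φ : MulAut G) (x : G) : (baerAut H φ) (x : BaerT G) = φ x := rfl

end

/-- The norm argument: a normal `p'`-subgroup of a group acting on an abelian `p`-group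
whose fixed points are those of a `p`-subgroup acts trivially. -/
theorem abelian_key {V A : Type*} [CommGroup V] [Finite V] [Group A] [Finite A] {p : ℕ} [Fact p.Prime]
    (hV : IsPGroup p V) (ρ : A →* MulAut V) (P Q : Subgroup A) (hP : IsPGroup p P)
    (hQ : (Nat.card Q).Coprime p) (hPQ : P ≤ normalizer (Q : Set A))
    (hC : ∀ v : V, (∀ u ∈ P, ρ u v = v) → ∀ σ ∈ Q, ρ σ v = v) :
    ∀ σ ∈ Q, ∀ v : V, ρ σ v = v := by
  classical
  haveI : Fintype Q := Fintype.ofFinite Q
  have hp : p.Prime := Fact.out
  -- the norm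
  let N : V →* V :=
    { toFun := fun v => ∏ σ : Q, ρ σ v
      map_one' := by simp
      map_mul' := by
        intro x y
        simp [Finset.prod_mul_distrib] }
  have hNu : ∀ u ∈ P, ∀ v : V, ρ u (N v) = N (ρ u v) := by
    intro u hu v
    have hconj : ∀ σ : Q, u * σ * u⁻¹ ∈ Q := fun σ =>
      (mem_normalizer_iff.mp (hPQ hu) σ).mp σ.2
    let e : Q ≃ Q :=
      { toFun := fun σ => ⟨u * σ * u⁻¹, hconj σ⟩
        invFun := fun σ => ⟨u⁻¹ * σ * u, by
          have := (mem_normalizer_iff.mp (hPQ (inv_mem hu)) σ).mp σ.2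
          simpa using this⟩
        left_inv := by
          intro σ
          apply Subtype.ext
          simp [mul_assoc]
        right_inv := by
          intro σ
          apply Subtype.ext
          simp [mul_assoc] }
    show ρ u (∏ σ : Q, ρ σ v) = ∏ σ : Q, ρ σ (ρ u v)
    rw [map_prod]
    refine Eq.trans ?_ (Equiv.prod_comp e (fun σ : Q => ρ σ (ρ u v)))
    apply Finset.prod_congr rfl
    intro σ _
    show ρ u (ρ σ v) = ρ (u * σ * u⁻¹) (ρ u v)
    simp [map_mul]
  have hNσ : ∀ σ₀ ∈ Q, ∀ v : V, N (ρ σ₀ v) = N v := by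
    intro σ₀ hσ₀ v
    show (∏ σ : Q, ρ σ (ρ σ₀ v)) = ∏ σ : Q, ρ σ v
    rw [← Equiv.prod_comp (Equiv.mulRight (⟨σ₀, hσ₀⟩ : Q)) (fun σ : Q => ρ σ v)]
    apply Finset.prod_congr rfl
    intro σ _
    simp [map_mul]
  -- the kernel of the norm is trivial
  have hker : N.ker = ⊥ := by
    by_contra hne
    -- the action on the kernel
    letI : MulAction P N.ker :=
      { smul := fun u w => ⟨ρ u w, by
          rw [MonoidHom.mem_ker, ← hNu u u.2, (MonoidHom.mem_ker.mp w.2), map_one]⟩
        one_smul := by
          intro w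
          apply Subtype.ext
          show ρ ((1 : P) : A) w = w
          simp
        mul_smul := by
          intro a b w
          apply Subtype.ext
          show ρ ((a * b : P) : A) w = ρ a (ρ b w)
          simp [map_mul] }
    have h1 := hP.card_modEq_card_fixedPoints N.ker
    obtain ⟨k, hk⟩ := IsPGroup.iff_card.mp (hV.to_subgroup N.ker)
    have hk0 : k ≠ 0 := by
      rintro rfl
      rw [pow_zero] at hk
      exact hne (Subgroup.card_eq_one.mp hk)
    have h2 : p ∣ Nat.card (MulAction.fixedPoints P N.ker) := by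
      have h3 : p ∣ Nat.card N.ker := by
        rw [hk]
        exact dvd_pow_self p hk0
      exact (Nat.modEq_zero_iff_dvd.mp (h1.symm.trans (Nat.modEq_zero_iff_dvd.mpr h3)))
    have h4 : 1 < Nat.card (MulAction.fixedPoints P N.ker) := by
      have h5 : 0 < Nat.card (MulAction.fixedPoints P N.ker) := by
        rw [Nat.card_pos_iff]
        refine ⟨⟨⟨1, one_mem _⟩, ?_⟩, inferInstance⟩
        intro u
        apply Subtype.ext
        show ρ u 1 = 1
        exact map_one _
      have := Nat.le_of_dvd h5 h2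
      have := hp.one_lt
      omega
    haveI := Finite.one_lt_card_iff_nontrivial.mp h4
    obtain ⟨w, hw⟩ := exists_ne (⟨⟨1, one_mem _⟩, fun u => by
      apply Subtype.ext
      show ρ u 1 = 1
      exact map_one _⟩ : MulAction.fixedPoints P N.ker)
    have hw1 : (w : N.ker).1 ≠ 1 := by
      intro h
      apply hw
      apply Subtype.ext
      apply Subtype.ext
      exact h
    have hfix : ∀ u ∈ P, ρ u (w : N.ker).1 = (w : N.ker).1 := by
      intro u hu
      have := w.2 ⟨u, hu⟩
      exact congrArg Subtype.val this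
    have h6 := hC _ hfix
    have h7 : N (w : N.ker).1 = (w : N.ker).1 ^ Nat.card Q := by
      show (∏ σ : Q, ρ σ (w : N.ker).1) = _
      rw [Finset.prod_congr rfl (fun (σ : Q) _ => h6 σ σ.2), Finset.prod_const, Finset.card_univ,
        Nat.card_eq_fintype_card]
    rw [MonoidHom.mem_ker.mp (w : N.ker).2] at h7
    -- the element has `p`-power order
    obtain ⟨j, hj⟩ := hV (w : N.ker).1
    have h8 : orderOf (w : N.ker).1 ∣ Nat.card Q := orderOf_dvd_of_pow_eq_one h7.symm
    have h9 : orderOf (w : N.ker).1 ∣ p ^ j := orderOf_dvd_of_pow_eq_one hj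
    have h10 : orderOf (w : N.ker).1 = 1 :=
      Nat.eq_one_of_dvd_coprimes ((Nat.Coprime.pow_right j hQ)) h8 h9
    exact hw1 (orderOf_eq_one_iff.mp h10)
  intro σ hσ v
  have h1 := hNσ σ hσ v
  exact (MonoidHom.ker_eq_bot_iff N).mp hker h1

end Cfsg.Agent.Lib.Coprime.Baer
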