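import Mathlib
import Cfsg.Prelude.Def_PLocal
import Cfsg.Agent.Lib.Transfer.Frattini
import Cfsg.Agent.Lib.TwoGroups.Present

/-!
# `p`-groups with a self-centralizing cyclic normal subgroup
-/

set_option autoImplicit false
set_option linter.unusedSectionVars false
set_option linter.style.haveILetI false
set_option linter.unusedVariables false

namespace Cfsg.Agent.Lib.Coprime.CycNormal

open Subgroup

/-- Order of a product of two subgroups meeting trivially. -/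
theorem card_of_product {G : Type*} [Group G] [Finite G] {A B K : Subgroup G} (hAK : A ≤ K) (hBK : B ≤ K)
    (hdisj : ∀ x, x ∈ A → x ∈ B → x = 1) (hcov : ∀ k ∈ K, ∃ a ∈ A, ∃ b ∈ B, k = a * b) :
    Nat.card K = Nat.card A * Nat.card B := by
  rw [← Nat.card_prod]
  symm
  apply Nat.card_eq_of_bijective
    (fun q : A × B => (⟨(q.1 : G) * (q.2 : G), K.mul_mem (hAK q.1.2) (hBK q.2.2)⟩ : K))
  constructor
  · rintro ⟨⟨a, ha⟩, ⟨b, hb⟩⟩ ⟨⟨a', ha'⟩, ⟨b', hb'⟩⟩ e
    have e' : a * b = a' * b' := congrArg Subtype.val e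
    have h1 : a'⁻¹ * a = b' * b⁻¹ := by
      calc a'⁻¹ * a = a'⁻¹ * (a * b) * b⁻¹ := by group
        _ = a'⁻¹ * (a' * b') * b⁻¹ := by rw [e']
        _ = b' * b⁻¹ := by group
    have h2 : a'⁻¹ * a = 1 := hdisj _ (A.mul_mem (A.inv_mem ha') ha) (by
      rw [h1]
      exact B.mul_mem hb' (B.inv_mem hb))
    have h3 : a = a' := by
      have := inv_mul_eq_one.mp h2
      exact this.symm
    subst h3
    have h4 : b = b' := mul_left_cancel e'
    subst h4
    rfl
  · rintro ⟨k, hk⟩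
    obtain ⟨a, ha, b, hb, rfl⟩ := hcov k hk
    exact ⟨(⟨a, ha⟩, ⟨b, hb⟩), rfl⟩

/-- `(XY)^m = X^m Y^m D^(m choose 2)` when `YX = XYD` with `D` commuting with `X` and `Y`. -/
theorem mul_pow_of_comm {G : Type*} [Group G] {X Y D : G} (hX : D * X = X * D) (hY : D * Y = Y * D)
    (h : Y * X = X * Y * D) (m : ℕ) :
    (X * Y) ^ m = X ^ m * Y ^ m * D ^ (m.choose 2) := by
  have hcX : Commute D X := hX
  have hcY : Commute D Y := hY
  have h1 : ∀ k : ℕ, Y ^ k * X = X * Y ^ k * D ^ k := by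
    intro k
    induction k with
    | zero => simp
    | succ k ih =>
      calc Y ^ (k + 1) * X = Y ^ k * (Y * X) := by rw [pow_succ]; group
        _ = Y ^ k * (X * Y * D) := by rw [h]
        _ = (Y ^ k * X) * Y * D := by group
        _ = (X * Y ^ k * D ^ k) * Y * D := by rw [ih]
        _ = X * Y ^ k * (D ^ k * Y) * D := by group
        _ = X * Y ^ k * (Y * D ^ k) * D := by rw [(hcY.pow_left k).eq]
        _ = X * Y ^ (k + 1) * D ^ (k + 1) := by rw [pow_succ, pow_succ]; group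
  induction m with
  | zero => simp
  | succ m ih =>
    have hch : (m + 1).choose 2 = m + m.choose 2 := by
      rw [Nat.choose_succ_succ' m 1, Nat.choose_one_right]
    calc (X * Y) ^ (m + 1) = (X * Y) ^ m * (X * Y) := pow_succ _ _
      _ = X ^ m * Y ^ m * D ^ (m.choose 2) * (X * Y) := by rw [ih]
      _ = X ^ m * Y ^ m * (D ^ (m.choose 2) * X) * Y := by group
      _ = X ^ m * Y ^ m * (X * D ^ (m.choose 2)) * Y := by rw [(hcX.pow_left _).eq]
      _ = X ^ m * (Y ^ m * X) * D ^ (m.choose 2) * Y := by group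
      _ = X ^ m * (X * Y ^ m * D ^ m) * D ^ (m.choose 2) * Y := by rw [h1]
      _ = X ^ (m + 1) * Y ^ m * D ^ (m + m.choose 2) * Y := by
        rw [pow_add, pow_succ]; group
      _ = X ^ (m + 1) * Y ^ m * (D ^ (m + m.choose 2) * Y) := by group
      _ = X ^ (m + 1) * Y ^ m * (Y * D ^ (m + m.choose 2)) := by rw [(hcY.pow_left _).eq]
      _ = X ^ (m + 1) * Y ^ (m + 1) * D ^ ((m + 1).choose 2) := by
        rw [hch, pow_succ Y]; group

variable {G : Type*} [Group G] [Finite G] {p : ℕ} [hpf : Fact p.Prime] {u : G} {n : ℕ}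

/-- Self-centralizing normal cyclic data. -/
structure CN (p n : ℕ) (u : G) : Prop where
  ord : orderOf u = p ^ n
  hn : 2 ≤ n
  cent : ∀ g : G, g * u = u * g → g ∈ zpowers u
  norm : ∀ g : G, ∃ k : ℕ, g * u * g⁻¹ = u ^ k

theorem CN.zpow_eq_one_iff (h : CN p n u) {b : ℤ} : u ^ b = 1 ↔ ((p : ℤ) ^ n) ∣ b := by
  rw [← orderOf_dvd_iff_zpow_eq_one, h.ord]
  push_cast
  rfl

/-- The element `z` of order `p` in the cyclic group. -/
noncomputable def zz (p n : ℕ) (u : G) : G := u ^ (p ^ (n - 1))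

theorem CN.hn1 (h : CN p n u) : p ^ (n - 1) * p = p ^ n := by
  have := h.hn
  rw [← pow_succ]
  congr 1
  omega

theorem CN.zz_pow (h : CN p n u) : (zz p n u) ^ p = 1 := by
  unfold zz
  rw [← pow_mul, h.hn1, ← h.ord, pow_orderOf_eq_one]

theorem CN.zz_ne (h : CN p n u) : zz p n u ≠ 1 := by
  unfold zz
  intro e
  have h1 : orderOf u ∣ p ^ (n - 1) := orderOf_dvd_of_pow_eq_one e
  rw [h.ord] at h1
  have hp : p.Prime := hpf.out
  have := (Nat.pow_dvd_pow_iff_le_right hp.one_lt).mp h1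
  have h2 := h.hn
  omega

theorem CN.zz_order (h : CN p n u) : orderOf (zz p n u) = p :=
  orderOf_eq_prime h.zz_pow h.zz_ne

/-- An element of `⟨u⟩` of order dividing `p` lies in `⟨z⟩`. -/
theorem CN.mem_zz (h : CN p n u) {x : G} (hx : x ∈ zpowers u) (hxp : x ^ p = 1) :
    x ∈ zpowers (zz p n u) := by
  have hp : p.Prime := hpf.out
  obtain ⟨b, rfl⟩ := hx
  have h1 : u ^ (b * p) = 1 := by
    rw [zpow_mul]
    simpa using hxp
  rw [h.zpow_eq_one_iff] at h1
  have h2 : (p : ℤ) ^ n = (p : ℤ) ^ (n - 1) * p := by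
    have := h.hn1
    exact_mod_cast this.symm
  rw [h2] at h1
  have hp0 : (p : ℤ) ≠ 0 := by exact_mod_cast hp.ne_zero
  obtain ⟨e, he⟩ := (mul_dvd_mul_iff_right hp0).mp h1
  refine ⟨e, ?_⟩
  show (u ^ (p ^ (n - 1))) ^ e = u ^ b
  rw [he, ← zpow_natCast, ← zpow_mul]
  push_cast
  rfl

theorem CN.conj_mem (h : CN p n u) (g : G) : g * u * g⁻¹ ∈ zpowers u := by
  obtain ⟨k, hk⟩ := h.norm g
  rw [hk]
  exact npow_mem_zpowers u k

theorem CN.conj_mem' (h : CN p n u) (g : G) {x : G} (hx : x ∈ zpowers u) : g * x * g⁻¹ ∈ zpowers u := by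
  obtain ⟨b, rfl⟩ := hx
  show g * u ^ b * g⁻¹ ∈ zpowers u
  rw [← conj_zpow]
  exact Subgroup.zpow_mem _ (h.conj_mem g) b

/-- For `g` centralizing `u^p`, the commutator `[g,u]` lies in `⟨z⟩`. -/
theorem CN.comm_mem (h : CN p n u) {g : G} (hg : g * u ^ p = u ^ p * g) :
    g * u * g⁻¹ * u⁻¹ ∈ zpowers (zz p n u) := by
  apply h.mem_zz
  · exact mul_mem (h.conj_mem g) (inv_mem (mem_zpowers u))
  · obtain ⟨k, hk⟩ := h.norm g
    have hc : Commute (g * u * g⁻¹) u⁻¹ := by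
      rw [hk]
      exact ((Commute.refl u).pow_left k).inv_right
    rw [hc.mul_pow, conj_pow, inv_pow, hg]
    group

/-- Elements of `⟨z⟩` commute with anything centralizing `u^p`. -/
theorem CN.comm_zz (h : CN p n u) {g x : G} (hg : g * u ^ p = u ^ p * g) (hx : x ∈ zpowers (zz p n u)) :
    g * x = x * g := by
  have h1 : zz p n u = (u ^ p) ^ (p ^ (n - 2)) := by
    unfold zz
    rw [← pow_mul, ← pow_succ']
    congr 2
    have := h.hn
    omega
  have hc : Commute g (u ^ p) := hg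
  obtain ⟨b, rfl⟩ := hx
  have : Commute g ((zz p n u) ^ b) := by
    rw [h1]
    exact (hc.pow_right _).zpow_right b
  exact this


/-- Main configuration: `t` centralizes `u^p` but not `u`. -/
structure CT (p n : ℕ) (u t c : G) : Prop extends CN p n u where
  tm : t * u ^ p = u ^ p * t
  tn : t ∉ zpowers u
  tc : t * u * t⁻¹ = c * u

variable {t c : G}

theorem CT.c_def (h : CT p n u t c) : c = t * u * t⁻¹ * u⁻¹ := by
  rw [h.tc]
  group

theorem CT.c_mem (h : CT p n u t c) : c ∈ zpowers (zz p n u) := by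
  rw [h.c_def]
  exact h.comm_mem h.tm

theorem CT.c_ne (h : CT p n u t c) : c ≠ 1 := by
  intro e
  apply h.tn
  apply h.cent
  have h1 := h.tc
  rw [e, one_mul] at h1
  calc t * u = (t * u * t⁻¹) * t := by group
    _ = u * t := by rw [h1]

theorem CT.c_pow (h : CT p n u t c) : c ^ p = 1 := by
  obtain ⟨b, hb⟩ := h.c_mem
  rw [← hb]
  show ((zz p n u) ^ b) ^ p = 1
  rw [← zpow_natCast, ← zpow_mul, mul_comm, zpow_mul, zpow_natCast, h.zz_pow, one_zpow]

theorem CT.c_order (h : CT p n u t c) : orderOf c = p := orderOf_eq_prime h.c_pow h.c_ne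

theorem CT.zpowers_c (h : CT p n u t c) : zpowers c = zpowers (zz p n u) := by
  apply Subgroup.eq_of_le_of_card_ge
  · rw [Subgroup.zpowers_le]
    exact h.c_mem
  · rw [Nat.card_zpowers, Nat.card_zpowers, h.c_order, h.zz_order]

theorem CT.comm_c (h : CT p n u t c) {g : G} (hg : g * u ^ p = u ^ p * g) : g * c = c * g :=
  h.comm_zz hg h.c_mem

theorem CT.c_u (h : CT p n u t c) : c * u = u * c := by
  have : Commute u (u ^ p) := (Commute.refl u).pow_right p
  exact (h.comm_c this.eq).symm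

theorem CT.c_t (h : CT p n u t c) : c * t = t * c := (h.comm_c h.tm).symm

theorem CT.c_mem_u (h : CT p n u t c) : c ∈ zpowers u := by
  have h1 : zz p n u ∈ zpowers u := npow_mem_zpowers u _
  exact ((Subgroup.zpowers_le).mpr h1) h.c_mem

theorem CT.pow_conj (h : CT p n u t c) (a : ℕ) : t ^ a * u * (t ^ a)⁻¹ = c ^ a * u := by
  induction a with
  | zero => simp
  | succ a ih =>
    have hct : Commute c t := h.c_t
    calc t ^ (a + 1) * u * (t ^ (a + 1))⁻¹ = t * (t ^ a * u * (t ^ a)⁻¹) * t⁻¹ := by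
          rw [pow_succ' t a]; group
      _ = t * (c ^ a * u) * t⁻¹ := by rw [ih]
      _ = (t * c ^ a) * u * t⁻¹ := by group
      _ = (c ^ a * t) * u * t⁻¹ := by rw [(hct.pow_left a).eq]
      _ = c ^ a * (t * u * t⁻¹) := by group
      _ = c ^ (a + 1) * u := by rw [h.tc, pow_succ]; group

theorem CT.zpow_conj (h : CT p n u t c) (a : ℕ) (b : ℤ) :
    t ^ a * u ^ b * (t ^ a)⁻¹ = (c ^ a) ^ b * u ^ b := by
  have hcu : Commute (c ^ a) u := (show Commute c u from h.c_u).pow_left a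
  rw [← conj_zpow, h.pow_conj, hcu.mul_zpow]

/-- Every element centralizing `u^p` has the form `t^a u^b`. -/
theorem CT.decomp (h : CT p n u t c) {g : G} (hg : g * u ^ p = u ^ p * g) :
    ∃ (a : ℕ) (b : ℤ), g = t ^ a * u ^ b := by
  have h1 := h.comm_mem hg
  rw [← h.zpowers_c] at h1
  have hfin : IsOfFinOrder c := isOfFinOrder_of_finite c
  rw [← mem_powers_iff_mem_zpowers] at h1
  obtain ⟨a, ha⟩ := h1
  have ha' : c ^ a = g * u * g⁻¹ * u⁻¹ := ha
  have h2 : g * u * g⁻¹ = c ^ a * u := by rw [ha']; group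
  have h3 : (t ^ a)⁻¹ * g ∈ zpowers u := by
    apply h.cent
    have h4 := h.pow_conj a
    calc (t ^ a)⁻¹ * g * u = (t ^ a)⁻¹ * (g * u * g⁻¹) * g := by group
      _ = (t ^ a)⁻¹ * (t ^ a * u * (t ^ a)⁻¹) * g := by rw [h2, h4]
      _ = u * ((t ^ a)⁻¹ * g) := by group
  obtain ⟨b, hb⟩ := h3
  refine ⟨a, b, ?_⟩
  have hb' : u ^ b = (t ^ a)⁻¹ * g := hb
  rw [hb']
  group

theorem CT.pow_formula (h : CT p n u t c) (a : ℕ) (b : ℤ) (m : ℕ) :
    (t ^ a * u ^ b) ^ m = (t ^ a) ^ m * (u ^ b) ^ m * (((c ^ a) ^ b)⁻¹) ^ (m.choose 2) := by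
  have hct : Commute ((c ^ a) ^ b)⁻¹ (t ^ a) :=
    (((show Commute c t from h.c_t).pow_left a).zpow_left b).pow_right a |>.inv_left |> fun x => by
      simpa using x
  have hcu : Commute ((c ^ a) ^ b)⁻¹ (u ^ b) :=
    ((((show Commute c u from h.c_u).pow_left a).zpow_left b).zpow_right b).inv_left
  apply mul_pow_of_comm hct hcu
  have h1 := h.zpow_conj a b
  calc u ^ b * t ^ a = ((c ^ a) ^ b)⁻¹ * ((c ^ a) ^ b * u ^ b) * t ^ a := by group
    _ = ((c ^ a) ^ b)⁻¹ * (t ^ a * u ^ b * (t ^ a)⁻¹) * t ^ a := by rw [h1]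
    _ = ((c ^ a) ^ b)⁻¹ * (t ^ a * u ^ b) := by group
    _ = t ^ a * u ^ b * ((c ^ a) ^ b)⁻¹ := by
      have hc2 : Commute ((c ^ a) ^ b)⁻¹ (t ^ a * u ^ b) := hct.mul_right hcu
      exact hc2.eq

/-- `t^p` is a `p`-th power of an element of `⟨u⟩`. -/
theorem CT.t_pow (h : CT p n u t c) : ∃ j : ℤ, t ^ p = u ^ ((p : ℤ) * j) := by
  have hp : p.Prime := hpf.out
  have h1 : t ^ p ∈ zpowers u := by
    apply h.cent
    have h2 := h.pow_conj p
    rw [h.c_pow, one_mul] at h2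
    calc t ^ p * u = (t ^ p * u * (t ^ p)⁻¹) * t ^ p := by group
      _ = u * t ^ p := by rw [h2]
  obtain ⟨i, hi⟩ := h1
  have hi' : u ^ i = t ^ p := hi
  have h3 := h.zpow_conj 1 i
  rw [pow_one, pow_one, hi'] at h3
  have h4 : t * t ^ p * t⁻¹ = t ^ p := by
    calc t * t ^ p * t⁻¹ = t ^ (p + 1) * t⁻¹ := by rw [pow_succ' t p]
      _ = t ^ p := by rw [pow_succ]; group
  rw [h4] at h3
  have h5 : c ^ i = 1 := by
    have e : c ^ i * t ^ p = 1 * t ^ p := by
      rw [one_mul]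
      exact h3.symm
    exact mul_right_cancel e
  have h6 : (p : ℤ) ∣ i := by
    rw [← h.c_order]
    exact orderOf_dvd_iff_zpow_eq_one.mpr h5
  obtain ⟨j, hj⟩ := h6
  exact ⟨j, by rw [← hj, hi']⟩

/-- Translating `t` by an element of `⟨u⟩`. -/
theorem CT.translate (h : CT p n u t c) (b : ℤ) : CT p n u (t * u ^ b) c := by
  refine ⟨h.toCN, ?_, ?_, ?_⟩
  · have h1 : Commute (u ^ b) (u ^ p) := ((Commute.refl u).zpow_left b).pow_right p
    calc t * u ^ b * u ^ p = t * (u ^ b * u ^ p) := by group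
      _ = t * (u ^ p * u ^ b) := by rw [h1.eq]
      _ = (t * u ^ p) * u ^ b := by group
      _ = u ^ p * t * u ^ b := by rw [h.tm]
      _ = u ^ p * (t * u ^ b) := by group
  · intro hmem
    apply h.tn
    have h2 : t = (t * u ^ b) * (u ^ b)⁻¹ := by group
    rw [h2]
    exact mul_mem hmem (inv_mem (zpow_mem_zpowers u b))
  · have h1 : Commute (u ^ b) u := (Commute.refl u).zpow_left b
    calc t * u ^ b * u * (t * u ^ b)⁻¹ = t * (u ^ b * u) * (u ^ b)⁻¹ * t⁻¹ := by group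
      _ = t * (u * u ^ b) * (u ^ b)⁻¹ * t⁻¹ := by rw [h1.eq]
      _ = t * u * t⁻¹ := by group
      _ = c * u := h.tc

/-- For `p` odd, or `n ≥ 3`: a translate of `t` has order `p`. -/
theorem CT.exists_translate (h : CT p n u t c) (hc : p ≠ 2 ∨ 3 ≤ n) :
    ∃ b : ℤ, (t * u ^ b) ^ p = 1 := by
  have hp : p.Prime := hpf.out
  obtain ⟨j, hj⟩ := h.t_pow
  by_cases hp2 : p = 2
  · subst hp2
    have hn3 : 3 ≤ n := by
      rcases hc with hc | hc
      · exact absurd rfl hc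
      · exact hc
    -- `c = z`
    obtain ⟨e, he⟩ := h.c_mem
    have hz2 := h.zz_pow
    have hcz : c = zz 2 n u := by
      have h1 : (zz 2 n u) ^ e = c := he
      rcases Int.even_or_odd' e with ⟨k, rfl | rfl⟩
      · exfalso
        apply h.c_ne
        rw [← h1, zpow_mul, zpow_ofNat, hz2, one_zpow]
      · rw [← h1, zpow_add, zpow_mul, zpow_ofNat, hz2, one_zpow, one_mul, zpow_one]
    have hz : c = u ^ (2 ^ (n - 1)) := hcz
    refine ⟨- j * (1 + 2 ^ (n - 2)), ?_⟩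
    have h1 := h.pow_formula 1 (- j * (1 + 2 ^ (n - 2))) 2
    rw [pow_one, pow_one] at h1
    rw [h1]
    have hch : (2 : ℕ).choose 2 = 1 := by norm_num
    rw [hch, pow_one, hj, hz]
    have h2 : u ^ ((2 : ℕ) * j : ℤ) * (u ^ (- j * (1 + 2 ^ (n - 2)))) ^ 2 *
        ((u ^ (2 ^ (n - 1))) ^ (- j * (1 + 2 ^ (n - 2))))⁻¹ =
        u ^ (((2 : ℕ) * j : ℤ) + (- j * (1 + 2 ^ (n - 2))) * 2 - (2 ^ (n - 1) : ℕ) * (- j * (1 + 2 ^ (n - 2)))) := by
      rw [sub_eq_add_neg, zpow_add, zpow_add, zpow_mul u (- j * (1 + 2 ^ (n - 2))) 2, zpow_neg,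
        zpow_mul u ((2 ^ (n - 1) : ℕ) : ℤ) (- j * (1 + 2 ^ (n - 2))), zpow_natCast]
      rw [zpow_ofNat]
    rw [h2, h.zpow_eq_one_iff]
    obtain ⟨m, rfl⟩ : ∃ m, n = m + 3 := ⟨n - 3, by omega⟩
    refine ⟨j * 2 ^ m, ?_⟩
    have e1 : m + 3 - 2 = m + 1 := by omega
    have e2 : m + 3 - 1 = m + 2 := by omega
    rw [e1, e2]
    push_cast
    ring
  · have hp3 : 2 < p := lt_of_le_of_ne hp.two_le (Ne.symm hp2)
    refine ⟨-j, ?_⟩
    have h1 := h.pow_formula 1 (-j) p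
    rw [pow_one, pow_one] at h1
    rw [h1]
    obtain ⟨q, hq⟩ := hp.dvd_choose_self (by norm_num : (2 : ℕ) ≠ 0) hp3
    have h2 : (((c ^ 1) ^ (-j))⁻¹) ^ (p.choose 2) = 1 := by
      rw [hq, pow_mul, inv_pow, pow_one, ← zpow_natCast (c ^ (-j)) p, ← zpow_mul, mul_comm, zpow_mul,
        zpow_natCast, h.c_pow, one_zpow, inv_one, one_pow]
    rw [pow_one] at h2
    rw [h2, mul_one, hj, ← zpow_natCast, ← zpow_mul, ← zpow_add, h.zpow_eq_one_iff]
    have : (p : ℤ) * j + -j * (p : ℤ) = 0 := by ring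
    rw [this]
    exact dvd_zero _


/-- Elements of exponent `p` centralizing `u^p`, when `t` has order dividing `p`. -/
theorem CT.exp_p (h : CT p n u t c) (hc : p ≠ 2 ∨ 3 ≤ n) (ht : t ^ p = 1) {x : G}
    (hx : x * u ^ p = u ^ p * x) (hxp : x ^ p = 1) : ∃ a : ℕ, ∃ e ∈ zpowers c, x = t ^ a * e := by
  have hp : p.Prime := hpf.out
  obtain ⟨a, b, rfl⟩ := h.decomp hx
  refine ⟨a, u ^ b, ?_, rfl⟩
  rw [h.zpowers_c]
  apply h.mem_zz (zpow_mem_zpowers u b)
  have h1 := h.pow_formula a b p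
  rw [hxp] at h1
  have h2 : (t ^ a) ^ p = 1 := by
    rw [← pow_mul, mul_comm, pow_mul, ht, one_pow]
  rw [h2, one_mul] at h1
  by_cases hp2 : p = 2
  · subst hp2
    have hn3 : 3 ≤ n := by
      rcases hc with hc | hc
      · exact absurd rfl hc
      · exact hc
    have hch : (2 : ℕ).choose 2 = 1 := by norm_num
    rw [hch, pow_one] at h1
    -- `D² = 1`
    have hc2 : c ^ 2 = 1 := h.c_pow
    have hD : ((c ^ a) ^ b) ^ 2 = 1 := by
      rw [← zpow_natCast ((c ^ a) ^ b) 2, ← zpow_mul, mul_comm, zpow_mul, zpow_natCast, ← pow_mul, mul_comm,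
        pow_mul, hc2, one_pow, one_zpow]
    have h3 : (u ^ b) ^ 2 = (c ^ a) ^ b := by
      have := eq_inv_of_mul_eq_one_left h1.symm
      simpa using this
    have h4 : u ^ (b * 4) = 1 := by
      have e1 : u ^ (b * 4) = ((u ^ b) ^ 2) ^ 2 := by
        rw [← pow_mul, ← zpow_natCast (u ^ b), ← zpow_mul]
        norm_num
      rw [e1, h3, hD]
    rw [h.zpow_eq_one_iff] at h4
    obtain ⟨m, rfl⟩ : ∃ m, n = m + 3 := ⟨n - 3, by omega⟩
    have h5 : (2 : ℤ) ∣ b := by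
      have e2 : ((2 : ℕ) : ℤ) ^ (m + 3) = 2 * (2 ^ m * 4) := by
        push_cast
        ring
      rw [e2] at h4
      obtain ⟨f, hf⟩ := h4
      refine ⟨2 ^ m * f, ?_⟩
      have : b * 4 = (2 * (2 ^ m * f)) * 4 := by
        rw [hf]
        ring
      exact mul_right_cancel₀ (by norm_num) this
    obtain ⟨f, rfl⟩ := h5
    have h6 : (c ^ a) ^ (2 * f) = 1 := by
      rw [zpow_mul, zpow_ofNat, ← pow_mul, mul_comm a 2, pow_mul, hc2, one_pow, one_zpow]
    rw [h6] at h3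
    exact h3
  · have hp3 : 2 < p := lt_of_le_of_ne hp.two_le (Ne.symm hp2)
    obtain ⟨q, hq⟩ := hp.dvd_choose_self (by norm_num : (2 : ℕ) ≠ 0) hp3
    have h2' : (((c ^ a) ^ b)⁻¹) ^ (p.choose 2) = 1 := by
      rw [hq, pow_mul, inv_pow, ← zpow_natCast ((c ^ a) ^ b) p, ← zpow_mul, mul_comm, zpow_mul,
        zpow_natCast, ← pow_mul, mul_comm, pow_mul, h.c_pow, one_pow, one_zpow, inv_one, one_pow]
    rw [h2', mul_one] at h1
    exact h1.symm


theorem CT.t_order (h : CT p n u t c) (ht : t ^ p = 1) : orderOf t = p := by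
  refine orderOf_eq_prime ht ?_
  rintro rfl
  exact h.tn (one_mem _)

theorem CT.disj (h : CT p n u t c) (ht : t ^ p = 1) (x : G) (hx : x ∈ zpowers t) (hx' : x ∈ zpowers u) :
    x = 1 := by
  by_contra hne
  have hcard : Nat.card (zpowers t) = p := by rw [Nat.card_zpowers, h.t_order ht]
  have h1 := mem_zpowers_of_prime_card hcard (g := (⟨x, hx⟩ : zpowers t)) (g' := ⟨t, mem_zpowers t⟩)
    (by
      intro e
      exact hne (congrArg Subtype.val e))
  obtain ⟨k, hk⟩ := h1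
  have hk' : x ^ k = t := by
    have := congrArg Subtype.val hk
    simpa using this
  apply h.tn
  rw [← hk']
  exact Subgroup.zpow_mem _ hx' k

section Final

variable {M : Subgroup G} (hM : ∀ g, g ∈ M ↔ g * u ^ p = u ^ p * g)

include hM

theorem CT.relIndex (h : CT p n u t c) (ht : t ^ p = 1) : (zpowers u).relIndex M = p := by
  have hp : p.Prime := hpf.out
  have hle : zpowers u ≤ M := by
    rw [Subgroup.zpowers_le, hM]
    exact ((Commute.refl u).pow_right p).eq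
  have h1 : Nat.card M = Nat.card (zpowers t) * Nat.card (zpowers u) := by
    apply card_of_product
    · rw [Subgroup.zpowers_le, hM]
      exact h.tm
    · exact hle
    · exact h.disj ht
    · intro k hk
      obtain ⟨a, b, rfl⟩ := h.decomp ((hM _).mp hk)
      exact ⟨_, npow_mem_zpowers t a, _, zpow_mem_zpowers u b, rfl⟩
  have h2 : Nat.card (zpowers u) * (zpowers u).relIndex M = Nat.card M := by
    have h3 := Subgroup.card_mul_index ((zpowers u).subgroupOf M)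
    rw [Nat.card_congr (Subgroup.subgroupOfEquivOfLe hle).toEquiv] at h3
    exact h3
  rw [h1, Nat.card_zpowers t, h.t_order ht, mul_comm] at h2
  exact Nat.eq_of_mul_eq_mul_right Nat.card_pos h2

theorem CT.omega_cover (h : CT p n u t c) (hc : p ≠ 2 ∨ 3 ≤ n) (ht : t ^ p = 1) :
    ∀ x ∈ Cfsg.omegaOne p M, ∃ a ∈ zpowers t, ∃ b ∈ zpowers c, x = a * b := by
  have hct : ∀ a ∈ zpowers t, ∀ b ∈ zpowers c, a * b = b * a := by
    rintro _ ⟨i, rfl⟩ _ ⟨j, rfl⟩
    have : Commute t c := (show Commute c t from h.c_t).symm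
    exact (this.zpow_zpow i j).eq
  intro x hx
  unfold Cfsg.omegaOne at hx
  induction hx using Subgroup.closure_induction with
  | mem x hx =>
    obtain ⟨a, e, he, rfl⟩ := h.exp_p hc ht ((hM _).mp hx.1) hx.2
    exact ⟨_, npow_mem_zpowers t a, e, he, rfl⟩
  | one => exact ⟨1, one_mem _, 1, one_mem _, by simp⟩
  | mul x y _ _ ihx ihy =>
    obtain ⟨a, ha, b, hb, rfl⟩ := ihx
    obtain ⟨a', ha', b', hb', rfl⟩ := ihy
    refine ⟨a * a', mul_mem ha ha', b * b', mul_mem hb hb', ?_⟩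
    calc a * b * (a' * b') = a * (b * a') * b' := by group
      _ = a * (a' * b) * b' := by rw [hct a' ha' b hb]
      _ = a * a' * (b * b') := by group
  | inv x _ ih =>
    obtain ⟨a, ha, b, hb, rfl⟩ := ih
    refine ⟨a⁻¹, inv_mem ha, b⁻¹, inv_mem hb, ?_⟩
    rw [mul_inv_rev]
    exact (hct _ (inv_mem ha) _ (inv_mem hb)).symm

theorem CT.mem_omega_t (h : CT p n u t c) (ht : t ^ p = 1) : t ∈ Cfsg.omegaOne p M :=
  Subgroup.subset_closure ⟨(hM _).mpr h.tm, ht⟩

theorem CT.mem_omega_c (h : CT p n u t c) : c ∈ Cfsg.omegaOne p M :=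
  Subgroup.subset_closure ⟨(hM _).mpr (by
    have hcu : Commute c u := h.c_u
    exact (hcu.pow_right p).eq), h.c_pow⟩

theorem CT.omega_card (h : CT p n u t c) (hc : p ≠ 2 ∨ 3 ≤ n) (ht : t ^ p = 1) :
    Nat.card (Cfsg.omegaOne p M) = p ^ 2 := by
  rw [card_of_product (A := zpowers t) (B := zpowers c), Nat.card_zpowers, Nat.card_zpowers,
    h.t_order ht, h.c_order, pow_two]
  · rw [Subgroup.zpowers_le]
    exact h.mem_omega_t hM ht
  · rw [Subgroup.zpowers_le]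
    exact h.mem_omega_c hM
  · intro x hx hx'
    exact h.disj ht x hx ((Subgroup.zpowers_le.mpr h.c_mem_u) hx')
  · exact h.omega_cover hM hc ht

theorem CT.omega_elem (h : CT p n u t c) (hc : p ≠ 2 ∨ 3 ≤ n) (ht : t ^ p = 1) :
    Cfsg.IsElementaryAbelian p (Cfsg.omegaOne p M) := by
  have hct : Commute t c := (show Commute c t from h.c_t).symm
  refine ⟨⟨⟨?_⟩⟩, ?_⟩
  · rintro ⟨x, hx⟩ ⟨y, hy⟩
    apply Subtype.ext
    obtain ⟨a, ⟨i, rfl⟩, b, ⟨j, rfl⟩, rfl⟩ := h.omega_cover hM hc ht x hx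
    obtain ⟨a', ⟨i', rfl⟩, b', ⟨j', rfl⟩, rfl⟩ := h.omega_cover hM hc ht y hy
    show t ^ i * c ^ j * (t ^ i' * c ^ j') = t ^ i' * c ^ j' * (t ^ i * c ^ j)
    have h1 : Commute (t ^ i) (t ^ i') := (Commute.refl t).zpow_zpow i i'
    have h2 : Commute (c ^ j) (c ^ j') := (Commute.refl c).zpow_zpow j j'
    have h3 : Commute (c ^ j) (t ^ i') := (hct.zpow_zpow i' j).symm
    have h4 : Commute (t ^ i) (c ^ j') := hct.zpow_zpow i j'
    calc t ^ i * c ^ j * (t ^ i' * c ^ j') = t ^ i * (c ^ j * t ^ i') * c ^ j' := by group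
      _ = t ^ i * (t ^ i' * c ^ j) * c ^ j' := by rw [h3.eq]
      _ = (t ^ i * t ^ i') * (c ^ j * c ^ j') := by group
      _ = (t ^ i' * t ^ i) * (c ^ j' * c ^ j) := by rw [h1.eq, h2.eq]
      _ = t ^ i' * (t ^ i * c ^ j') * c ^ j := by group
      _ = t ^ i' * (c ^ j' * t ^ i) * c ^ j := by rw [h4.eq]
      _ = t ^ i' * c ^ j' * (t ^ i * c ^ j) := by group
  · intro x hx
    obtain ⟨a, ⟨i, rfl⟩, b, ⟨j, rfl⟩, rfl⟩ := h.omega_cover hM hc ht x hx
    show (t ^ i * c ^ j) ^ p = 1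
    have h3 : Commute (t ^ i) (c ^ j) := hct.zpow_zpow i j
    rw [h3.mul_pow, ← zpow_natCast (t ^ i), ← zpow_natCast (c ^ j), ← zpow_mul, ← zpow_mul,
      mul_comm i, mul_comm j, zpow_mul, zpow_mul, zpow_natCast, zpow_natCast, ht, h.c_pow, one_zpow, one_zpow,
      one_mul]

theorem CN.M_normal (h : CN p n u) : M.Normal := by
  refine ⟨fun x hx g => ?_⟩
  rw [hM] at hx ⊢
  obtain ⟨k, hk⟩ := h.norm g⁻¹
  rw [inv_inv] at hk
  have hcx : Commute x (u ^ p) := hx
  have h1 : g⁻¹ * u ^ p * g = (u ^ p) ^ k := by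
    have := conj_pow (a := g⁻¹) (b := u) (i := p)
    rw [inv_inv] at this
    rw [← this, hk, ← pow_mul, ← pow_mul, mul_comm]
  have h2 : x * (g⁻¹ * u ^ p * g) = (g⁻¹ * u ^ p * g) * x := by
    rw [h1]
    exact (hcx.pow_right k).eq
  calc g * x * g⁻¹ * u ^ p = g * (x * (g⁻¹ * u ^ p * g)) * g⁻¹ := by group
    _ = g * ((g⁻¹ * u ^ p * g) * x) * g⁻¹ := by rw [h2]
    _ = u ^ p * (g * x * g⁻¹) := by group

omit hM in
theorem omega_normal (hMn : M.Normal) : (Cfsg.omegaOne p M).Normal := by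
  refine ⟨fun x hx g => ?_⟩
  unfold Cfsg.omegaOne at hx ⊢
  induction hx using Subgroup.closure_induction with
  | mem x hx =>
    apply Subgroup.subset_closure
    refine ⟨hMn.conj_mem x hx.1 g, ?_⟩
    rw [conj_pow, hx.2]
    group
  | one => simp
  | mul x y _ _ ihx ihy =>
    have : g * (x * y) * g⁻¹ = (g * x * g⁻¹) * (g * y * g⁻¹) := by group
    rw [this]
    exact mul_mem ihx ihy
  | inv x _ ih =>
    have : g * x⁻¹ * g⁻¹ = (g * x * g⁻¹)⁻¹ := by group
    rw [this]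
    exact inv_mem ih

omit hM in
/-- A normal subgroup of order `p²` and exponent `p` centralizes `u^p`. -/
theorem comm_of_normal (hG : IsPGroup p G) {R : Subgroup G} [hR : R.Normal] (hexp : ∀ r ∈ R, r ^ p = 1)
    (hcard : Nat.card R = p ^ 2) (u : G) {r : G} (hr : r ∈ R) : r * u ^ p = u ^ p * r := by
  have hp : p.Prime := hpf.out
  have hRne : R ≠ ⊥ := by
    intro e
    rw [e, Subgroup.card_bot] at hcard
    have : 1 < p ^ 2 := Nat.one_lt_pow (by norm_num) hp.one_lt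
    omega
  obtain ⟨M₀, hM₀n, hM₀R, hne, -, hcomm⟩ := Cfsg.Agent.Lib.Transfer.exists_central_section hG (N := R) hRne
  -- `M₀` is central
  have hcen : ∀ x ∈ M₀, ∀ y : G, x * y = y * x := by
    by_cases hbot : M₀ = ⊥
    · intro x hx y
      rw [hbot, Subgroup.mem_bot] at hx
      subst hx
      group
    · haveI := hM₀n
      obtain ⟨M₁, hM₁n, hM₁R, hne1, -, hcomm1⟩ := Cfsg.Agent.Lib.Transfer.exists_central_section hG (N := M₀) hbot
      have h0 : Nat.card M₀ ∣ p ^ 2 := by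
        rw [← hcard]
        exact Subgroup.card_dvd_of_le hM₀R
      obtain ⟨k, hk, hk'⟩ := (Nat.dvd_prime_pow hp).mp h0
      have hk2 : k ≠ 2 := by
        rintro rfl
        apply hne
        apply Subgroup.eq_of_le_of_card_ge hM₀R
        rw [hcard, hk']
      have h1 : Nat.card M₁ ∣ p ^ k := by
        rw [← hk']
        exact Subgroup.card_dvd_of_le hM₁R
      obtain ⟨l, hl, hl'⟩ := (Nat.dvd_prime_pow hp).mp h1
      have hlk : l ≠ k := by
        rintro rfl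
        apply hne1
        apply Subgroup.eq_of_le_of_card_ge hM₁R
        rw [hk', hl']
      have hl0 : l = 0 := by omega
      have hbot1 : M₁ = ⊥ := by
        apply Subgroup.eq_bot_of_card_eq
        rw [hl', hl0, pow_zero]
      intro x hx y
      have h2 := hcomm1 x hx y
      rw [hbot1, Subgroup.mem_bot] at h2
      calc x * y = (x * y * x⁻¹ * y⁻¹) * (y * x) := by group
        _ = y * x := by rw [h2, one_mul]
  have hd := hcomm r hr u
  have hcu : Commute (r * u * r⁻¹ * u⁻¹) u := hcen _ hd u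
  have hd1 : r * u * r⁻¹ = (r * u * r⁻¹ * u⁻¹) * u := by group
  have hdp : (r * u * r⁻¹ * u⁻¹) ^ p = 1 := hexp _ (hM₀R hd)
  have h3 : r * u ^ p * r⁻¹ = u ^ p := by
    rw [← conj_pow, hd1, hcu.mul_pow, hdp, one_mul]
  calc r * u ^ p = (r * u ^ p * r⁻¹) * r := by group
    _ = u ^ p * r := by rw [h3]

/-- `Ω₁(M)` is characteristic. -/
theorem CT.omega_char (h : CT p n u t c) (hc : p ≠ 2 ∨ 3 ≤ n) (ht : t ^ p = 1) (hG : IsPGroup p G) :
    (Cfsg.omegaOne p M).Characteristic := by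
  have hMn : M.Normal := h.toCN.M_normal hM
  haveI hEn : (Cfsg.omegaOne p M).Normal := omega_normal hMn
  have hel := h.omega_elem hM hc ht
  have hcard := h.omega_card hM hc ht
  rw [Subgroup.characteristic_iff_map_eq]
  intro σ
  have hRn : ((Cfsg.omegaOne p M).map σ.toMonoidHom).Normal := hEn.map _ σ.surjective
  have hRc : Nat.card ((Cfsg.omegaOne p M).map σ.toMonoidHom) = p ^ 2 := by
    rw [Subgroup.card_map_of_injective σ.injective, hcard]
  have hRe : ∀ r ∈ (Cfsg.omegaOne p M).map σ.toMonoidHom, r ^ p = 1 := by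
    rintro _ ⟨x, hx, rfl⟩
    have := hel.2 x hx
    show (σ x) ^ p = 1
    rw [← map_pow, this, map_one]
  apply Subgroup.eq_of_le_of_card_ge
  · intro r hr
    apply Subgroup.subset_closure
    exact ⟨(hM _).mpr (comm_of_normal hG hRe hRc u hr), hRe r hr⟩
  · rw [hRc, hcard]

end Final


/-- Assembling the main case. -/
theorem case_main (h : CN p n u) (hG : IsPGroup p G) (hc : p ≠ 2 ∨ 3 ≤ n) {t : G} (htM : t * u ^ p = u ^ p * t)
    (htn : t ∉ zpowers u) {M : Subgroup G} (hM : ∀ g, g ∈ M ↔ g * u ^ p = u ^ p * g) :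
    (zpowers u).relIndex M = p ∧ Cfsg.IsElementaryAbelian p (Cfsg.omegaOne p M) ∧
      Nat.card (Cfsg.omegaOne p M) = p ^ 2 ∧ (Cfsg.omegaOne p M).Characteristic := by
  have hct : CT p n u t (t * u * t⁻¹ * u⁻¹) := ⟨h, htM, htn, by group⟩
  obtain ⟨b, hb⟩ := hct.exists_translate hc
  have hs := hct.translate b
  exact ⟨hs.relIndex hM hb, hs.omega_elem hM hc hb, hs.omega_card hM hc hb, hs.omega_char hM hc hb hG⟩

/-- A power of `g ∉ U` lies outside `U` and has its `p`-th power in `U`. -/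
theorem exists_pow_not_mem (hG : IsPGroup p G) {U : Subgroup G} {g : G} (hg : g ∉ U) :
    ∃ m : ℕ, g ^ m ∉ U ∧ (g ^ m) ^ p ∈ U := by
  have hp : p.Prime := hpf.out
  classical
  obtain ⟨a, ha⟩ := hG g
  have hex : ∃ j : ℕ, g ^ (p ^ j) ∈ U := ⟨a, by rw [ha]; exact one_mem _⟩
  have hj0 : Nat.find hex ≠ 0 := by
    intro e
    have := Nat.find_spec hex
    rw [e, pow_zero, pow_one] at this
    exact hg this
  obtain ⟨j, hj⟩ : ∃ j, Nat.find hex = j + 1 := Nat.exists_eq_succ_of_ne_zero hj0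
  refine ⟨p ^ j, ?_, ?_⟩
  · exact Nat.find_min hex (by omega)
  · have := Nat.find_spec hex
    rw [hj, pow_succ, pow_mul] at this
    exact this

theorem conj_pow_exp {g : G} {k : ℕ} (hk : g * u * g⁻¹ = u ^ k) (m : ℕ) :
    g ^ m * u * (g ^ m)⁻¹ = u ^ (k ^ m) := by
  induction m with
  | zero => simp
  | succ m ih =>
    calc g ^ (m + 1) * u * (g ^ (m + 1))⁻¹ = g * (g ^ m * u * (g ^ m)⁻¹) * g⁻¹ := by
          rw [pow_succ' g m]; group
      _ = g * u ^ (k ^ m) * g⁻¹ := by rw [ih]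
      _ = (g * u * g⁻¹) ^ (k ^ m) := by rw [conj_pow]
      _ = u ^ (k ^ (m + 1)) := by rw [hk, ← pow_mul, pow_succ, mul_comm]

/-- The exponent `k` of `g` with `g^m` centralizing `u`. -/
theorem CN.dvd_pow_sub (h : CN p n u) {g : G} {k m : ℕ} (hk : g * u * g⁻¹ = u ^ k)
    (hm : g ^ m * u = u * g ^ m) : ((p : ℤ) ^ n) ∣ (k : ℤ) ^ m - 1 := by
  have h1 := conj_pow_exp hk m
  have h2 : g ^ m * u * (g ^ m)⁻¹ = u := by rw [hm]; group
  rw [h2] at h1
  rw [← h.zpow_eq_one_iff, zpow_sub, zpow_one]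
  have : u ^ ((k : ℤ) ^ m) = u ^ (k ^ m) := by
    rw [← zpow_natCast]
    push_cast
    rfl
  rw [this, ← h1]
  group

/-- Conclusion of Lemma B. -/
theorem CN.comm_of_dvd (h : CN p n u) {g : G} {k : ℕ} (hk : g * u * g⁻¹ = u ^ k)
    (hd : ((p : ℤ) ^ (n - 1)) ∣ (k : ℤ) - 1) : g * u ^ p = u ^ p * g := by
  have h1 : u ^ (k * p) = u ^ p := by
    have h2 : u ^ (((k : ℤ) - 1) * p) = 1 := by
      rw [h.zpow_eq_one_iff]
      have e : (p : ℤ) ^ n = (p : ℤ) ^ (n - 1) * p := by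
        have := h.hn1
        exact_mod_cast this.symm
      rw [e]
      exact mul_dvd_mul_right hd _
    have h3 : ((k : ℤ) - 1) * p = ((k * p : ℕ) : ℤ) - (p : ℤ) := by
      push_cast
      ring
    rw [h3, zpow_sub, zpow_natCast, zpow_natCast] at h2
    exact mul_inv_eq_one.mp h2
  have h2 : g * u ^ p * g⁻¹ = u ^ p := by
    rw [← conj_pow, hk, ← pow_mul, h1]
  calc g * u ^ p = (g * u ^ p * g⁻¹) * g := by group
    _ = u ^ p * g := by rw [h2]

/-- Fermat + lifting the exponent for `p` odd. -/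
theorem arith_odd {k : ℕ} (hodd : p ≠ 2) (hn : 1 ≤ n) (hd : ((p : ℤ) ^ n) ∣ (k : ℤ) ^ p - 1) :
    ((p : ℤ) ^ (n - 1)) ∣ (k : ℤ) - 1 := by
  have hp : p.Prime := hpf.out
  have hoddp : Odd p := hp.odd_of_ne_two hodd
  have h0 : (p : ℤ) ∣ (k : ℤ) - 1 := by
    have h1 : (p : ℤ) ∣ (k : ℤ) ^ p - 1 := (dvd_pow_self (p : ℤ) (by omega)).trans hd
    have h2 : ((k : ℤ) ^ p - 1 : ℤ) = ((((k : ZMod p)) ^ p - 1 : ZMod p).val : ℤ) ∨ True := Or.inr trivial
    rw [← ZMod.intCast_zmod_eq_zero_iff_dvd] at h1 ⊢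
    push_cast at h1 ⊢
    rwa [ZMod.pow_card] at h1
  have hx : ¬ (p : ℤ) ∣ (k : ℤ) := by
    intro hc
    have h3 : (p : ℤ) ∣ 1 := by
      have := dvd_sub hc h0
      simpa using this
    have h4 : p ∣ 1 := by exact_mod_cast h3
    exact hp.one_lt.ne' (Nat.dvd_one.mp h4)
  have hlte := Int.emultiplicity_pow_sub_pow hp hoddp (x := k) (y := 1) (by simpa using h0) hx p
  rw [one_pow] at hlte
  have hmul : emultiplicity p p = 1 := by
    have := emultiplicity_pow_self_of_prime hp.prime 1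
    rw [pow_one] at this
    rw [this]
    norm_num
  rw [hmul] at hlte
  obtain ⟨m, rfl⟩ : ∃ m, n = m + 1 := ⟨n - 1, by omega⟩
  rw [Nat.add_sub_cancel]
  have h5 := pow_dvd_iff_le_emultiplicity.mp hd
  rw [hlte] at h5
  apply pow_dvd_iff_le_emultiplicity.mpr
  push_cast at h5
  exact (ENat.add_le_add_iff_right (by simp)).mp h5

/-- The analogue for `p = 2`, when `k ≡ 1 mod 4`. -/
theorem arith_two {k : ℕ} (h4 : (4 : ℤ) ∣ (k : ℤ) - 1) (hn : 1 ≤ n) (hd : ((2 : ℤ) ^ n) ∣ (k : ℤ) ^ 2 - 1) :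
    ((2 : ℤ) ^ (n - 1)) ∣ (k : ℤ) - 1 := by
  obtain ⟨m, rfl⟩ : ∃ m, n = m + 1 := ⟨n - 1, by omega⟩
  rw [Nat.add_sub_cancel]
  obtain ⟨e, he⟩ := h4
  have h1 : (k : ℤ) + 1 = 2 * (2 * e + 1) := by linarith
  have h2 : (k : ℤ) ^ 2 - 1 = ((k : ℤ) - 1) * ((2 * e + 1) * 2) := by
    have : (k : ℤ) ^ 2 - 1 = ((k : ℤ) - 1) * ((k : ℤ) + 1) := by ring
    rw [this, h1]
    ring
  rw [h2, pow_succ, ← mul_assoc] at hd
  have h3 := (mul_dvd_mul_iff_right (by norm_num : (2 : ℤ) ≠ 0)).mp hd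
  have hcop : IsCoprime ((2 : ℤ) ^ m) (2 * e + 1) := by
    apply IsCoprime.pow_left
    exact ⟨-e, 1, by ring⟩
  exact hcop.dvd_of_dvd_mul_right h3


theorem CN.not_dvd_exp (h : CN p n u) {g : G} {k : ℕ} (hk : g * u * g⁻¹ = u ^ k) : ¬ p ∣ k := by
  rintro ⟨q, rfl⟩
  apply h.zz_ne
  have h1 : g * zz p n u * g⁻¹ = 1 := by
    unfold zz
    rw [← conj_pow, hk, ← pow_mul]
    have : p * q * p ^ (n - 1) = p ^ n * q := by
      rw [← h.hn1]
      ring
    rw [this, pow_mul, ← h.ord, pow_orderOf_eq_one, one_pow]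
  calc zz p n u = g⁻¹ * (g * zz p n u * g⁻¹) * g := by group
    _ = 1 := by rw [h1]; group

theorem two_k_mod (h : CN 2 n u) (hCw : ∀ g, g * u ^ (2 ^ (n - 2)) = u ^ (2 ^ (n - 2)) * g → g ∈ zpowers u)
    {g : G} (hg : g ∉ zpowers u) {k : ℕ} (hk : g * u * g⁻¹ = u ^ k) : k % 4 = 3 := by
  have h1 := h.not_dvd_exp hk
  have hn := h.hn
  have hcase : k % 4 = 1 ∨ k % 4 = 3 := by omega
  rcases hcase with h2 | h2
  · exfalso
    apply hg
    apply hCw
    have hw4 : (u ^ (2 ^ (n - 2))) ^ 4 = 1 := by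
      rw [← pow_mul]
      have : 2 ^ (n - 2) * 4 = 2 ^ n := by
        obtain ⟨m, rfl⟩ : ∃ m, n = m + 2 := ⟨n - 2, by omega⟩
        rw [Nat.add_sub_cancel, pow_add]
        norm_num
      rw [this, ← h.ord, pow_orderOf_eq_one]
    have h3 : g * u ^ (2 ^ (n - 2)) * g⁻¹ = u ^ (2 ^ (n - 2)) := by
      rw [← conj_pow, hk]
      have e : k = 4 * (k / 4) + 1 := by omega
      rw [e, ← pow_mul, mul_comm, pow_mul, pow_succ, pow_mul, hw4, one_pow, one_mul]
    calc g * u ^ (2 ^ (n - 2)) = (g * u ^ (2 ^ (n - 2)) * g⁻¹) * g := by group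
      _ = u ^ (2 ^ (n - 2)) * g := by rw [h3]
  · exact h2

theorem two_conj_w (h : CN 2 n u) {g : G} {k : ℕ} (hk : g * u * g⁻¹ = u ^ k) (hk4 : k % 4 = 3) :
    g * u ^ (2 ^ (n - 2)) * g⁻¹ = (u ^ (2 ^ (n - 2)))⁻¹ := by
  have hn := h.hn
  have hw4 : (u ^ (2 ^ (n - 2))) ^ 4 = 1 := by
    rw [← pow_mul]
    have : 2 ^ (n - 2) * 4 = 2 ^ n := by
      obtain ⟨m, rfl⟩ : ∃ m, n = m + 2 := ⟨n - 2, by omega⟩
      rw [Nat.add_sub_cancel, pow_add]
      norm_num
    rw [this, ← h.ord, pow_orderOf_eq_one]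
  rw [← conj_pow, hk]
  have e : k = 4 * (k / 4) + 3 := by omega
  rw [e, ← pow_mul, mul_comm, pow_mul, pow_add, pow_mul, hw4, one_pow, one_mul]
  rw [eq_inv_iff_mul_eq_one, ← pow_succ, hw4]

theorem case_two (h : CN 2 n u) (hCw : ∀ g, g * u ^ (2 ^ (n - 2)) = u ^ (2 ^ (n - 2)) * g → g ∈ zpowers u)
    {t : G} (ht : t ∉ zpowers u) :
    Nat.card G = 2 ^ (n + 1) ∧ ((∃ m : ℕ, Nonempty (G ≃* DihedralGroup m)) ∨
      (∃ m : ℕ, Nonempty (G ≃* QuaternionGroup m)) ∨ Cfsg.IsQuasiDihedral G) := by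
  have hn := h.hn
  -- all elements outside `⟨u⟩` invert `w`
  have hinv : ∀ g, g ∉ zpowers u → g * u ^ (2 ^ (n - 2)) * g⁻¹ = (u ^ (2 ^ (n - 2)))⁻¹ := by
    intro g hg
    obtain ⟨k, hk⟩ := h.norm g
    exact two_conj_w h hk (two_k_mod h hCw hg hk)
  have hmulmem : ∀ g, g ∉ zpowers u → g * t ∈ zpowers u := by
    intro g hg
    apply hCw
    have h1 := hinv g hg
    have h2 := hinv t ht
    have h3 : (g * t) * u ^ (2 ^ (n - 2)) * (g * t)⁻¹ = u ^ (2 ^ (n - 2)) := by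
      calc (g * t) * u ^ (2 ^ (n - 2)) * (g * t)⁻¹ = g * (t * u ^ (2 ^ (n - 2)) * t⁻¹) * g⁻¹ := by group
        _ = (g * u ^ (2 ^ (n - 2)) * g⁻¹)⁻¹ := by rw [h2]; group
        _ = u ^ (2 ^ (n - 2)) := by rw [h1, inv_inv]
    calc (g * t) * u ^ (2 ^ (n - 2)) = ((g * t) * u ^ (2 ^ (n - 2)) * (g * t)⁻¹) * (g * t) := by group
      _ = u ^ (2 ^ (n - 2)) * (g * t) := by rw [h3]
  have hindex : (zpowers u).index = 2 := by
    rw [Subgroup.index_eq_two_iff]
    refine ⟨t, fun b => ?_⟩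
    by_cases hb : b ∈ zpowers u
    · right
      refine ⟨hb, fun hc => ht ?_⟩
      have : t = b⁻¹ * (b * t) := by group
      rw [this]
      exact mul_mem (inv_mem hb) hc
    · left
      exact ⟨hmulmem b hb, hb⟩
  have hcard : Nat.card G = 2 * 2 ^ n := by
    have := Subgroup.index_mul_card (zpowers u)
    rw [hindex, Nat.card_zpowers, h.ord] at this
    exact this.symm
  refine ⟨by rw [pow_succ, hcard]; ring, ?_⟩
  obtain ⟨k, hk⟩ := h.norm t
  have hk4 := two_k_mod h hCw ht hk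
  have htt : t * t ∈ zpowers u := hmulmem t ht
  have htt' : t * t = t ^ 2 := (pow_two t).symm
  -- the exponent
  have hdvd : ((2 : ℤ) ^ n) ∣ (k : ℤ) ^ 2 - 1 := by
    have := h.dvd_pow_sub (g := t) (k := k) (m := 2) hk (by
      rw [← htt']
      obtain ⟨b, hb⟩ := htt
      rw [← hb]
      exact ((Commute.refl u).zpow_left b).eq)
    exact_mod_cast this
  obtain ⟨m, rfl⟩ : ∃ m, n = m + 1 := ⟨n - 1, by omega⟩
  have hm1 : m + 1 - 1 = m := by omega
  obtain ⟨q, hq⟩ : ∃ q : ℕ, k = 4 * q + 3 := ⟨k / 4, by omega⟩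
  have hcopm : IsCoprime ((2 : ℤ) ^ m) (2 * (q : ℤ) + 1) := by
    apply IsCoprime.pow_left
    exact ⟨-q, 1, by ring⟩
  have hk1 : (k : ℤ) - 1 = 2 * (2 * (q : ℤ) + 1) := by
    rw [hq]
    push_cast
    ring
  have he : ((2 : ℤ) ^ m) ∣ (k : ℤ) + 1 := by
    have e1 : (k : ℤ) ^ 2 - 1 = ((k : ℤ) + 1) * (2 * (q : ℤ) + 1) * 2 := by
      have : (k : ℤ) ^ 2 - 1 = ((k : ℤ) - 1) * ((k : ℤ) + 1) := by ring
      rw [this, hk1]
      ring
    rw [e1, pow_succ] at hdvd
    have h3 := (mul_dvd_mul_iff_right (by norm_num : (2 : ℤ) ≠ 0)).mp hdvd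
    exact hcopm.dvd_of_dvd_mul_right h3
  -- `t²`
  obtain ⟨j, hj⟩ := htt
  have hj' : u ^ j = t * t := hj
  have hjd : ((2 : ℤ) ^ m) ∣ j := by
    have h1 : t * (t * t) * t⁻¹ = t * t := by group
    rw [← hj', ← conj_zpow, hk] at h1
    have h2 : u ^ (((k : ℤ) - 1) * j) = 1 := by
      have e : ((k : ℤ) - 1) * j = (k : ℤ) * j - j := by ring
      rw [e, zpow_sub, zpow_mul, zpow_natCast, h1]
      group
    rw [h.zpow_eq_one_iff, hk1] at h2
    have e : ((2 : ℕ) : ℤ) ^ (m + 1) = (2 : ℤ) ^ m * 2 := by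
      push_cast
      rw [pow_succ]
    rw [e] at h2
    have e2 : 2 * (2 * (q : ℤ) + 1) * j = (2 * (q : ℤ) + 1) * j * 2 := by ring
    rw [e2] at h2
    have h3 := (mul_dvd_mul_iff_right (by norm_num : (2 : ℤ) ≠ 0)).mp h2
    exact hcopm.dvd_of_dvd_mul_left h3
  set z : G := u ^ (2 ^ m) with hz
  have hzz : z = zz 2 (m + 1) u := by
    unfold zz
    rw [hm1]
  have hz2 : z * z = 1 := by
    rw [← pow_two, hzz]
    exact h.zz_pow
  have hzne : z ≠ 1 := by
    rw [hzz]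
    exact h.zz_ne
  have hzu : Commute z u := (Commute.refl u).pow_left _
  have hu4 : u ^ (2 ^ (m + 1)) = 1 := by
    rw [← h.ord, pow_orderOf_eq_one]
  have huz : u ^ (2 ^ m) = z := rfl
  -- `t² ∈ {1, z}`
  have htcase : t * t = 1 ∨ t * t = z := by
    obtain ⟨f, rfl⟩ := hjd
    rcases Int.even_or_odd' f with ⟨f', rfl | rfl⟩
    · left
      rw [← hj']
      rw [h.zpow_eq_one_iff]
      refine ⟨f', ?_⟩
      push_cast
      ring
    · right
      rw [← hj']
      have e : (2 : ℤ) ^ m * (2 * f' + 1) = (2 : ℤ) ^ (m + 1) * f' + ((2 ^ m : ℕ) : ℤ) := by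
        push_cast
        ring
      rw [e, zpow_add, zpow_natCast, huz]
      have : u ^ ((2 : ℤ) ^ (m + 1) * f') = 1 := by
        rw [h.zpow_eq_one_iff]
        exact ⟨f', by push_cast; ring⟩
      rw [this, one_mul]
  haveI : NeZero (2 ^ (m + 1)) := ⟨by positivity⟩
  haveI : NeZero (2 ^ m) := ⟨by positivity⟩
  obtain ⟨e, he⟩ := he
  have hu_inv : u ^ ((k : ℤ) + 1) = u ^ k * u := by
    rw [zpow_add, zpow_natCast, zpow_one]
  rcases Int.even_or_odd' e with ⟨f, rfl | rfl⟩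
  · -- `t` inverts `u`
    have htu : t * u * t⁻¹ = u⁻¹ := by
      rw [hk, eq_inv_iff_mul_eq_one, ← hu_inv, h.zpow_eq_one_iff, he]
      exact ⟨f, by push_cast; ring⟩
    rcases htcase with ht1 | ht1
    · left
      exact ⟨2 ^ (m + 1), Cfsg.Agent.Lib.TwoGroups.nonempty_mulEquiv_dihedral_of u t h.ord ht1 htu ht hcard⟩
    · right; left
      refine ⟨2 ^ m, Cfsg.Agent.Lib.TwoGroups.nonempty_mulEquiv_quaternion_of u t ?_ ht1 htu ht ?_⟩
      · rw [h.ord, pow_succ, mul_comm]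
      · rw [hcard, pow_succ]; ring
  · -- semidihedral
    right; right
    have hm2 : 2 ≤ m := by
      by_contra hlt
      have hm1' : m = 1 := by omega
      subst hm1'
      have e3 : (k : ℤ) + 1 = 2 * (2 * f + 1) := by
        rw [he]
        norm_num
      omega
    have hkz : u ^ k * u = z := by
      rw [← hu_inv, he]
      have e3 : (2 : ℤ) ^ m * (2 * f + 1) = (2 : ℤ) ^ (m + 1) * f + ((2 ^ m : ℕ) : ℤ) := by
        push_cast
        ring
      rw [e3, zpow_add, zpow_natCast, huz]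
      have : u ^ ((2 : ℤ) ^ (m + 1) * f) = 1 := by
        rw [h.zpow_eq_one_iff]
        exact ⟨f, by push_cast; ring⟩
      rw [this, one_mul]
    have hbase : u ^ (2 ^ (m + 1 - 1) - 1) = z * u⁻¹ := by
      rw [hm1]
      have hpos : 1 ≤ 2 ^ m := Nat.one_le_two_pow
      rw [pow_sub u hpos, pow_one]
    have htu : t * u * t⁻¹ = z * u⁻¹ := by
      rw [hk, ← hkz]
      group
    have hord : orderOf u = 2 ^ (m + 1) := h.ord
    have hmain : ∀ y : G, y ∉ zpowers u → y * y = 1 → y * u * y⁻¹ = z * u⁻¹ → Cfsg.IsQuasiDihedral G := by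
      intro y hy hy2 hyu
      refine ⟨m + 1, by omega, ?_, u, y, hord, ?_, ?_⟩
      · rw [hcard, pow_succ, pow_succ, pow_succ]; ring
      · apply orderOf_eq_prime (by rw [pow_two, hy2])
        rintro rfl
        exact hy (one_mem _)
      · rw [hbase, hyu]
    rcases htcase with ht1 | ht1
    · exact hmain t ht ht1 htu
    · refine hmain (t * u) ?_ ?_ ?_
      · intro hc
        apply ht
        have : t = (t * u) * u⁻¹ := by group
        rw [this]
        exact mul_mem hc (inv_mem (mem_zpowers u))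
      · calc t * u * (t * u) = (t * u * t⁻¹) * (t * t) * u := by group
          _ = z * u⁻¹ * z * u := by rw [htu, ht1]
          _ = z * u⁻¹ * (z * u) := by group
          _ = z * u⁻¹ * (u * z) := by rw [hzu.eq]
          _ = z * z := by group
          _ = 1 := hz2
      · calc t * u * u * (t * u)⁻¹ = t * u * t⁻¹ := by group
          _ = z * u⁻¹ := htu


theorem arith_w (h : CN 2 n u) {g : G} {k : ℕ} (hk : g * u * g⁻¹ = u ^ k)
    (hw : g * u ^ (2 ^ (n - 2)) = u ^ (2 ^ (n - 2)) * g) : (4 : ℤ) ∣ (k : ℤ) - 1 := by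
  have hn := h.hn
  have h1 : g * u ^ (2 ^ (n - 2)) * g⁻¹ = u ^ (2 ^ (n - 2)) := by rw [hw]; group
  rw [← conj_pow, hk, ← pow_mul] at h1
  have h2 : u ^ (((k : ℤ) - 1) * 2 ^ (n - 2)) = 1 := by
    have e : ((k : ℤ) - 1) * 2 ^ (n - 2) = ((k * 2 ^ (n - 2) : ℕ) : ℤ) - ((2 ^ (n - 2) : ℕ) : ℤ) := by
      push_cast
      ring
    rw [e, zpow_sub, zpow_natCast, zpow_natCast, h1]
    group
  rw [h.zpow_eq_one_iff] at h2
  obtain ⟨m, rfl⟩ : ∃ m, n = m + 2 := ⟨n - 2, by omega⟩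
  rw [Nat.add_sub_cancel] at h2
  have e : ((2 : ℕ) : ℤ) ^ (m + 2) = 4 * 2 ^ m := by
    push_cast
    ring
  rw [e] at h2
  exact (mul_dvd_mul_iff_right (by positivity : (2 : ℤ) ^ m ≠ 0)).mp h2

/-- The centralizer of the powers. -/
theorem mem_M_iff {g : G} : g ∈ Subgroup.centralizer (Cfsg.powerClosure p 1 (zpowers u) : Set G) ↔
    g * u ^ p = u ^ p * g := by
  rw [Subgroup.mem_centralizer_iff]
  constructor
  · intro h
    have h1 : u ^ p ∈ Cfsg.powerClosure p 1 (zpowers u) :=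
      Subgroup.subset_closure ⟨u, mem_zpowers u, by rw [pow_one]⟩
    exact (h _ h1).symm
  · intro h y hy
    have hc : Commute (u ^ p) g := (show Commute g (u ^ p) from h).symm
    have hle : Cfsg.powerClosure p 1 (zpowers u) ≤ zpowers (u ^ p) := by
      unfold Cfsg.powerClosure
      rw [Subgroup.closure_le]
      rintro _ ⟨_, ⟨i, rfl⟩, rfl⟩
      refine ⟨i, ?_⟩
      show (u ^ p) ^ i = (u ^ i) ^ p ^ 1
      rw [pow_one, ← zpow_natCast, ← zpow_natCast, ← zpow_mul, ← zpow_mul, mul_comm]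
    obtain ⟨b, rfl⟩ := hle hy
    exact (hc.zpow_left b).eq

theorem comm_of_zpowers (hall : ∀ g : G, g ∈ zpowers u) : IsMulCommutative G := by
  refine ⟨⟨fun a b => ?_⟩⟩
  obtain ⟨i, rfl⟩ := hall a
  obtain ⟨j, rfl⟩ := hall b
  exact ((Commute.refl u).zpow_zpow i j).eq

/-- The main statement for a generator. -/
theorem main_of_gen (hG : IsPGroup p G) (hna : ¬ IsMulCommutative G) (hord : orderOf u = p ^ n)
    (hcent : ∀ g : G, g * u = u * g → g ∈ zpowers u) (hnorm : ∀ g : G, ∃ k : ℕ, g * u * g⁻¹ = u ^ k) :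
    (p = 2 ∧ Nat.card G = 2 ^ (n + 1) ∧ ((∃ m : ℕ, Nonempty (G ≃* DihedralGroup m)) ∨
        (∃ m : ℕ, Nonempty (G ≃* QuaternionGroup m)) ∨ Cfsg.IsQuasiDihedral G)) ∨
    ((zpowers u).relIndex (Subgroup.centralizer (Cfsg.powerClosure p 1 (zpowers u) : Set G)) = p ∧
      Cfsg.IsElementaryAbelian p (Cfsg.omegaOne p (Subgroup.centralizer (Cfsg.powerClosure p 1 (zpowers u) : Set G))) ∧
      Nat.card ↥(Cfsg.omegaOne p (Subgroup.centralizer (Cfsg.powerClosure p 1 (zpowers u) : Set G))) = p ^ 2 ∧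
      (Cfsg.omegaOne p (Subgroup.centralizer (Cfsg.powerClosure p 1 (zpowers u) : Set G))).Characteristic) := by
  have hp : p.Prime := hpf.out
  obtain ⟨t₀, ht₀⟩ : ∃ t, t ∉ zpowers u := by
    by_contra hcon
    exact hna (comm_of_zpowers (fun g => by
      by_contra hg
      exact hcon ⟨g, hg⟩))
  -- `n ≥ 2`
  have hn : 2 ≤ n := by
    by_contra hlt
    apply hna
    apply comm_of_zpowers
    intro g
    apply hcent
    obtain ⟨k, hk⟩ := hnorm g
    obtain ⟨a, ha⟩ := hG g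
    have h1 := conj_pow_exp hk (p ^ a)
    rw [ha] at h1
    have h2 : u ^ (k ^ p ^ a) = u ^ 1 := by
      rw [pow_one, ← h1]
      group
    have h3 : u ^ k = u := by
      rcases Nat.lt_or_ge n 1 with h0 | h0
      · have hn0 : n = 0 := by omega
        rw [hn0, pow_zero] at hord
        have : u = 1 := orderOf_eq_one_iff.mp hord
        rw [this, one_pow]
      · have hn1 : n = 1 := by omega
        rw [hn1, pow_one] at hord
        rw [pow_eq_pow_iff_modEq, hord] at h2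
        have h4 : (((k ^ p ^ a : ℕ) : ZMod p)) = ((1 : ℕ) : ZMod p) := (ZMod.natCast_eq_natCast_iff _ _ _).mpr h2
        push_cast at h4
        rw [ZMod.pow_card_pow] at h4
        have h5 : k ≡ 1 [MOD orderOf u] := by
          rw [hord]
          apply (ZMod.natCast_eq_natCast_iff _ _ _).mp
          push_cast
          exact h4
        have h6 := pow_eq_pow_iff_modEq.mpr h5
        rwa [pow_one] at h6
    calc g * u = (g * u * g⁻¹) * g := by group
      _ = u * g := by rw [hk, h3]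
  have hcn : CN p n u := ⟨hord, hn, hcent, hnorm⟩
  have hM : ∀ g, g ∈ Subgroup.centralizer (Cfsg.powerClosure p 1 (zpowers u) : Set G) ↔
      g * u ^ p = u ^ p * g := fun g => mem_M_iff
  by_cases hp2 : p = 2
  · subst hp2
    by_cases h3 : 3 ≤ n ∧ ∃ t, t ∉ zpowers u ∧ t * u ^ 2 = u ^ 2 * t
    · obtain ⟨hn3, t, htn, htM⟩ := h3
      right
      exact case_main hcn hG (Or.inr hn3) htM htn hM
    · left
      refine ⟨rfl, ?_⟩
      have hCw : ∀ g, g * u ^ (2 ^ (n - 2)) = u ^ (2 ^ (n - 2)) * g → g ∈ zpowers u := by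
        intro g hg
        by_cases hn2 : n = 2
        · apply hcent
          subst hn2
          simpa using hg
        · by_contra hgn
          obtain ⟨m, hm1, hm2⟩ := exists_pow_not_mem hG hgn
          apply h3
          refine ⟨by omega, g ^ m, hm1, ?_⟩
          obtain ⟨k, hk⟩ := hnorm (g ^ m)
          have hw : g ^ m * u ^ (2 ^ (n - 2)) = u ^ (2 ^ (n - 2)) * g ^ m :=
            ((show Commute g (u ^ (2 ^ (n - 2))) from hg).pow_left m).eq
          apply hcn.comm_of_dvd hk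
          have h4 := arith_w hcn hk hw
          have h5 := hcn.dvd_pow_sub (g := g ^ m) (k := k) (m := 2) hk (by
            obtain ⟨b, hb⟩ := hm2
            rw [← hb]
            exact ((Commute.refl u).zpow_left b).eq)
          have h6 := arith_two (n := n) h4 (by omega) (by exact_mod_cast h5)
          exact_mod_cast h6
      exact case_two hcn hCw ht₀
  · right
    obtain ⟨m, hm1, hm2⟩ := exists_pow_not_mem hG ht₀
    obtain ⟨k, hk⟩ := hnorm (t₀ ^ m)
    have h5 := hcn.dvd_pow_sub (g := t₀ ^ m) (k := k) (m := p) hk (by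
      obtain ⟨b, hb⟩ := hm2
      rw [← hb]
      exact ((Commute.refl u).zpow_left b).eq)
    have h6 := arith_odd (n := n) hp2 (by omega) h5
    exact case_main hcn hG (Or.inl hp2) (hcn.comm_of_dvd hk h6) hm1 hM

end Cfsg.Agent.Lib.Coprime.CycNormal
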