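import Mathlib

/-!
A `p`-group of automorphisms generated by elements of order `p`, with a central fixed-point-free element: one generator
has two different nonzero "eigenvalues".
-/

set_option autoImplicit false
set_option linter.unusedSectionVars false
set_option linter.style.haveILetI false

namespace Cfsg.Agent.Lib.Coprime.HHL

open Subgroup

section Norm

variable {A : Type*} [CommGroup A] {p : ℕ} [hpf : Fact p.Prime]

/-- The norm of an automorphism. -/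
def nrm (p : ℕ) (β : MulAut A) (v : A) : A := ∏ i ∈ Finset.range p, (β ^ i) v

theorem nrm_fix {β : MulAut A} (hβ : β ^ p = 1) (v : A) : β (nrm p β v) = nrm p β v := by
  have hp := hpf.out
  obtain ⟨n, rfl⟩ : ∃ n, p = n + 1 := ⟨p - 1, by have := hp.pos; omega⟩
  unfold nrm
  rw [map_prod]
  have h1 : ∀ i, β ((β ^ i) v) = (β ^ (i + 1)) v := by
    intro i
    rw [pow_succ']
    rfl
  simp only [h1]
  rw [Finset.prod_range_succ, hβ, Finset.prod_range_succ' _ n, pow_zero]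

theorem nrm_eq_one {δ : MulAut A} (hδ : δ ^ p = 1) (hf : ∀ x, δ x = x → x = 1) (v : A) : nrm p δ v = 1 :=
  hf _ (nrm_fix hδ v)

theorem pow_inj_of_coprime [Finite A] (hA : (Nat.card A).Coprime p) {x : A} (h : x ^ p = 1) : x = 1 := by
  have h1 : orderOf x ∣ p := orderOf_dvd_of_pow_eq_one h
  have h2 : orderOf x ∣ Nat.card A := orderOf_dvd_natCard x
  have h3 := Nat.Coprime.eq_one_of_dvd (Nat.Coprime.coprime_dvd_left h2 hA) h1
  exact orderOf_eq_one_iff.mp h3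

/-- The twisted element. -/
def tw (β α : MulAut A) (u : ℕ) : MulAut A := β * α⁻¹ ^ u

theorem tw_pow (β α : MulAut A) (hc : β * α = α * β) (u i : ℕ) : tw β α u ^ i = β ^ i * ((α⁻¹) ^ i) ^ u := by
  have hc' : Commute β (α⁻¹ ^ u) := ((Commute.inv_right hc).pow_right u)
  unfold tw
  rw [hc'.mul_pow, ← pow_mul, ← pow_mul, mul_comm]

theorem tw_pow_p {β α : MulAut A} (hc : β * α = α * β) (hβ : β ^ p = 1) (hα : α ^ p = 1) (u : ℕ) : tw β α u ^ p = 1 := by
  rw [tw_pow β α hc, hβ, inv_pow, hα, inv_one, one_pow, one_mul]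

theorem fpf_pow {α : MulAut A} (hα : α ^ p = 1) (hf : ∀ x, α x = x → x = 1) {i : ℕ} (hi : i % p ≠ 0) :
    ∀ x, ((α⁻¹) ^ i) x = x → x = 1 := by
  have hp := hpf.out
  intro x hx
  apply hf
  have hc : Nat.Coprime i p := by
    rw [Nat.coprime_comm, hp.coprime_iff_not_dvd]
    intro hd
    exact hi (Nat.mod_eq_zero_of_dvd hd)
  obtain ⟨m, hm⟩ := Nat.exists_mul_mod_eq_one_of_coprime hc hp.one_lt
  have h1 : ∀ n : ℕ, (((α⁻¹) ^ i) ^ n) x = x := by
    intro n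
    induction n with
    | zero => simp
    | succ n ih =>
      rw [pow_succ, MulAut.mul_apply, hx, ih]
  have h2 := h1 m
  rw [← pow_mul] at h2
  have h3 : (α⁻¹) ^ (i * m) = α⁻¹ := by
    have h4 : i * m = p * (i * m / p) + 1 := by
      have := Nat.div_add_mod (i * m) p
      rw [hm.2] at this
      omega
    rw [h4, pow_succ, pow_mul, inv_pow, hα, inv_one, one_pow, one_mul]
  rw [h3] at h2
  have h5 : α (α⁻¹ x) = x := by
    rw [← MulAut.mul_apply, mul_inv_cancel]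
    rfl
  rw [h2] at h5
  exact h5

/-- The decomposition of the `p`-th power. -/
theorem prod_nrm_tw {β α : MulAut A} (hc : β * α = α * β) (hα : α ^ p = 1) (hf : ∀ x, α x = x → x = 1) (v : A) :
    ∏ u ∈ Finset.range p, nrm p (tw β α u) v = v ^ p := by
  have hp := hpf.out
  have h1 : ∀ u, nrm p (tw β α u) v = ∏ i ∈ Finset.range p, (β ^ i) ((((α⁻¹) ^ i) ^ u) v) := by
    intro u
    unfold nrm
    apply Finset.prod_congr rfl
    intro i _
    rw [tw_pow β α hc]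
    rfl
  simp only [h1]
  rw [Finset.prod_comm]
  have h2 : ∀ i ∈ Finset.range p, ∏ u ∈ Finset.range p, (β ^ i) ((((α⁻¹) ^ i) ^ u) v) = (β ^ i) (nrm p ((α⁻¹) ^ i) v) := by
    intro i _
    unfold nrm
    rw [map_prod]
  rw [Finset.prod_congr rfl h2]
  obtain ⟨n, rfl⟩ : ∃ n, p = n + 1 := ⟨p - 1, by have := hp.pos; omega⟩
  rw [Finset.prod_range_succ']
  have h3 : ∀ i ∈ Finset.range n, (β ^ (i + 1)) (nrm (n + 1) ((α⁻¹) ^ (i + 1)) v) = 1 := by
    intro i hi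
    have hi' := Finset.mem_range.mp hi
    have hmod : (i + 1) % (n + 1) ≠ 0 := by
      rw [Nat.mod_eq_of_lt (by omega)]
      omega
    rw [nrm_eq_one (p := n + 1) (by rw [← pow_mul, mul_comm, pow_mul, inv_pow, hα, inv_one, one_pow]) (fpf_pow hα hf hmod) v, map_one]
  rw [Finset.prod_eq_one h3, one_mul, pow_zero, pow_zero]
  unfold nrm
  simp

theorem exists_nrm_ne [Finite A] (hA : (Nat.card A).Coprime p) {β α : MulAut A} (hc : β * α = α * β) (hα : α ^ p = 1)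
    (hf : ∀ x, α x = x → x = 1) {v : A} (hv : v ≠ 1) : ∃ u < p, nrm p (tw β α u) v ≠ 1 := by
  by_contra hcon
  push Not at hcon
  apply hv
  apply pow_inj_of_coprime hA
  rw [← prod_nrm_tw hc hα hf v]
  exact Finset.prod_eq_one fun u hu => hcon u (Finset.mem_range.mp hu)

/-- The eigenvalue equation from the norm. -/
theorem eig_of_nrm {β α : MulAut A} (hc : β * α = α * β) (hβ : β ^ p = 1) (hα : α ^ p = 1) (u : ℕ) (v : A) :
    β (nrm p (tw β α u) v) = (α ^ u) (nrm p (tw β α u) v) := by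
  have h1 := nrm_fix (tw_pow_p hc hβ hα u) v
  set t := nrm p (tw β α u) v
  have h2 : α ^ u * tw β α u = β := by
    unfold tw
    have hc2 : Commute β (α ^ u) := (show Commute β α from hc).pow_right u
    rw [← mul_assoc, ← hc2.eq, mul_assoc, inv_pow, mul_inv_cancel, mul_one]
  calc β t = (α ^ u * tw β α u) t := by rw [h2]
    _ = (α ^ u) ((tw β α u) t) := rfl
    _ = (α ^ u) t := by rw [h1]

/-- Three conjugate eigenvalues. -/
theorem eigen_three [Finite A] (hA : (Nat.card A).Coprime p) (hp2 : p ≠ 2) (α e c γ : MulAut A) (hαp : α ^ p = 1) (hep : e ^ p = 1)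
    (hcp : c ^ p = 1) (hαf : ∀ x, α x = x → x = 1) (hc1 : c ≠ 1) (hαe : e * α = α * e) (hαc : c * α = α * c)
    (hec : e * c = c * e) (hαγ : γ * α = α * γ) (hcγ : γ * c = c * γ) (hγ : γ * e * γ⁻¹ = c * e) :
    ∃ u₁ u₂ : ℕ, u₁ % p ≠ 0 ∧ u₂ % p ≠ 0 ∧ u₁ % p ≠ u₂ % p ∧ ∃ t₁ t₂ : A, t₁ ≠ 1 ∧ t₂ ≠ 1 ∧
      e t₁ = (α ^ u₁) t₁ ∧ e t₂ = (α ^ u₂) t₂ := by
  classical
  have hp := hpf.out
  -- an element moved by `c`
  obtain ⟨t₀, ht₀⟩ : ∃ t₀, c t₀ ≠ t₀ := by
    by_contra hcon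
    push Not at hcon
    exact hc1 (MulEquiv.ext hcon)
  -- an eigenvector for `c` with nonzero eigenvalue
  obtain ⟨k, hk0, hkp, ht₁⟩ : ∃ k, 0 < k ∧ k < p ∧ nrm p (tw c α k) t₀ ≠ 1 := by
    by_contra hcon
    push Not at hcon
    apply ht₀
    have h1 := prod_nrm_tw hαc hαp hαf t₀
    obtain ⟨n, hn⟩ : ∃ n, p = n + 1 := ⟨p - 1, by have := hp.pos; omega⟩
    have h2 : ∏ u ∈ Finset.range p, nrm p (tw c α u) t₀ = nrm p c t₀ := by
      rw [hn, Finset.prod_range_succ']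
      rw [← hn]
      rw [Finset.prod_eq_one (fun i hi => hcon (i + 1) (by omega) (by have := Finset.mem_range.mp hi; omega))]
      have h3 : tw c α 0 = c := by simp [tw]
      rw [one_mul, h3]
    rw [h2] at h1
    have h4 := nrm_fix hcp t₀
    rw [h1, map_pow] at h4
    have h5 : (c t₀ / t₀) ^ p = 1 := by
      rw [div_pow, h4, div_self']
    have h6 := pow_inj_of_coprime hA h5
    exact div_eq_one.mp h6
  set t₁ := nrm p (tw c α k) t₀ with ht₁def
  have hct₁ : c t₁ = (α ^ k) t₁ := eig_of_nrm hαc hcp hαp k t₀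
  -- an eigenvector for `e`
  obtain ⟨u, hup, ht₂⟩ := exists_nrm_ne hA hαe hαp hαf ht₁
  set t₂ := nrm p (tw e α u) t₁ with ht₂def
  have het₂ : e t₂ = (α ^ u) t₂ := eig_of_nrm hαe hep hαp u t₁
  have hct₂ : c t₂ = (α ^ k) t₂ := by
    have hcomm : ∀ i, c * tw e α u ^ i = tw e α u ^ i * c := by
      intro i
      apply Commute.pow_right
      show c * tw e α u = tw e α u * c
      unfold tw
      have h1 : Commute c (α⁻¹ ^ u) := (Commute.inv_right (show Commute c α from hαc)).pow_right u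
      rw [← mul_assoc, ← hec, mul_assoc, h1.eq, mul_assoc]
    have hcomm2 : ∀ i, α ^ k * tw e α u ^ i = tw e α u ^ i * α ^ k := by
      intro i
      apply Commute.pow_right
      apply Commute.pow_left
      show α * tw e α u = tw e α u * α
      unfold tw
      have h1 : Commute α (α⁻¹ ^ u) := (Commute.inv_right (Commute.refl α)).pow_right u
      rw [← mul_assoc, ← hαe, mul_assoc, h1.eq, mul_assoc]
    rw [ht₂def]
    unfold nrm
    rw [map_prod, map_prod]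
    apply Finset.prod_congr rfl
    intro i _
    have h1 : c ((tw e α u ^ i) t₁) = (tw e α u ^ i) (c t₁) := congrFun (congrArg DFunLike.coe (hcomm i)) t₁
    have h2 : (α ^ k) ((tw e α u ^ i) t₁) = (tw e α u ^ i) ((α ^ k) t₁) := congrFun (congrArg DFunLike.coe (hcomm2 i)) t₁
    rw [h1, h2, hct₁]
  -- the conjugates
  have hγα : γ⁻¹ * α = α * γ⁻¹ := by
    have : Commute γ⁻¹ α := Commute.inv_left (show Commute γ α from hαγ)
    exact this.eq
  have hcγi : Commute c γ⁻¹ := Commute.inv_right (show Commute γ c from hcγ).symm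
  have heγ : e * γ⁻¹ = γ⁻¹ * (c * e) := by
    rw [← hγ]
    group
  have hrel : ∀ i : ℕ, e * (γ⁻¹) ^ i = (γ⁻¹) ^ i * (c ^ i * e) := by
    intro i
    induction i with
    | zero => simp
    | succ i ih =>
      have h1 : c * (γ⁻¹) ^ i = (γ⁻¹) ^ i * c := (hcγi.pow_right i).eq
      calc e * (γ⁻¹) ^ (i + 1) = (e * γ⁻¹) * (γ⁻¹) ^ i := by rw [pow_succ', mul_assoc]
        _ = γ⁻¹ * c * (e * (γ⁻¹) ^ i) := by rw [heγ]; simp only [mul_assoc]
        _ = γ⁻¹ * (c * (γ⁻¹) ^ i) * (c ^ i * e) := by rw [ih]; simp only [mul_assoc]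
        _ = (γ⁻¹) ^ (i + 1) * (c ^ (i + 1) * e) := by
          rw [h1, pow_succ' _ i, pow_succ' c i]
          simp only [mul_assoc]
  have hci : ∀ i : ℕ, (c ^ i) t₂ = (α ^ (i * k)) t₂ := by
    intro i
    induction i with
    | zero => simp
    | succ i ih =>
      have h1 : (c ^ (i + 1)) t₂ = (c ^ i) (c t₂) := by rw [pow_succ]; rfl
      have h2 : (c ^ i) ((α ^ k) t₂) = (α ^ k) ((c ^ i) t₂) := by
        have h3 : c ^ i * α ^ k = α ^ k * c ^ i := ((show Commute c α from hαc).pow_pow i k).eq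
        exact congrFun (congrArg DFunLike.coe h3) t₂
      have h5 : (α ^ k) ((α ^ (i * k)) t₂) = (α ^ ((i + 1) * k)) t₂ := by
        rw [show (i + 1) * k = k + i * k by ring, pow_add]
        rfl
      rw [h1, hct₂, h2, ih, h5]
  have hw : ∀ i : ℕ, e (((γ⁻¹) ^ i) t₂) = (α ^ (u + i * k)) (((γ⁻¹) ^ i) t₂) := by
    intro i
    have h1 : e (((γ⁻¹) ^ i) t₂) = ((γ⁻¹) ^ i) ((c ^ i) (e t₂)) := congrFun (congrArg DFunLike.coe (hrel i)) t₂
    have h2 : (c ^ i) ((α ^ u) t₂) = (α ^ u) ((c ^ i) t₂) := by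
      have h3 : c ^ i * α ^ u = α ^ u * c ^ i := ((show Commute c α from hαc).pow_pow i u).eq
      exact congrFun (congrArg DFunLike.coe h3) t₂
    have h5 : (α ^ u) ((α ^ (i * k)) t₂) = (α ^ (u + i * k)) t₂ := by
      rw [pow_add]
      rfl
    rw [h1, het₂, h2, hci, h5]
    have h4 : (γ⁻¹) ^ i * α ^ (u + i * k) = α ^ (u + i * k) * (γ⁻¹) ^ i :=
      ((show Commute γ⁻¹ α from hγα).pow_pow i _).eq
    exact congrFun (congrArg DFunLike.coe h4) t₂
  have hwne : ∀ i : ℕ, ((γ⁻¹) ^ i) t₂ ≠ 1 := by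
    intro i h
    exact ht₂ ((map_eq_one_iff _ (MulEquiv.injective _)).mp h)
  have h0 : ∀ x, x % p ≠ (x + k) % p := by
    intro x h
    have h1 : x + 0 ≡ x + k [MOD p] := h
    have h2 := Nat.ModEq.add_left_cancel' x h1
    have h3 : p ∣ k := (Nat.modEq_zero_iff_dvd).mp h2.symm
    have := Nat.le_of_dvd hk0 h3
    omega
  have h2' : ∀ x, x % p ≠ (x + 2 * k) % p := by
    intro x h
    have h1 : x + 0 ≡ x + 2 * k [MOD p] := h
    have h2 := Nat.ModEq.add_left_cancel' x h1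
    have h3 : p ∣ 2 * k := (Nat.modEq_zero_iff_dvd).mp h2.symm
    rcases (Nat.Prime.dvd_mul hp).mp h3 with h4 | h4
    · exact hp2 ((Nat.prime_dvd_prime_iff_eq hp Nat.prime_two).mp h4)
    · have := Nat.le_of_dvd hk0 h4
      omega
  have hw0 := hw 0
  have hw1 := hw 1
  have hw2 := hw 2
  simp only [pow_zero, zero_mul, add_zero, one_mul, pow_one] at hw0 hw1
  by_cases hu : u % p = 0
  · -- use `u + k`, `u + 2 k`
    refine ⟨u + k, u + 2 * k, ?_, ?_, ?_, _, _, hwne 1, hwne 2, ?_, hw2⟩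
    · intro h
      exact h0 u (by rw [hu, h])
    · intro h
      exact h2' u (by rw [hu, h])
    · have := h0 (u + k)
      rwa [show u + k + k = u + 2 * k by ring] at this
    · simpa using hw1
  · by_cases hu1 : (u + k) % p = 0
    · refine ⟨u, u + 2 * k, hu, ?_, h2' u, _, _, hwne 0, hwne 2, ?_, hw2⟩
      · intro h
        have := h0 (u + k)
        rw [show u + k + k = u + 2 * k by ring] at this
        exact this (by rw [hu1, h])
      · simpa using hw0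
    · exact ⟨u, u + k, hu, hu1, h0 u, _, _, hwne 0, hwne 1, by simpa using hw0, by simpa using hw1⟩

end Norm

section Central

variable {p : ℕ} [hpf : Fact p.Prime]

/-- A non-abelian `p`-group generated by `S`: a commutator with a generator, central of order `p`. -/
theorem exists_central_comm {G : Type*} [Group G] [Finite G] (hG : IsPGroup p G) (S : Set G) (hS : closure S = ⊤)
    (hna : ∃ g h : G, g * h ≠ h * g) :
    ∃ s ∈ S, ∃ γ : G, γ * s * γ⁻¹ * s⁻¹ ≠ 1 ∧ (γ * s * γ⁻¹ * s⁻¹) ^ p = 1 ∧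
      ∀ g, g * (γ * s * γ⁻¹ * s⁻¹) = (γ * s * γ⁻¹ * s⁻¹) * g := by
  classical
  obtain ⟨g₀, h₀, hgh⟩ := hna
  have hg₀ : g₀ ∉ center G := fun h => hgh ((Subgroup.mem_center_iff.mp h h₀).symm)
  haveI hnt : Nontrivial (G ⧸ center G) := by
    refine ⟨⟨(g₀ : G ⧸ center G), 1, ?_⟩⟩
    intro h
    exact hg₀ ((QuotientGroup.eq_one_iff g₀).mp h)
  have hQ : IsPGroup p (G ⧸ center G) := hG.to_quotient _
  haveI := hQ.center_nontrivial
  obtain ⟨⟨z, hz⟩, hz1⟩ := exists_ne (1 : center (G ⧸ center G))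
  obtain ⟨g, rfl⟩ := QuotientGroup.mk_surjective z
  have hgZ : g ∉ center G := by
    intro h
    apply hz1
    apply Subtype.ext
    exact (QuotientGroup.eq_one_iff g).mpr h
  obtain ⟨s, hs, hgs⟩ : ∃ s ∈ S, g * s ≠ s * g := by
    by_contra hcon
    push Not at hcon
    apply hgZ
    have h1 : closure S ≤ centralizer {g} := by
      rw [closure_le]
      intro s hs
      rw [SetLike.mem_coe, Subgroup.mem_centralizer_singleton_iff]
      exact (hcon s hs).symm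
    rw [hS] at h1
    rw [Subgroup.mem_center_iff]
    intro h
    have := h1 (mem_top h)
    rw [Subgroup.mem_centralizer_singleton_iff] at this
    exact this
  set c₀ := g * s * g⁻¹ * s⁻¹ with hc₀
  have hc₀1 : c₀ ≠ 1 := by
    intro h
    apply hgs
    rw [hc₀, mul_inv_eq_one, mul_inv_eq_iff_eq_mul] at h
    exact h
  have hc₀Z : c₀ ∈ center G := by
    rw [← QuotientGroup.eq_one_iff]
    have h1 := Subgroup.mem_center_iff.mp hz (s : G ⧸ center G)
    have h2 : ((g * s * g⁻¹ * s⁻¹ : G) : G ⧸ center G) = (g : G ⧸ center G) * s * (g : G ⧸ center G)⁻¹ * (s : G ⧸ center G)⁻¹ := rfl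
    rw [hc₀, h2, ← h1]
    group
  have hcomm : ∀ h, h * c₀ = c₀ * h := fun h => Subgroup.mem_center_iff.mp hc₀Z h
  have hpow : ∀ m : ℕ, g ^ m * s * (g ^ m)⁻¹ * s⁻¹ = c₀ ^ m := by
    intro m
    induction m with
    | zero => simp
    | succ m ih =>
      have h1 : g ^ m * s * (g ^ m)⁻¹ = c₀ ^ m * s := by
        rw [← ih]
        group
      have h2 : g ^ (m + 1) * s * (g ^ (m + 1))⁻¹ = g * (g ^ m * s * (g ^ m)⁻¹) * g⁻¹ := by
        rw [pow_succ']
        group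
      have h3 : g * c₀ ^ m = c₀ ^ m * g := ((show Commute g c₀ from hcomm g).pow_right m).eq
      rw [h2, h1, ← mul_assoc g, h3, pow_succ']
      have h4 : c₀ ^ m * g * s * g⁻¹ * s⁻¹ = c₀ ^ m * c₀ := by
        rw [hc₀]
        group
      rw [mul_assoc (c₀ ^ m * g), ← mul_assoc, h4]
      exact ((Commute.refl c₀).pow_left m).eq
  obtain ⟨k, hk⟩ := hG c₀
  have hex : ∃ n, c₀ ^ (p ^ n) = 1 := ⟨k, hk⟩
  set n := Nat.find hex with hn
  have hn1 : c₀ ^ (p ^ n) = 1 := Nat.find_spec hex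
  have hn0 : n ≠ 0 := by
    intro h
    rw [h, pow_zero, pow_one] at hn1
    exact hc₀1 hn1
  obtain ⟨n₀, hn₀⟩ : ∃ n₀, n = n₀ + 1 := ⟨n - 1, by omega⟩
  have hmin : c₀ ^ (p ^ n₀) ≠ 1 := Nat.find_min hex (by omega)
  refine ⟨s, hs, g ^ (p ^ n₀), ?_, ?_, ?_⟩
  · rw [hpow]
    exact hmin
  · rw [hpow, ← pow_mul, ← pow_succ, ← hn₀]
    exact hn1
  · intro h
    rw [hpow]
    exact ((show Commute h c₀ from hcomm h).pow_right _).eq

/-- **The two eigenvalue lemma.** -/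
theorem lemmaE {A Γ : Type*} [CommGroup A] [Finite A] [Group Γ] [Finite Γ] (hp2 : p ≠ 2) (hA : (Nat.card A).Coprime p)
    (hΓ : IsPGroup p Γ) (φ : Γ →* MulAut A) (a : Γ) (hac : ∀ g, g * a = a * g) (hap : a ^ p = 1)
    (haf : ∀ v, φ a v = v → v = 1) (S : Set Γ) (hS : closure S = ⊤) (hSp : ∀ s ∈ S, s ^ p = 1)
    (hna : ∃ g h : Γ, φ g * φ h ≠ φ h * φ g) :
    ∃ s ∈ S, ∃ u₁ u₂ : ℕ, u₁ % p ≠ 0 ∧ u₂ % p ≠ 0 ∧ u₁ % p ≠ u₂ % p ∧ ∃ t₁ t₂ : A, t₁ ≠ 1 ∧ t₂ ≠ 1 ∧
      φ s t₁ = φ (a ^ u₁) t₁ ∧ φ s t₂ = φ (a ^ u₂) t₂ := by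
  classical
  let G : Subgroup (MulAut A) := φ.range
  let φ' : Γ →* ↥G := φ.rangeRestrict
  have hφ' : Function.Surjective φ' := φ.rangeRestrict_surjective
  have hval : ∀ g, ((φ' g : ↥G) : MulAut A) = φ g := fun g => rfl
  have hG : IsPGroup p ↥G := hΓ.of_surjective φ' hφ'
  have hS' : closure (φ' '' S) = ⊤ := by
    rw [← MonoidHom.map_closure, hS, ← MonoidHom.range_eq_map, MonoidHom.range_eq_top.mpr hφ']
  obtain ⟨g₀, h₀, hgh⟩ := hna
  obtain ⟨_, ⟨s, hs, rfl⟩, ⟨γ, hγmem⟩, h1, h2, h3⟩ := exists_central_comm hG (φ' '' S) hS' ⟨φ' g₀, φ' h₀, by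
    intro h
    exact hgh (congrArg Subtype.val h)⟩
  set c : ↥G := ⟨γ, hγmem⟩ * φ' s * (⟨γ, hγmem⟩ : ↥G)⁻¹ * (φ' s)⁻¹ with hc
  have hcent : ∀ g : Γ, φ g * (c : MulAut A) = c * φ g := fun g => congrArg Subtype.val (h3 (φ' g))
  have hcγ : γ * (c : MulAut A) = c * γ := congrArg Subtype.val (h3 ⟨γ, hγmem⟩)
  have hres := eigen_three hA hp2 (φ a) (φ s) (c : MulAut A) γ (by rw [← map_pow, hap, map_one])
    (by rw [← map_pow, hSp s hs, map_one]) (congrArg Subtype.val h2) haf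
    (fun h => h1 (Subtype.ext h)) (by rw [← map_mul, ← map_mul, hac]) (hcent a).symm (hcent s)
    (by
      obtain ⟨g, rfl⟩ := hγmem
      rw [← map_mul, ← map_mul, hac]) hcγ
    (by
      have h4 : (c : MulAut A) = γ * φ s * γ⁻¹ * (φ s)⁻¹ := rfl
      rw [h4]
      group)
  obtain ⟨u₁, u₂, hu₁, hu₂, hu, t₁, t₂, ht₁, ht₂, he₁, he₂⟩ := hres
  refine ⟨s, hs, u₁, u₂, hu₁, hu₂, hu, t₁, t₂, ht₁, ht₂, ?_, ?_⟩
  · rw [map_pow]
    exact he₁
  · rw [map_pow]
    exact he₂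

end Central

section Wrap

variable {p : ℕ} [hpf : Fact p.Prime]

theorem inv_pow_pred {A : Type*} [Group A] {α : MulAut A} (hα : α ^ p = 1) : (α⁻¹) ^ (p - 1) = α := by
  have hp := hpf.out
  have h1 : (α⁻¹) ^ (p - 1) * α⁻¹ = 1 := by
    rw [← pow_succ, Nat.sub_add_cancel hp.pos, inv_pow, hα, inv_one]
  rw [mul_inv_eq_one] at h1
  exact h1

theorem delta_eq {A : Type*} [Group A] {α : MulAut A} (hα : α ^ p = 1) (u v : ℕ) :
    α ^ v * (α⁻¹) ^ u = (α⁻¹) ^ (u + (p - 1) * v) := by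
  rw [add_comm, pow_add, pow_mul, inv_pow_pred hα]

theorem mod_ne_of_ne {u v : ℕ} (huv : u % p ≠ v % p) : (u + (p - 1) * v) % p ≠ 0 := by
  have hp := hpf.out
  intro h
  apply huv
  have h1 : p ∣ u + (p - 1) * v := Nat.dvd_of_mod_eq_zero h
  have h2 : u + p * v = (u + (p - 1) * v) + v := by
    obtain ⟨n, rfl⟩ : ∃ n, p = n + 1 := ⟨p - 1, by have := hp.pos; omega⟩
    simp only [Nat.add_sub_cancel]
    ring
  have h3 : (u + p * v) % p = u % p := Nat.add_mul_mod_self_left u p v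
  rw [← h3, h2]
  obtain ⟨c, hc⟩ := h1
  rw [hc, Nat.mul_add_mod]

theorem fpf_delta {A : Type*} [CommGroup A] {α : MulAut A} (hα : α ^ p = 1) (hf : ∀ x, α x = x → x = 1) {u v : ℕ}
    (huv : u % p ≠ v % p) : ∀ x, (α ^ v * (α⁻¹) ^ u) x = x → x = 1 := by
  rw [delta_eq hα]
  exact fpf_pow hα hf (mod_ne_of_ne huv)

theorem fix_iff {A : Type*} [Group A] {β α : MulAut A} (hc : β * α = α * β) (v : ℕ) (y : A) :
    (β * α⁻¹ ^ v) y = y ↔ β y = (α ^ v) y := by
  have hcβ : Commute β ((α⁻¹) ^ v) := (Commute.inv_right (show Commute β α from hc)).pow_right v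
  have h0 : (β * α⁻¹ ^ v) y = ((α ^ v)⁻¹) (β y) := by
    rw [hcβ.eq, inv_pow]
    rfl
  rw [h0]
  constructor
  · intro h
    have h1 : (α ^ v) (((α ^ v)⁻¹) (β y)) = (α ^ v) y := by rw [h]
    rwa [MulAut.apply_inv_self] at h1
  · intro h
    rw [h, MulAut.inv_apply_self]

/-- Lifting a fixed point. -/
theorem w_lift {A B : Type*} [Group A] [Group B] [Finite A] [Finite B] (hAc : ∀ x y : A, x * y = y * x)
    (hBc : ∀ x y : B, x * y = y * x) (hB : (Nat.card B).Coprime p) (ψ : A →* B) (hψ : Function.Surjective ψ)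
    (β : MulAut A) (β' : MulAut B) (hc : ∀ v, ψ (β v) = β' (ψ v)) (hβ : β ^ p = 1) (t : B) (ht : β' t = t) (ht1 : t ≠ 1) :
    ∃ t' : A, β t' = t' ∧ ψ t' ≠ 1 := by
  classical
  letI cA : CommGroup A := { (inferInstance : Group A) with mul_comm := hAc }
  letI cB : CommGroup B := { (inferInstance : Group B) with mul_comm := hBc }
  obtain ⟨v₀, rfl⟩ := hψ t
  refine ⟨nrm p β v₀, nrm_fix hβ v₀, ?_⟩
  have h1 : ∀ i, ψ ((β ^ i) v₀) = ψ v₀ := by
    intro i
    induction i with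
    | zero => rfl
    | succ i ih =>
      have h2 : (β ^ (i + 1)) v₀ = β ((β ^ i) v₀) := by
        rw [pow_succ']
        rfl
      rw [h2, hc, ih, ht]
  have h2 : ψ (nrm p β v₀) = ψ v₀ ^ p := by
    unfold nrm
    rw [map_prod]
    simp only [h1]
    simp
  rw [h2]
  intro h3
  exact ht1 (pow_inj_of_coprime hB h3)

theorem tw_eq {A : Type*} [CommGroup A] (β α : MulAut A) (u : ℕ) : tw β α u = β * α⁻¹ ^ u := rfl

/-- The projection onto one eigenspace. -/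
theorem w_decomp {A F : Type*} [Group A] [Finite A] [Group F] (hAc : ∀ x y : A, x * y = y * x) (β α : MulAut A)
    (hc : β * α = α * β) (hβ : β ^ p = 1) (hα : α ^ p = 1) (hf : ∀ x, α x = x → x = 1) (f : A →* F) (u₀ : ℕ) (hu₀ : u₀ < p)
    (hker : ∀ u < p, u ≠ u₀ → ∀ x, (β * α⁻¹ ^ u) x = x → f x = 1) (v : A) :
    ∃ x₀, (β * α⁻¹ ^ u₀) x₀ = x₀ ∧ f x₀ = (f v) ^ p := by
  classical
  letI cA : CommGroup A := { (inferInstance : Group A) with mul_comm := hAc }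
  refine ⟨nrm p (tw β α u₀) v, nrm_fix (tw_pow_p hc hβ hα u₀) v, ?_⟩
  have h1 := prod_nrm_tw hc hα hf v
  rw [← Finset.mul_prod_erase _ _ (Finset.mem_range.mpr hu₀)] at h1
  have h2 : f (∏ u ∈ (Finset.range p).erase u₀, nrm p (tw β α u) v) = 1 := by
    have h3 : (∏ u ∈ (Finset.range p).erase u₀, nrm p (tw β α u) v) ∈ f.ker := by
      apply Subgroup.prod_mem
      intro u hu
      rw [MonoidHom.mem_ker]
      have hu' := Finset.mem_erase.mp hu
      exact hker u (Finset.mem_range.mp hu'.2) hu'.1 _ (nrm_fix (tw_pow_p hc hβ hα u) v)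
    exact h3
  have h4 := congrArg f h1
  rw [map_mul, h2, mul_one, map_pow] at h4
  exact h4

/-- Orthogonality. -/
theorem w_orth {A F : Type*} [Group A] [Finite A] [Group F] (hAc : ∀ x y : A, x * y = y * x) (β α : MulAut A)
    (hc : β * α = α * β) (hα : α ^ p = 1) (hf : ∀ x, α x = x → x = 1) (f : A →* F) {u v : ℕ} (huv : u % p ≠ v % p)
    (hfu : ∀ x, f ((β * α⁻¹ ^ u) x) = f x) (x : A) (hx : (β * α⁻¹ ^ v) x = x) : (f x) ^ p = 1 := by
  classical
  letI cA : CommGroup A := { (inferInstance : Group A) with mul_comm := hAc }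
  have hp := hpf.out
  set δ : MulAut A := α ^ v * (α⁻¹) ^ u with hδ
  have hcβ : ∀ n : ℕ, Commute β ((α⁻¹) ^ n) := fun n => (Commute.inv_right (show Commute β α from hc)).pow_right n
  have hcβ2 : ∀ n : ℕ, Commute β (α ^ n) := fun n => (show Commute β α from hc).pow_right n
  have hαα : ∀ m n : ℕ, Commute (α ^ m) ((α⁻¹) ^ n) := fun m n => ((Commute.inv_right (Commute.refl α)).pow_pow m n)
  -- on fixed vectors `β = α ^ v`
  have hkey : ∀ y, (β * α⁻¹ ^ v) y = y → (β * α⁻¹ ^ u) y = δ y := by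
    intro y hy
    have h1 : β y = (α ^ v) y := (fix_iff hc v y).mp hy
    have h3 : (β * α⁻¹ ^ u) y = ((α⁻¹) ^ u) (β y) := by
      have : β * α⁻¹ ^ u = α⁻¹ ^ u * β := (hcβ u).eq
      rw [this]
      rfl
    have h4 : (α⁻¹) ^ u * α ^ v = δ := (hαα v u).eq.symm
    rw [h3, h1, ← h4]
    rfl
  have hfixδ : ∀ y, (β * α⁻¹ ^ v) y = y → (β * α⁻¹ ^ v) (δ y) = δ y := by
    intro y hy
    rw [fix_iff hc]
    have h1 : β y = (α ^ v) y := (fix_iff hc v y).mp hy
    have hc1 : β * δ = δ * β := ((hcβ2 v).mul_right (hcβ u)).eq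
    have hc2 : α ^ v * δ = δ * α ^ v := ((Commute.pow_right (Commute.refl α) v |>.pow_left v).mul_right (hαα v u)).eq
    have h2 : β (δ y) = δ (β y) := congrFun (congrArg DFunLike.coe hc1) y
    have h3 : (α ^ v) (δ y) = δ ((α ^ v) y) := congrFun (congrArg DFunLike.coe hc2) y
    rw [h2, h3, h1]
  have hi : ∀ i : ℕ, (β * α⁻¹ ^ v) ((δ ^ i) x) = (δ ^ i) x ∧ f ((δ ^ i) x) = f x := by
    intro i
    induction i with
    | zero => exact ⟨hx, rfl⟩
    | succ i ih =>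
      have h1 : (δ ^ (i + 1)) x = δ ((δ ^ i) x) := by
        rw [pow_succ']
        rfl
      rw [h1]
      refine ⟨hfixδ _ ih.1, ?_⟩
      rw [← hkey _ ih.1, hfu, ih.2]
  have hm : ∀ m, f (∏ i ∈ Finset.range m, (δ ^ i) x) = (f x) ^ m := by
    intro m
    induction m with
    | zero => simp
    | succ m ih => rw [Finset.prod_range_succ, map_mul, ih, (hi m).2, pow_succ]
  have hδp : δ ^ p = 1 := by
    rw [hδ, delta_eq hα, ← pow_mul, mul_comm, pow_mul, inv_pow, hα, inv_one, one_pow]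
  have hn := nrm_eq_one hδp (fpf_delta hα hf huv) x
  have h5 := hm p
  have h6 : ∏ i ∈ Finset.range p, (δ ^ i) x = 1 := hn
  rw [h6, map_one] at h5
  exact h5.symm

/-- Two eigenvalues are independent. -/
theorem w_fpf_two {A : Type*} [Group A] [Finite A] (hAc : ∀ x y : A, x * y = y * x) (β α : MulAut A)
    (hc : β * α = α * β) (hα : α ^ p = 1) (hf : ∀ x, α x = x → x = 1) {u₁ u₂ : ℕ} (h₁ : u₁ % p ≠ 0) (h₂ : u₂ % p ≠ 0)
    (h12 : u₁ % p ≠ u₂ % p) (v₁ v₂ : A) (hv₁ : (β * α⁻¹ ^ u₁) v₁ = v₁) (hv₂ : (β * α⁻¹ ^ u₂) v₂ = v₂)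
    (hfix : β (v₁ * v₂) = v₁ * v₂) : v₁ = 1 ∧ v₂ = 1 := by
  classical
  letI cA : CommGroup A := { (inferInstance : Group A) with mul_comm := hAc }
  have e₁ : β v₁ = (α ^ u₁) v₁ := (fix_iff hc u₁ v₁).mp hv₁
  have e₂ : β v₂ = (α ^ u₂) v₂ := (fix_iff hc u₂ v₂).mp hv₂
  have hcβ2 : ∀ n : ℕ, Commute β (α ^ n) := fun n => (show Commute β α from hc).pow_right n
  have hcomm : ∀ (n : ℕ) (w : A), β ((α ^ n) w) = (α ^ n) (β w) := fun n w =>
    congrFun (congrArg DFunLike.coe (hcβ2 n).eq) w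
  set y := (α ^ u₁) v₁ * v₁⁻¹ with hy
  have hy2 : y = v₂ * ((α ^ u₂) v₂)⁻¹ := by
    rw [map_mul, e₁, e₂] at hfix
    rw [hy, mul_inv_eq_iff_eq_mul, mul_assoc, mul_comm _ v₁, ← mul_assoc, eq_comm, mul_inv_eq_iff_eq_mul]
    rw [hfix]
    exact mul_comm _ _
  have hβ₁ : β y = (α ^ u₁) y := by
    rw [hy, map_mul, map_mul, map_inv, map_inv, hcomm, e₁]
  have hβ₂ : β y = (α ^ u₂) y := by
    rw [hy2, map_mul, map_mul, map_inv, map_inv, hcomm, e₂]
  have hδy : (α ^ u₂ * (α⁻¹) ^ u₁) y = y := by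
    have h1 : ((α⁻¹) ^ u₁) ((α ^ u₁) y) = y := by
      rw [inv_pow, MulAut.inv_apply_self]
    have h2 : (α ^ u₂ * (α⁻¹) ^ u₁) y = ((α⁻¹) ^ u₁) ((α ^ u₂) y) := by
      have h3 : α ^ u₂ * (α⁻¹) ^ u₁ = (α⁻¹) ^ u₁ * α ^ u₂ :=
        ((Commute.inv_right (Commute.refl α)).pow_pow u₂ u₁).eq
      rw [h3]
      rfl
    rw [h2, ← hβ₂, hβ₁, h1]
  have hy1 : y = 1 := fpf_delta hα hf h12 y hδy
  have h₁' : (α ^ u₁) v₁ = v₁ := by
    rw [hy, mul_inv_eq_one] at hy1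
    exact hy1
  have h₂' : (α ^ u₂) v₂ = v₂ := by
    rw [hy2, mul_inv_eq_one] at hy1
    exact hy1.symm
  constructor
  · apply fpf_pow hα hf h₁
    rw [inv_pow]
    nth_rewrite 1 [← h₁']
    rw [MulAut.inv_apply_self]
  · apply fpf_pow hα hf h₂
    rw [inv_pow]
    nth_rewrite 1 [← h₂']
    rw [MulAut.inv_apply_self]

/-- The two eigenvalue lemma for a group with commuting elements. -/
theorem w_lemmaE {A Γ : Type*} [Group A] [Finite A] [Group Γ] [Finite Γ] (hAc : ∀ x y : A, x * y = y * x) (hp2 : p ≠ 2)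
    (hA : (Nat.card A).Coprime p)
    (hΓ : IsPGroup p Γ) (φ : Γ →* MulAut A) (a : Γ) (hac : ∀ g, g * a = a * g) (hap : a ^ p = 1)
    (haf : ∀ v, φ a v = v → v = 1) (S : Set Γ) (hS : closure S = ⊤) (hSp : ∀ s ∈ S, s ^ p = 1)
    (hna : ∃ g h : Γ, φ g * φ h ≠ φ h * φ g) :
    ∃ s ∈ S, ∃ u₁ u₂ : ℕ, u₁ % p ≠ 0 ∧ u₂ % p ≠ 0 ∧ u₁ % p ≠ u₂ % p ∧ ∃ t₁ t₂ : A, t₁ ≠ 1 ∧ t₂ ≠ 1 ∧
      φ s t₁ = φ (a ^ u₁) t₁ ∧ φ s t₂ = φ (a ^ u₂) t₂ := by
  letI cA : CommGroup A := { (inferInstance : Group A) with mul_comm := hAc }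
  exact lemmaE hp2 hA hΓ φ a hac hap haf S hS hSp hna

end Wrap

end Cfsg.Agent.Lib.Coprime.HHL
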