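import Mathlib

/-!
# A norm elimination lemma

Suppose a commutative semisimple algebra `R` acts on `V`, normalized by an operator `S` of finite
order `N` with `1 + S + ⋯ + S^(N-1) = 0`. Then the Dedekind elimination shows that the automorphism
of `R` induced by `S^d` is trivial on `R` whenever every nonzero power of `S` has `S^d` as a power.
-/

set_option autoImplicit false

namespace Cfsg.Agent.Lib.Coprime.NormElim

open Finset

theorem mulApp {R : Type*} [Semiring R] (f g : R →+* R) (x : R) : (f * g) x = f (g x) := rfl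

theorem oneApp {R : Type*} [Semiring R] (x : R) : (1 : R →+* R) x = x := rfl

/-- Dedekind elimination. -/
theorem elim_general {R M ι : Type*} [CommRing R] [AddCommGroup M] [Module R M] [DecidableEq ι]
    (σ : ι → R →+* R) (i₀ : ι) (c : ι → R) (s : Finset ι) :
    i₀ ∉ s → ∀ e : ι → M, (∀ r, σ i₀ r • e i₀ + ∑ i ∈ s, σ i r • e i = 0) →
      (∏ i ∈ s, (σ i₀ (c i) - σ i (c i))) • e i₀ = 0 := by
  induction s using Finset.induction_on with
  | empty =>
    intro _ e h
    have := h 1
    simpa using this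
  | insert j s' hj IH =>
    intro hi₀ e h
    rw [Finset.mem_insert, not_or] at hi₀
    rw [Finset.prod_insert hj]
    have key := IH hi₀.2 (fun i => (σ i (c j) - σ j (c j)) • e i) (by
      intro r
      have h1 := h (r * c j)
      have h2 := h r
      rw [Finset.sum_insert hj] at h1 h2
      have h4 : ∑ i ∈ s', σ i r • (σ i (c j) - σ j (c j)) • e i =
          ∑ i ∈ s', σ i (r * c j) • e i - σ j (c j) • ∑ i ∈ s', σ i r • e i := by
        rw [Finset.smul_sum, ← Finset.sum_sub_distrib]
        apply Finset.sum_congr rfl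
        intro i _
        simp only [map_mul, smul_smul, ← sub_smul]
        congr 1
        ring
      show σ i₀ r • (σ i₀ (c j) - σ j (c j)) • e i₀ + ∑ i ∈ s', σ i r • (σ i (c j) - σ j (c j)) • e i = 0
      rw [h4]
      rw [map_mul, map_mul] at h1
      generalize (∑ i ∈ s', σ i (r * c j) • e i) = S1 at h1 ⊢
      generalize (∑ i ∈ s', σ i r • e i) = S2 at h2 ⊢
      linear_combination (norm := module) h1 - σ j (c j) • h2)
    rw [mul_comm, mul_smul]
    exact key

theorem telescoping {R : Type*} [CommRing R] (Θ : R →+* R) (i j : ℕ) (t : R) :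
    (∑ l ∈ range j, (Θ ^ (i * l)) t) - (Θ ^ i) (∑ l ∈ range j, (Θ ^ (i * l)) t)
      = t - (Θ ^ (i * j)) t := by
  induction j with
  | zero => simp
  | succ j ih =>
    rw [Finset.sum_range_succ, map_add, add_sub_add_comm, ih, ← mulApp, ← pow_add,
      show i + i * j = i * (j + 1) by ring]
    ring

/-- Elimination along the powers of `Θ`. -/
theorem elim_pow {R M : Type*} [CommRing R] [AddCommGroup M] [Module R M] (Θ : R →+* R) {N d : ℕ}
    (hΘ : Θ ^ N = 1) (hN0 : 0 < N) (e : ℕ → M)
    (hrel : ∀ r, ∑ i ∈ range N, (Θ ^ i) r • e i = 0)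
    (hd : ∀ i, 0 < i → i < N → ∃ j, (i * j) % N = d % N) (t : R) :
    (t - (Θ ^ d) t) ^ (N - 1) • e 0 = 0 := by
  classical
  have hc : ∀ i, ∃ c : R, 0 < i → i < N → c - (Θ ^ i) c = t - (Θ ^ d) t := by
    intro i
    by_cases hi : 0 < i ∧ i < N
    · obtain ⟨j, hj⟩ := hd i hi.1 hi.2
      refine ⟨∑ l ∈ range j, (Θ ^ (i * l)) t, fun _ _ => ?_⟩
      rw [telescoping, pow_eq_pow_mod (i * j) hΘ, hj, ← pow_eq_pow_mod d hΘ]
    · exact ⟨0, fun h1 h2 => absurd ⟨h1, h2⟩ hi⟩
  choose c hc using hc
  have h0 := elim_general (fun i => Θ ^ i) 0 c ((range N).erase 0) (by simp) e (by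
    intro r
    have := hrel r
    rw [← Finset.add_sum_erase _ _ (Finset.mem_range.mpr hN0)] at this
    exact this)
  have h1 : ∏ i ∈ (range N).erase 0, ((Θ ^ 0) (c i) - (Θ ^ i) (c i))
      = ∏ _i ∈ (range N).erase 0, (t - (Θ ^ d) t) := by
    apply Finset.prod_congr rfl
    intro i hi
    rw [Finset.mem_erase, Finset.mem_range] at hi
    rw [pow_zero]
    exact hc i (Nat.pos_of_ne_zero hi.1) hi.2
  rw [h1, Finset.prod_const, Finset.card_erase_of_mem (Finset.mem_range.mpr hN0),
    Finset.card_range] at h0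
  exact h0

theorem elim_end {R k V : Type*} [CommRing R] [Field k] [AddCommGroup V] [Module k V]
    (φ : R →+* Module.End k V) (Θ : R →+* R) {N d : ℕ} (hΘ : Θ ^ N = 1) (hN0 : 0 < N) (e : ℕ → V)
    (hrel : ∀ r, ∑ i ∈ range N, φ ((Θ ^ i) r) (e i) = 0)
    (hd : ∀ i, 0 < i → i < N → ∃ j, (i * j) % N = d % N) (t : R) :
    φ ((t - (Θ ^ d) t) ^ (N - 1)) (e 0) = 0 := by
  letI : Module R V := Module.compHom V φ
  exact elim_pow Θ hΘ hN0 e hrel hd t

/-- The norm lemma, in linear form. -/
theorem norm_lemma {k V A : Type*} [Field k] [AddCommGroup V] [Module k V] [CommGroup A] [Finite A]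
    (hcard : (Nat.card A : k) ≠ 0) (ρ : A →* Module.End k V) (S : Module.End k V)
    (θ : A →* A) {N d : ℕ} (hN0 : 0 < N) (hθ : ∀ a, θ^[N] a = a)
    (hS : ∀ a, S * ρ a = ρ (θ a) * S) (hsum : ∑ i ∈ range N, S ^ i = 0)
    (hd : ∀ i, 0 < i → i < N → ∃ j, (i * j) % N = d % N) (a : A) :
    ρ (θ^[d] a) = ρ a := by
  classical
  haveI : NeZero (Nat.card A : k) := ⟨hcard⟩
  let φ : MonoidAlgebra k A →ₐ[k] Module.End k V := MonoidAlgebra.lift k (Module.End k V) A ρ
  let Θ : MonoidAlgebra k A →+* MonoidAlgebra k A := MonoidAlgebra.mapDomainRingHom k θ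
  have hφof : ∀ a, φ (MonoidAlgebra.of k A a) = ρ a := fun a => MonoidAlgebra.lift_of ρ a
  have hΘof : ∀ a, Θ (MonoidAlgebra.of k A a) = MonoidAlgebra.of k A (θ a) := fun a => by
    simp [Θ]
  have hΘsmul : ∀ (r : k) (y : MonoidAlgebra k A), Θ (r • y) = r • Θ y := by
    intro r y
    simp [Θ]
  have hS' : ∀ x : MonoidAlgebra k A, S * φ x = φ (Θ x) * S := by
    intro x
    induction x using MonoidAlgebra.induction_on with
    | of a => rw [hφof, hΘof, hφof, hS]
    | add a b ha hb => rw [map_add, map_add, map_add, mul_add, add_mul, ha, hb]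
    | smul r a ha =>
      rw [hΘsmul, map_smul, map_smul, mul_smul_comm, ha, smul_mul_assoc]
  have hΘpowof : ∀ (n : ℕ) (a : A), (Θ ^ n) (MonoidAlgebra.of k A a)
      = MonoidAlgebra.of k A (θ^[n] a) := by
    intro n a
    induction n with
    | zero => simp
    | succ n ih =>
      rw [pow_succ', mulApp, ih, hΘof, Function.iterate_succ_apply']
  have hΘN : Θ ^ N = 1 := by
    apply RingHom.ext
    intro x
    induction x using MonoidAlgebra.induction_on with
    | of a => rw [hΘpowof, hθ, oneApp]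
    | add a b ha hb => rw [map_add, ha, hb, oneApp, oneApp, oneApp]
    | smul r a ha =>
      have h1 : ∀ (n : ℕ) (y : MonoidAlgebra k A), (Θ ^ n) (r • y) = r • (Θ ^ n) y := by
        intro n y
        induction n with
        | zero => simp
        | succ n ih => rw [pow_succ', mulApp, ih, hΘsmul, mulApp]
      rw [h1, ha, oneApp, oneApp]
  have hSpow : ∀ (n : ℕ) (x : MonoidAlgebra k A), S ^ n * φ x = φ ((Θ ^ n) x) * S ^ n := by
    intro n x
    induction n with
    | zero => simp
    | succ n ih =>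
      rw [pow_succ', mul_assoc, ih, ← mul_assoc, hS', mul_assoc, pow_succ' Θ, mulApp]
  have hrel : ∀ (v : V) (x : MonoidAlgebra k A),
      ∑ i ∈ range N, φ ((Θ ^ i) x) ((S ^ i) v) = 0 := by
    intro v x
    have h0 := congrArg (fun E : Module.End k V => E (φ x v)) hsum
    simp only [LinearMap.sum_apply, LinearMap.zero_apply] at h0
    rw [← h0]
    apply Finset.sum_congr rfl
    intro i _
    have := congrArg (fun E : Module.End k V => E v) (hSpow i x)
    exact this.symm
  let t := MonoidAlgebra.of k A a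
  have hnil : φ ((t - (Θ ^ d) t) ^ (N - 1)) = 0 := by
    apply LinearMap.ext
    intro v
    have := elim_end (φ : MonoidAlgebra k A →+* Module.End k V) Θ hΘN hN0 (fun i => (S ^ i) v)
      (fun x => hrel v x) hd t
    simpa using this
  have hy0 : φ (t - (Θ ^ d) t) = 0 := by
    let φr : MonoidAlgebra k A →+* Module.End k V := φ
    let I := RingHom.ker φr
    haveI : IsSemisimpleRing (MonoidAlgebra k A ⧸ I) :=
      RingHom.isSemisimpleRing_of_surjective (Ideal.Quotient.mk I) Ideal.Quotient.mk_surjective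
    have h3 : (Ideal.Quotient.mk I (t - (Θ ^ d) t)) ^ (N - 1) = 0 := by
      rw [← map_pow, Ideal.Quotient.eq_zero_iff_mem]
      exact hnil
    have h4 : Ideal.Quotient.mk I (t - (Θ ^ d) t) = 0 := IsReduced.eq_zero _ ⟨_, h3⟩
    exact Ideal.Quotient.eq_zero_iff_mem.mp h4
  rw [map_sub, sub_eq_zero] at hy0
  have h8 : φ ((Θ ^ d) t) = ρ (θ^[d] a) := by
    show φ ((Θ ^ d) (MonoidAlgebra.of k A a)) = _
    rw [hΘpowof, hφof]
  rw [← h8, ← hy0]
  exact hφof a

/-- `f` as a `ZMod p`-linear endomorphism. -/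
noncomputable def toEndAux {p : ℕ} {N' : Type*} [CommGroup N'] [Module (ZMod p) (Additive N')]
    (f : N' →* N') : Module.End (ZMod p) (Additive N') :=
  AddMonoidHom.toZModLinearMap p (MonoidHom.toAdditive f)

theorem toEndAux_apply {p : ℕ} {N' : Type*} [CommGroup N'] [Module (ZMod p) (Additive N')]
    (f : N' →* N') (v : Additive N') : toEndAux (p := p) f v = Additive.ofMul (f v.toMul) := rfl

theorem toEndAux_pow {p : ℕ} {N' : Type*} [CommGroup N'] [Module (ZMod p) (Additive N')]
    (f : N' →* N') (n : ℕ) (v : Additive N') :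
    (toEndAux (p := p) f ^ n) v = Additive.ofMul (f^[n] v.toMul) := by
  induction n generalizing v with
  | zero => rfl
  | succ n ih =>
    rw [pow_succ, Module.End.mul_apply, ih, toEndAux_apply, Function.iterate_succ_apply]
    rfl

theorem norm_mul_aux {A N' : Type*} {p : ℕ} [hpf : Fact p.Prime] [CommGroup A] [Finite A]
    [CommGroup N'] [Module (ZMod p) (Additive N')] (hp : ¬ p ∣ Nat.card A)
    (α : A →* MulAut N') (S₀ : N' →* N') (θ : A →* A) {N d : ℕ} (hN0 : 0 < N)
    (hθ : ∀ a, θ^[N] a = a) (hS : ∀ a v, S₀ (α a v) = α (θ a) (S₀ v))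
    (hsum : ∀ v, ∏ i ∈ range N, S₀^[i] v = 1)
    (hd : ∀ i, 0 < i → i < N → ∃ j, (i * j) % N = d % N) (a : A) (v : N') :
    α (θ^[d] a) v = α a v := by
  classical
  let ρ : A →* Module.End (ZMod p) (Additive N') :=
    { toFun := fun g => toEndAux (α g).toMonoidHom
      map_one' := by
        apply LinearMap.ext
        intro v
        rw [toEndAux_apply, map_one]
        rfl
      map_mul' := fun a b => by
        apply LinearMap.ext
        intro v
        rw [toEndAux_apply, map_mul]
        rfl }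
  have hS' : ∀ g, toEndAux S₀ * ρ g = ρ (θ g) * toEndAux S₀ := by
    intro g
    apply LinearMap.ext
    intro v
    show Additive.ofMul (S₀ (α g v.toMul)) = Additive.ofMul (α (θ g) (S₀ v.toMul))
    rw [hS]
  have hsum' : ∑ i ∈ range N, (toEndAux (p := p) S₀) ^ i = 0 := by
    apply LinearMap.ext
    intro v
    rw [LinearMap.sum_apply, LinearMap.zero_apply]
    simp only [toEndAux_pow]
    rw [← ofMul_prod, hsum]
    rfl
  have hcard : ((Nat.card A : ℕ) : ZMod p) ≠ 0 := by
    rwa [Ne, ZMod.natCast_eq_zero_iff]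
  have h := norm_lemma hcard ρ (toEndAux S₀) θ hN0 hθ hS' hsum' hd a
  exact congrArg (fun E : Module.End (ZMod p) (Additive N') => (E (Additive.ofMul v)).toMul) h

/-- The norm lemma, in multiplicative form. -/
theorem norm_lemma_mul {A N' : Type*} {p : ℕ} [hpf : Fact p.Prime] [Group A] [Finite A]
    [Group N'] (hA : ∀ a b : A, a * b = b * a) (hV : ∀ a b : N', a * b = b * a)
    (hexp : ∀ v : N', v ^ p = 1) (hp : ¬ p ∣ Nat.card A)
    (α : A →* MulAut N') (S₀ : N' →* N') (θ : A →* A) {N d : ℕ} (hN0 : 0 < N)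
    (hθ : ∀ a, θ^[N] a = a) (hS : ∀ a v, S₀ (α a v) = α (θ a) (S₀ v))
    (hsum : ∀ v, ((List.range N).map fun i => S₀^[i] v).prod = 1)
    (hd : ∀ i, 0 < i → i < N → ∃ j, (i * j) % N = d % N) (a : A) (v : N') :
    α (θ^[d] a) v = α a v := by
  letI cgA : CommGroup A := { (inferInstance : Group A) with mul_comm := hA }
  letI cgV : CommGroup N' := { (inferInstance : Group N') with mul_comm := hV }
  letI : Module (ZMod p) (Additive N') := AddCommGroup.zmodModule (fun v => by
    show p • v = 0
    have := hexp v.toMul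
    exact congrArg Additive.ofMul this)
  refine norm_mul_aux hp α S₀ θ hN0 hθ hS (fun v => ?_) hd a v
  have aux : ∀ n : ℕ, ∏ i ∈ range n, S₀^[i] v = ((List.range n).map fun i => S₀^[i] v).prod := by
    intro n
    induction n with
    | zero => simp
    | succ n ih =>
      rw [Finset.prod_range_succ, List.range_succ, List.map_append, List.prod_append, ih]
      simp
  rw [aux]
  exact hsum v

end Cfsg.Agent.Lib.Coprime.NormElim
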