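/-
Anisotropic quadratic maps over `ZMod 2`: the bound `dim V ≤ 2 dim W` from Chevalley–Warning and
the equality case.
-/
import Mathlib

set_option autoImplicit false

namespace Cfsg.Agent.Lib.Coprime.QuadCW

open MvPolynomial Module

local notation "F" => ZMod 2

section poly

variable {d : ℕ}

theorem smul_cases (c : F) : c = 0 ∨ c = 1 := by
  revert c
  decide

theorem exists_poly (q : (Fin d → F) → F) (β : (Fin d → F) → (Fin d → F) → F)
    (hq : ∀ a b, q (a + b) = q a + q b + β a b) (h1 : ∀ a a' b, β (a + a') b = β a b + β a' b)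
    (h2 : ∀ a b b', β a (b + b') = β a b + β a b') :
    ∃ P : MvPolynomial (Fin d) F, P.totalDegree ≤ 2 ∧ ∀ a, eval a P = q a := by
  classical
  let e : Fin d → (Fin d → F) := fun i => Pi.single i 1
  let part : Finset (Fin d) → (Fin d → F) → (Fin d → F) := fun s a => ∑ i ∈ s, a i • e i
  have hb0 : ∀ b, β 0 b = 0 := by
    intro b
    have := h1 0 0 b
    rw [add_zero] at this
    simpa using this
  have hb0' : ∀ a, β a 0 = 0 := by
    intro a
    have := h2 a 0 0
    rw [add_zero] at this
    simpa using this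
  have hq0 : q 0 = 0 := by
    have := hq 0 0
    rw [add_zero, hb0, add_zero] at this
    simpa using this
  have hqs : ∀ (c : F) (a : Fin d → F), q (c • a) = c * q a := by
    intro c a
    rcases smul_cases c with rfl | rfl
    · simp [hq0]
    · simp
  have hbs : ∀ (c c' : F) (a b : Fin d → F), β (c • a) (c' • b) = c * c' * β a b := by
    intro c c' a b
    rcases smul_cases c with rfl | rfl <;> rcases smul_cases c' with rfl | rfl <;>
      simp [hb0, hb0']
  have hbsum : ∀ (s : Finset (Fin d)) (a : Fin d → F) (b : Fin d → F),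
      β (part s a) b = ∑ j ∈ s, β (a j • e j) b := by
    intro s a b
    induction s using Finset.induction_on with
    | empty => simp [part, hb0]
    | insert i s hi ih =>
      have : part (insert i s) a = a i • e i + part s a := by
        simp only [part]
        rw [Finset.sum_insert hi]
      rw [this, h1, ih, Finset.sum_insert hi]
  have key : ∀ s : Finset (Fin d), ∃ P : MvPolynomial (Fin d) F, P.totalDegree ≤ 2 ∧
      ∀ a, eval a P = q (part s a) := by
    intro s
    induction s using Finset.induction_on with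
    | empty =>
      refine ⟨0, by simp, fun a => ?_⟩
      simp [part, hq0]
    | insert i s hi ih =>
      obtain ⟨P, hP1, hP2⟩ := ih
      refine ⟨P + C (q (e i)) * X i + ∑ j ∈ s, C (β (e j) (e i)) * (X j * X i), ?_, fun a => ?_⟩
      · refine le_trans (totalDegree_add _ _) (max_le (le_trans (totalDegree_add _ _) (max_le hP1 ?_)) ?_)
        · refine le_trans (totalDegree_mul _ _) ?_
          rw [totalDegree_C, totalDegree_X]
          norm_num
        · refine le_trans (totalDegree_finsetSum _ _) (Finset.sup_le fun j _ => ?_)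
          refine le_trans (totalDegree_mul _ _) ?_
          rw [totalDegree_C, zero_add]
          refine le_trans (totalDegree_mul _ _) ?_
          rw [totalDegree_X, totalDegree_X]
      · have h3 : part (insert i s) a = part s a + a i • e i := by
          simp only [part]
          rw [Finset.sum_insert hi, add_comm]
        rw [h3, hq, hqs, hbsum]
        simp only [map_add, map_mul, eval_C, eval_X, map_sum, hP2]
        rw [show (∑ j ∈ s, β (a j • e j) (a i • e i)) = ∑ j ∈ s, β (e j) (e i) * (a j * a i) from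
          Finset.sum_congr rfl fun j _ => by rw [hbs]; ring]
        ring
  obtain ⟨P, hP1, hP2⟩ := key Finset.univ
  refine ⟨P, hP1, fun a => ?_⟩
  rw [hP2]
  congr 1
  ext i
  simp only [part, e, Finset.sum_apply, Pi.smul_apply, Pi.single_apply, smul_eq_mul, mul_ite, mul_one,
    mul_zero]
  simp

theorem cw {k : ℕ} (f : Fin k → MvPolynomial (Fin d) F) (hdeg : ∀ j, (f j).totalDegree ≤ 2)
    (hlt : 2 * k < d) (h0 : ∀ j, eval 0 (f j) = 0) : ∃ a : Fin d → F, a ≠ 0 ∧ ∀ j, eval a (f j) = 0 := by
  classical
  haveI : Fact (Nat.Prime 2) := ⟨Nat.prime_two⟩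
  have hsum : ∑ i ∈ (Finset.univ : Finset (Fin k)), (f i).totalDegree < Fintype.card (Fin d) := by
    rw [Fintype.card_fin]
    refine lt_of_le_of_lt (Finset.sum_le_card_nsmul _ _ 2 (fun j _ => hdeg j)) ?_
    simp only [Finset.card_univ, Fintype.card_fin, smul_eq_mul]
    linarith
  have hd := char_dvd_card_solutions_of_sum_lt 2 hsum
  let z : { x : Fin d → F // ∀ i ∈ (Finset.univ : Finset (Fin k)), eval x (f i) = 0 } :=
    ⟨0, fun i _ => h0 i⟩
  by_contra hcon
  push Not at hcon
  have hall : ∀ y : { x : Fin d → F // ∀ i ∈ (Finset.univ : Finset (Fin k)), eval x (f i) = 0 }, y = z := by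
    intro y
    apply Subtype.ext
    by_contra hy
    obtain ⟨j, hj⟩ := hcon y.1 hy
    exact hj (y.2 j (Finset.mem_univ j))
  have hd' : 2 ∣ Nat.card { x : Fin d → F // ∀ i ∈ (Finset.univ : Finset (Fin k)), eval x (f i) = 0 } := by
    rw [Nat.card_eq_fintype_card]
    convert hd
  haveI : Subsingleton { x : Fin d → F // ∀ i ∈ (Finset.univ : Finset (Fin k)), eval x (f i) = 0 } :=
    ⟨fun a b => by rw [hall a, hall b]⟩
  rw [Nat.card_of_subsingleton z] at hd'
  omega

end poly

theorem exists_dual {X : Type*} [AddCommGroup X] [Module F X] (x : X) (hx : x ≠ 0) :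
    ∃ ψ : Dual F X, ψ x = 1 := by
  by_contra hcon
  push Not at hcon
  apply hx
  rw [← Module.forall_dual_apply_eq_zero_iff F]
  intro ψ
  rcases smul_cases (ψ x) with h | h
  · exact h
  · exact absurd h (hcon ψ)

theorem add_self_zero {X : Type*} [AddCommGroup X] [Module F X] (x : X) : x + x = 0 := by
  have : ((1 : F) + 1) • x = 0 := by
    rw [show (1 : F) + 1 = 0 from by decide, zero_smul]
  rwa [add_smul, one_smul] at this

section bound

variable {V W : Type*} [AddCommGroup V] [Module F V] [FiniteDimensional F V]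
  [AddCommGroup W] [Module F W] [FiniteDimensional F W]

theorem aniso_bound (Q : V → W) (B : V → V → W) (hQ : ∀ a b, Q (a + b) = Q a + Q b + B a b)
    (h1 : ∀ a a' b, B (a + a') b = B a b + B a' b) (h2 : ∀ a b b', B a (b + b') = B a b + B a b')
    (han : ∀ a, Q a = 0 → a = 0) : finrank F V ≤ 2 * finrank F W := by
  classical
  by_contra hlt
  rw [not_le] at hlt
  let bV := finBasis F V
  let bW := finBasis F W
  let φ : (Fin (finrank F V) → F) ≃ₗ[F] V := bV.equivFun.symm
  have hb0 : ∀ b, B 0 b = 0 := by
    intro b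
    have := h1 0 0 b
    rw [add_zero] at this
    simpa using this
  have hQ0 : Q 0 = 0 := by
    have := hQ 0 0
    rw [add_zero, hb0, add_zero] at this
    simpa using this
  have hpoly : ∀ j, ∃ P : MvPolynomial (Fin (finrank F V)) F, P.totalDegree ≤ 2 ∧
      ∀ a, eval a P = bW.repr (Q (φ a)) j := by
    intro j
    refine exists_poly (fun a => bW.repr (Q (φ a)) j) (fun a a' => bW.repr (B (φ a) (φ a')) j)
      ?_ ?_ ?_
    · intro a b
      simp only [map_add, hQ, Finsupp.add_apply]
    · intro a a' b
      simp only [map_add, h1, Finsupp.add_apply]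
    · intro a b b'
      simp only [map_add, h2, Finsupp.add_apply]
  choose f hf1 hf2 using hpoly
  obtain ⟨a, ha, ha0⟩ := cw f hf1 hlt (fun j => by
    rw [hf2, map_zero, hQ0, map_zero]
    rfl)
  apply ha
  have h3 : Q (φ a) = 0 := by
    apply bW.repr.injective
    ext j
    rw [← hf2, ha0]
    simp
  have h4 := han _ h3
  exact φ.injective (by rw [h4, map_zero])

theorem aniso_sub (Q : V → W) (B : V → V → W) (hQ : ∀ a b, Q (a + b) = Q a + Q b + B a b)
    (h1 : ∀ a a' b, B (a + a') b = B a b + B a' b) (h2 : ∀ a b b', B a (b + b') = B a b + B a b')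
    (V' : Submodule F V) (W' : Submodule F W) (hQV : ∀ a ∈ V', Q a ∈ W')
    (han : ∀ a ∈ V', Q a = 0 → a = 0) : finrank F V' ≤ 2 * finrank F W' := by
  have hQ0 : Q 0 = 0 := by
    have hb0 : B 0 0 = 0 := by
      have := h1 0 0 0
      rw [add_zero] at this
      simpa using this
    have := hQ 0 0
    rw [add_zero, hb0, add_zero] at this
    simpa using this
  have hB : ∀ a ∈ V', ∀ b ∈ V', B a b ∈ W' := by
    intro a ha b hb
    have e : B a b = Q (a + b) - Q a - Q b := by
      rw [hQ]
      abel
    rw [e]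
    exact W'.sub_mem (W'.sub_mem (hQV _ (V'.add_mem ha hb)) (hQV _ ha)) (hQV _ hb)
  refine aniso_bound (fun a : V' => (⟨Q a, hQV a a.2⟩ : W'))
    (fun a b : V' => (⟨B a b, hB a a.2 b b.2⟩ : W')) ?_ ?_ ?_ ?_
  · intro a b
    apply Subtype.ext
    exact hQ _ _
  · intro a a' b
    apply Subtype.ext
    exact h1 _ _ _
  · intro a b b'
    apply Subtype.ext
    exact h2 _ _ _
  · intro a ha
    apply Subtype.ext
    exact han a a.2 (congrArg Subtype.val ha)

theorem aniso_rel (Q : V → W) (B : V → V → W) (hQ : ∀ a b, Q (a + b) = Q a + Q b + B a b)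
    (h1 : ∀ a a' b, B (a + a') b = B a b + B a' b) (h2 : ∀ a b b', B a (b + b') = B a b + B a b')
    (U : Submodule F V) (han : ∀ a, Q a = 0 → a ∈ U) :
    finrank F V ≤ finrank F U + 2 * finrank F W := by
  obtain ⟨U', hU'⟩ := U.exists_isCompl
  have h3 := aniso_sub Q B hQ h1 h2 U' ⊤ (fun _ _ => trivial) (fun a ha hQa => by
    have h4 := han a hQa
    have h5 : a ∈ U ⊓ U' := ⟨h4, ha⟩
    rw [hU'.inf_eq_bot] at h5
    exact h5)
  rw [finrank_top] at h3
  have h4 := Submodule.finrank_add_eq_of_isCompl hU'
  omega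

section eqcase

variable (Q : V → W) (B : V → V → W) (hQ : ∀ a b, Q (a + b) = Q a + Q b + B a b)
    (h1 : ∀ a a' b, B (a + a') b = B a b + B a' b) (h2 : ∀ a b b', B a (b + b') = B a b + B a b')
    (han : ∀ a, Q a = 0 → a = 0) (heq : finrank F V = 2 * finrank F W)

include hQ h1 h2 han heq

theorem eq_span (W₀ : Submodule F W) (hW₀ : ∀ a, Q a ∈ W₀) : W₀ = ⊤ := by
  have h3 := aniso_sub Q B hQ h1 h2 ⊤ W₀ (fun a _ => hW₀ a) (fun a _ => han a)
  rw [finrank_top, heq] at h3
  apply Submodule.eq_top_of_finrank_eq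
  have h4 := Submodule.finrank_le W₀
  omega

theorem eq_rad (a₀ : V) (ha₀ : ∀ b, B a₀ b = 0) : a₀ = 0 := by
  by_contra hne
  have hQa₀ : Q a₀ ≠ 0 := fun e => hne (han _ e)
  have hsymm : ∀ a b, B a b = B b a := by
    intro a b
    have e1 := hQ a b
    have e2 := hQ b a
    rw [add_comm a b, e2, add_comm (Q b) (Q a)] at e1
    exact (add_left_cancel e1).symm
  obtain ⟨ψ, hψ⟩ := exists_dual (Q a₀) hQa₀
  obtain ⟨φ, hφ⟩ := exists_dual a₀ hne
  have hψ0 : ψ ≠ 0 := by
    rintro rfl
    simp at hψ
  have hφ0 : φ ≠ 0 := by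
    rintro rfl
    simp at hφ
  have r1 := Module.Dual.finrank_ker_add_one_of_ne_zero hψ0
  have r2 := Module.Dual.finrank_ker_add_one_of_ne_zero hφ0
  -- the modified map
  have hint : ∀ x : W, x - ψ x • Q a₀ ∈ LinearMap.ker ψ := by
    intro x
    rw [LinearMap.mem_ker, map_sub, map_smul, hψ, smul_eq_mul, mul_one, sub_self]
  have hbd := aniso_bound (V := LinearMap.ker φ) (W := LinearMap.ker ψ)
    (fun a => ⟨Q a - ψ (Q a) • Q a₀, hint _⟩) (fun a b => ⟨B a b - ψ (B a b) • Q a₀, hint _⟩)
    ?_ ?_ ?_ ?_
  · omega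
  · intro a b
    apply Subtype.ext
    simp only [Submodule.coe_add, hQ, map_add, add_smul, AddMemClass.coe_add, AddSubgroupClass.coe_sub]
    abel
  · intro a a' b
    apply Subtype.ext
    simp only [Submodule.coe_add, h1, map_add, add_smul, AddMemClass.coe_add, AddSubgroupClass.coe_sub]
    abel
  · intro a b b'
    apply Subtype.ext
    simp only [Submodule.coe_add, h2, map_add, add_smul, AddMemClass.coe_add, AddSubgroupClass.coe_sub]
    abel
  · intro a ha
    have e := congrArg Subtype.val ha
    simp only [AddSubgroupClass.coe_sub, ZeroMemClass.coe_zero] at e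
    have e2 : Q a = ψ (Q a) • Q a₀ := sub_eq_zero.1 e
    apply Subtype.ext
    show (a : V) = 0
    rcases smul_cases (ψ (Q a)) with h | h
    · rw [h, zero_smul] at e2
      exact han _ e2
    · exfalso
      rw [h, one_smul] at e2
      have e3 : Q ((a : V) + a₀) = 0 := by
        rw [hQ, e2, hsymm, ha₀, add_zero]
        exact add_self_zero _
      have e4 := han _ e3
      have e5 : (a : V) = a₀ := by
        calc (a : V) = (a : V) + (a₀ + a₀) := by rw [add_self_zero, add_zero]
          _ = ((a : V) + a₀) + a₀ := by rw [add_assoc]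
          _ = a₀ := by rw [e4, zero_add]
      have e6 : φ (a : V) = 0 := a.2
      rw [e5, hφ] at e6
      exact one_ne_zero e6

theorem eq_comm_span (W₁ : Submodule F W) (hW₁ : ∀ a b, B a b ∈ W₁) : W₁ = ⊤ := by
  by_contra hne
  obtain ⟨ψ, hψ0, hψ⟩ := Submodule.exists_le_ker_of_lt_top W₁ (lt_top_iff_ne_top.2 hne)
  have hadd : ∀ a b, ψ (Q (a + b)) = ψ (Q a) + ψ (Q b) := by
    intro a b
    have : ψ (B a b) = 0 := hψ (hW₁ a b)
    rw [hQ, map_add, map_add, this, add_zero]
  let L : Dual F V := (AddMonoidHom.mk' (fun a => ψ (Q a)) hadd).toZModLinearMap 2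
  have hLa : ∀ a, L a = ψ (Q a) := fun a => rfl
  have hL0 : L ≠ 0 := by
    intro h0
    apply hψ0
    have h3 := eq_span Q B hQ h1 h2 han heq (LinearMap.ker ψ) (fun a => by
      rw [LinearMap.mem_ker, ← hLa, h0]
      rfl)
    exact LinearMap.ker_eq_top.1 h3
  have r1 := Module.Dual.finrank_ker_add_one_of_ne_zero hψ0
  have r2 := Module.Dual.finrank_ker_add_one_of_ne_zero hL0
  have h3 := aniso_sub Q B hQ h1 h2 (LinearMap.ker L) (LinearMap.ker ψ)
    (fun a ha => ha) (fun a _ => han a)
  omega

end eqcase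

end bound

section grp

variable {A Z : Type*} [Group A] [Group Z] [Finite A] [Finite Z]

/-- The multiplicative form of `aniso_rel`. -/
theorem grp_bound (hAc : ∀ a b : A, a * b = b * a) (hZc : ∀ a b : Z, a * b = b * a)
    (hA2 : ∀ a : A, a ^ 2 = 1) (hZ2 : ∀ z : Z, z ^ 2 = 1) (Q : A → Z) (B : A → A → Z)
    (hQ : ∀ a b, Q (a * b) = Q a * Q b * B a b) (h1 : ∀ a a' b, B (a * a') b = B a b * B a' b)
    (h2 : ∀ a b b', B a (b * b') = B a b * B a b') (K : Subgroup A) (hK : ∀ a, Q a = 1 → a ∈ K) :
    Nat.card A ≤ Nat.card K * Nat.card Z ^ 2 := by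
  letI cA : CommGroup A := { ‹Group A› with mul_comm := hAc }
  letI cZ : CommGroup Z := { ‹Group Z› with mul_comm := hZc }
  letI mV : Module F (Additive A) := AddCommGroup.zmodModule (n := 2) (fun x => by
    apply Additive.toMul.injective
    simpa using hA2 x.toMul)
  letI mW : Module F (Additive Z) := AddCommGroup.zmodModule (n := 2) (fun x => by
    apply Additive.toMul.injective
    simpa using hZ2 x.toMul)
  haveI : Module.Finite F (Additive A) := Module.Finite.of_finite
  haveI : Module.Finite F (Additive Z) := Module.Finite.of_finite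
  let U : Submodule F (Additive A) := AddSubgroup.toZModSubmodule 2 (Subgroup.toAddSubgroup K)
  have hb := aniso_rel (V := Additive A) (W := Additive Z)
    (fun a => Additive.ofMul (Q a.toMul))
    (fun a b => Additive.ofMul (B a.toMul b.toMul))
    (fun a b => by
      apply Additive.toMul.injective
      exact hQ a.toMul b.toMul)
    (fun a a' b => by
      apply Additive.toMul.injective
      exact h1 a.toMul a'.toMul b.toMul)
    (fun a b b' => by
      apply Additive.toMul.injective
      exact h2 a.toMul b.toMul b'.toMul)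
    U
    (fun a ha => hK a.toMul (congrArg Additive.toMul ha))
  have hc1 : Nat.card (Additive A) = 2 ^ finrank F (Additive A) := by
    rw [Module.natCard_eq_pow_finrank (K := F), Nat.card_zmod]
  have hc2 : Nat.card (Additive Z) = 2 ^ finrank F (Additive Z) := by
    rw [Module.natCard_eq_pow_finrank (K := F), Nat.card_zmod]
  have hc3 : Nat.card U = 2 ^ finrank F U := by
    rw [Module.natCard_eq_pow_finrank (K := F), Nat.card_zmod]
  have hcU : Nat.card U = Nat.card K := by
    refine Nat.card_congr ⟨fun u => ⟨u.1.toMul, u.2⟩, fun k => ⟨Additive.ofMul k.1, k.2⟩, ?_, ?_⟩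
    · intro u
      rfl
    · intro k
      rfl
  have hcA : Nat.card (Additive A) = Nat.card A := rfl
  have hcZ : Nat.card (Additive Z) = Nat.card Z := rfl
  rw [← hcA, ← hcU, ← hcZ, hc1, hc2, hc3, ← pow_mul, ← pow_add]
  apply Nat.pow_le_pow_right (by norm_num)
  rw [mul_comm (finrank F (Additive Z)) 2]
  exact hb

/-- The multiplicative form of the equality case. -/
theorem grp_eq (hAc : ∀ a b : A, a * b = b * a) (hZc : ∀ a b : Z, a * b = b * a)
    (hA2 : ∀ a : A, a ^ 2 = 1) (hZ2 : ∀ z : Z, z ^ 2 = 1) (Q : A → Z) (B : A → A → Z)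
    (hQ : ∀ a b, Q (a * b) = Q a * Q b * B a b) (h1 : ∀ a a' b, B (a * a') b = B a b * B a' b)
    (h2 : ∀ a b b', B a (b * b') = B a b * B a b') (han : ∀ a, Q a = 1 → a = 1)
    (hcard : Nat.card A = Nat.card Z ^ 2) :
    (∀ S : Subgroup Z, (∀ a, Q a ∈ S) → S = ⊤) ∧ (∀ a₀, (∀ b, B a₀ b = 1) → a₀ = 1) ∧
      (∀ S : Subgroup Z, (∀ a b, B a b ∈ S) → S = ⊤) := by
  letI cA : CommGroup A := { ‹Group A› with mul_comm := hAc }
  letI cZ : CommGroup Z := { ‹Group Z› with mul_comm := hZc }
  letI mV : Module F (Additive A) := AddCommGroup.zmodModule (n := 2) (fun x => by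
    apply Additive.toMul.injective
    simpa using hA2 x.toMul)
  letI mW : Module F (Additive Z) := AddCommGroup.zmodModule (n := 2) (fun x => by
    apply Additive.toMul.injective
    simpa using hZ2 x.toMul)
  haveI : Module.Finite F (Additive A) := Module.Finite.of_finite
  haveI : Module.Finite F (Additive Z) := Module.Finite.of_finite
  have hc1 : Nat.card (Additive A) = 2 ^ finrank F (Additive A) := by
    rw [Module.natCard_eq_pow_finrank (K := F), Nat.card_zmod]
  have hc2 : Nat.card (Additive Z) = 2 ^ finrank F (Additive Z) := by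
    rw [Module.natCard_eq_pow_finrank (K := F), Nat.card_zmod]
  have hcA : Nat.card (Additive A) = Nat.card A := rfl
  have hcZ : Nat.card (Additive Z) = Nat.card Z := rfl
  have heq : finrank F (Additive A) = 2 * finrank F (Additive Z) := by
    rw [← hcA, ← hcZ, hc1, hc2, ← pow_mul] at hcard
    rw [mul_comm]
    exact Nat.pow_right_injective (le_refl 2) hcard
  have hQ' : ∀ a b : Additive A, Additive.ofMul (Q (a + b).toMul) =
      Additive.ofMul (Q a.toMul) + Additive.ofMul (Q b.toMul) + Additive.ofMul (B a.toMul b.toMul) :=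
    fun a b => by
      apply Additive.toMul.injective
      exact hQ a.toMul b.toMul
  have h1' : ∀ a a' b : Additive A, Additive.ofMul (B (a + a').toMul b.toMul) =
      Additive.ofMul (B a.toMul b.toMul) + Additive.ofMul (B a'.toMul b.toMul) :=
    fun a a' b => by
      apply Additive.toMul.injective
      exact h1 a.toMul a'.toMul b.toMul
  have h2' : ∀ a b b' : Additive A, Additive.ofMul (B a.toMul (b + b').toMul) =
      Additive.ofMul (B a.toMul b.toMul) + Additive.ofMul (B a.toMul b'.toMul) :=
    fun a b b' => by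
      apply Additive.toMul.injective
      exact h2 a.toMul b.toMul b'.toMul
  have han' : ∀ a : Additive A, Additive.ofMul (Q a.toMul) = 0 → a = 0 :=
    fun a ha => han a.toMul (congrArg Additive.toMul ha)
  refine ⟨?_, ?_, ?_⟩
  · intro S hS
    have h3 := eq_span (V := Additive A) (W := Additive Z)
      (fun a => Additive.ofMul (Q a.toMul)) (fun a b => Additive.ofMul (B a.toMul b.toMul))
      hQ' h1' h2' han' heq (AddSubgroup.toZModSubmodule 2 (Subgroup.toAddSubgroup S))
      (fun a => hS a.toMul)
    rw [eq_top_iff]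
    intro z _
    have : Additive.ofMul z ∈ (AddSubgroup.toZModSubmodule 2 (Subgroup.toAddSubgroup S)) := by
      rw [h3]
      trivial
    exact this
  · intro a₀ ha₀
    exact eq_rad (V := Additive A) (W := Additive Z)
      (fun a => Additive.ofMul (Q a.toMul)) (fun a b => Additive.ofMul (B a.toMul b.toMul))
      hQ' h1' h2' han' heq (Additive.ofMul a₀)
      (fun b => congrArg Additive.ofMul (ha₀ b.toMul))
  · intro S hS
    have h3 := eq_comm_span (V := Additive A) (W := Additive Z)
      (fun a => Additive.ofMul (Q a.toMul)) (fun a b => Additive.ofMul (B a.toMul b.toMul))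
      hQ' h1' h2' han' heq (AddSubgroup.toZModSubmodule 2 (Subgroup.toAddSubgroup S))
      (fun a b => hS a.toMul b.toMul)
    rw [eq_top_iff]
    intro z _
    have : Additive.ofMul z ∈ (AddSubgroup.toZModSubmodule 2 (Subgroup.toAddSubgroup S)) := by
      rw [h3]
      trivial
    exact this

end grp

end Cfsg.Agent.Lib.Coprime.QuadCW
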