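import Mathlib
import Cfsg.Agent.Lib.Coprime.Soft

/-!
# Two-groups with three involutions and commuting automorphisms of order three

If `V = Ω₁(P) = E₄` is central in the `2`-group `P`, and `d` is an automorphism of `3`-power order which is
fixed-point-free on `V`, then no automorphism `u` of order three commuting with `d`, trivial on `V`,
acts nontrivially on `P`.  The proof uses Chevalley--Warning.
-/

set_option autoImplicit false
set_option linter.unusedSectionVars false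
set_option linter.style.haveILetI false

namespace Cfsg.Agent.Lib.Coprime.Rank3

open Subgroup
open scoped commutatorElement

universe u

/-- Chevalley--Warning for two quadratic polynomials in five variables over `F₂`. -/
theorem cw_two (a b : Fin 5 → ZMod 2) (A B : Fin 5 → Fin 5 → ZMod 2) :
    ∃ x : Fin 5 → ZMod 2, x ≠ 0 ∧ (∑ i, x i * a i + ∑ i, ∑ j, x i * x j * A i j = 0) ∧
      (∑ i, x i * b i + ∑ i, ∑ j, x i * x j * B i j = 0) := by
  classical
  haveI : Fact (Nat.Prime 2) := ⟨Nat.prime_two⟩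
  let mk : (Fin 5 → ZMod 2) → (Fin 5 → Fin 5 → ZMod 2) → MvPolynomial (Fin 5) (ZMod 2) := fun a A =>
    ∑ i, MvPolynomial.X i * MvPolynomial.C (a i) +
      ∑ i, ∑ j, MvPolynomial.X i * MvPolynomial.X j * MvPolynomial.C (A i j)
  have hdeg : ∀ a A, (mk a A).totalDegree ≤ 2 := by
    intro a A
    refine (MvPolynomial.totalDegree_add _ _).trans (max_le ?_ ?_)
    · refine (MvPolynomial.totalDegree_finset_sum _ _).trans (Finset.sup_le fun i _ => ?_)
      refine (MvPolynomial.totalDegree_mul _ _).trans ?_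
      simp only [MvPolynomial.totalDegree_X, MvPolynomial.totalDegree_C]
      omega
    · refine (MvPolynomial.totalDegree_finset_sum _ _).trans (Finset.sup_le fun i _ => ?_)
      refine (MvPolynomial.totalDegree_finset_sum _ _).trans (Finset.sup_le fun j _ => ?_)
      refine (MvPolynomial.totalDegree_mul _ _).trans ?_
      have := MvPolynomial.totalDegree_mul (MvPolynomial.X i : MvPolynomial (Fin 5) (ZMod 2)) (MvPolynomial.X j)
      simp only [MvPolynomial.totalDegree_X, MvPolynomial.totalDegree_C] at this ⊢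
      omega
  have heval : ∀ a A (x : Fin 5 → ZMod 2), MvPolynomial.eval x (mk a A) =
      ∑ i, x i * a i + ∑ i, ∑ j, x i * x j * A i j := by
    intro a A x
    simp [mk]
  have h := char_dvd_card_solutions_of_add_lt (K := ZMod 2) (σ := Fin 5) 2 (f₁ := mk a A) (f₂ := mk b B)
    (by
      have h1 := hdeg a A
      have h2 := hdeg b B
      simp only [Fintype.card_fin]
      omega)
  have h00 : MvPolynomial.eval 0 (mk a A) = 0 ∧ MvPolynomial.eval 0 (mk b B) = 0 := by
    rw [heval, heval]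
    simp
  have hpos : 0 < Fintype.card {x : Fin 5 → ZMod 2 // MvPolynomial.eval x (mk a A) = 0 ∧ MvPolynomial.eval x (mk b B) = 0} :=
    Fintype.card_pos_iff.mpr ⟨⟨0, h00⟩⟩
  have h2 : 1 < Fintype.card {x : Fin 5 → ZMod 2 // MvPolynomial.eval x (mk a A) = 0 ∧ MvPolynomial.eval x (mk b B) = 0} := by
    obtain ⟨k, hk⟩ := h
    omega
  obtain ⟨⟨x, hx1, hx2⟩, hne⟩ := Fintype.exists_ne_of_one_lt_card h2
    (⟨0, h00⟩ : {x : Fin 5 → ZMod 2 // MvPolynomial.eval x (mk a A) = 0 ∧ MvPolynomial.eval x (mk b B) = 0})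
  refine ⟨x, fun h3 => hne (Subtype.ext h3), ?_, ?_⟩
  · rwa [heval] at hx1
  · rwa [heval] at hx2

theorem zmod2_cases (c : ZMod 2) : c = 0 ∨ c = 1 := by
  revert c
  decide

/-- The expansion of a quadratic map on a product of five elements. -/
theorem quad_expand {Y : Type*} [Group Y] (f : Y → ZMod 2) (F : Y → Y → ZMod 2)
    (hf : ∀ x y, f (x * y) = f x + f y + F x y) (hF : ∀ x y z, F (x * y) z = F x z + F y z)
    (x : Fin 5 → ZMod 2) (e : Fin 5 → Y) (g : Fin 5 → Y) (hg : ∀ i, g i = if x i = 1 then e i else 1) :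
    f (g 0 * g 1 * g 2 * g 3 * g 4) = ∑ i, x i * f (e i) +
      ∑ i, ∑ j, x i * x j * (if i < j then F (e i) (e j) else 0) := by
  have hF1 : ∀ z, F 1 z = 0 := by
    intro z
    have h1 := hF 1 1 z
    rw [mul_one] at h1
    exact left_eq_add.mp h1
  have hf1 : f 1 = 0 := by
    have h1 := hf 1 1
    rw [mul_one, hF1, add_zero] at h1
    exact left_eq_add.mp h1
  have hFr : ∀ y, F y 1 = 0 := by
    intro y
    have h1 := hf y 1
    rw [mul_one, hf1, add_zero] at h1
    exact left_eq_add.mp h1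
  have hfg : ∀ i, f (g i) = x i * f (e i) := by
    intro i
    rw [hg i]
    rcases zmod2_cases (x i) with h | h <;> simp [h, hf1]
  have hFg : ∀ i j, F (g i) (g j) = x i * x j * F (e i) (e j) := by
    intro i j
    rw [hg i, hg j]
    rcases zmod2_cases (x i) with h | h <;> rcases zmod2_cases (x j) with h' | h' <;>
      simp [h, h', hF1, hFr]
  simp only [hf, hF, hfg, hFg]
  simp only [Fin.sum_univ_five]
  simp
  ring

/-- Quadratic maps on a vector-space section of dimension at least five. -/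
theorem cw_exists {Y : Type*} [Group Y] [Finite Y] (V : Subgroup Y) [V.Normal] (h2 : ∀ a : Y, a ^ 2 ∈ V)
    (hc : ∀ a b : Y, ⁅a, b⁆ ∈ V) (hcard : 32 ≤ V.index) (f₁ f₂ : Y → ZMod 2) (F₁ F₂ : Y → Y → ZMod 2)
    (hf₁ : ∀ x y, f₁ (x * y) = f₁ x + f₁ y + F₁ x y) (hf₂ : ∀ x y, f₂ (x * y) = f₂ x + f₂ y + F₂ x y)
    (hF₁ : ∀ x y z, F₁ (x * y) z = F₁ x z + F₁ y z) (hF₂ : ∀ x y z, F₂ (x * y) z = F₂ x z + F₂ y z) :
    ∃ y, y ∉ V ∧ f₁ y = 0 ∧ f₂ y = 0 := by
  classical
  haveI := Fintype.ofFinite Y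
  haveI : Fact (Nat.Prime 2) := ⟨Nat.prime_two⟩
  letI : CommGroup (Y ⧸ V) :=
    { (inferInstance : Group (Y ⧸ V)) with
      mul_comm := by
        intro a b
        obtain ⟨a, rfl⟩ := QuotientGroup.mk'_surjective V a
        obtain ⟨b, rfl⟩ := QuotientGroup.mk'_surjective V b
        exact (Cfsg.Agent.Lib.Coprime.Soft.mk_comm_iff V).mpr (hc a b) }
  have h2' : ∀ x : Additive (Y ⧸ V), (2 : ℕ) • x = 0 := by
    intro x
    obtain ⟨a, rfl⟩ := QuotientGroup.mk'_surjective V (Additive.toMul x)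
    show Additive.ofMul (QuotientGroup.mk' V a ^ 2) = 0
    rw [← map_pow]
    have : QuotientGroup.mk' V (a ^ 2) = 1 := (QuotientGroup.eq_one_iff _).mpr (h2 a)
    rw [this]
    rfl
  letI : Module (ZMod 2) (Additive (Y ⧸ V)) := AddCommGroup.zmodModule h2'
  haveI : Finite (Additive (Y ⧸ V)) := inferInstanceAs (Finite (Y ⧸ V))
  haveI := Fintype.ofFinite (Additive (Y ⧸ V))
  have hfin : FiniteDimensional (ZMod 2) (Additive (Y ⧸ V)) := Module.Finite.of_finite
  have hc1 : Fintype.card (Additive (Y ⧸ V)) = 2 ^ Module.finrank (ZMod 2) (Additive (Y ⧸ V)) := by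
    have := Module.card_eq_pow_finrank (K := ZMod 2) (V := Additive (Y ⧸ V))
    rwa [ZMod.card] at this
  have hc2 : Fintype.card (Additive (Y ⧸ V)) = V.index := by
    rw [← Nat.card_eq_fintype_card]
    rfl
  have hr : 5 ≤ Module.finrank (ZMod 2) (Additive (Y ⧸ V)) := by
    by_contra hlt
    have h3 : Module.finrank (ZMod 2) (Additive (Y ⧸ V)) ≤ 4 := by omega
    have h4 := Nat.pow_le_pow_right (by norm_num : 0 < 2) h3
    rw [← hc1, hc2] at h4
    omega
  obtain ⟨f, hf⟩ := exists_linearIndependent_of_le_finrank hr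
  choose e he using fun i => QuotientGroup.mk'_surjective V (Additive.toMul (f i))
  obtain ⟨x, hx0, hx1, hx2⟩ := cw_two (fun i => f₁ (e i)) (fun i => f₂ (e i))
    (fun i j => if i < j then F₁ (e i) (e j) else 0) (fun i j => if i < j then F₂ (e i) (e j) else 0)
  let g : Fin 5 → Y := fun i => if x i = 1 then e i else 1
  refine ⟨g 0 * g 1 * g 2 * g 3 * g 4, ?_, ?_, ?_⟩
  · intro hy
    apply hx0
    have h3 : Additive.ofMul (QuotientGroup.mk' V (g 0 * g 1 * g 2 * g 3 * g 4)) = 0 := by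
      have h30 : QuotientGroup.mk' V (g 0 * g 1 * g 2 * g 3 * g 4) = 1 := (QuotientGroup.eq_one_iff _).mpr hy
      rw [h30]
      rfl
    have hgi : ∀ i, Additive.ofMul (QuotientGroup.mk' V (g i)) = x i • f i := by
      intro i
      rcases zmod2_cases (x i) with h | h
      · simp only [g, h, zero_smul, zero_ne_one, if_false, map_one]
        rfl
      · simp only [g, h, one_smul, if_true]
        rw [he i]
        rfl
    have h4 : ∑ i, x i • f i = 0 := by
      rw [Fin.sum_univ_five, ← hgi, ← hgi, ← hgi, ← hgi, ← hgi]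
      rw [← h3]
      simp only [map_mul, ofMul_mul]
    have h5 := Fintype.linearIndependent_iff.mp hf x h4
    funext i
    exact h5 i
  · rw [quad_expand f₁ F₁ hf₁ hF₁ x e g (fun _ => rfl)]
    exact hx1
  · rw [quad_expand f₂ F₂ hf₂ hF₂ x e g (fun _ => rfl)]
    exact hx2

section T1

variable {P : Type*} [Group P] [Finite P]

theorem eq_one_of_pow_three (hP : IsPGroup 2 P) {r : P} (h : r ^ 3 = 1) : r = 1 := by
  obtain ⟨k, hk⟩ := hP r
  have h1 : Nat.gcd 3 (2 ^ k) = 1 := (Nat.Coprime.pow_right k (by norm_num : Nat.Coprime 3 2))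
  have h2 : r ^ Nat.gcd 3 (2 ^ k) = 1 := pow_gcd_eq_one.mpr ⟨h, hk⟩
  rwa [h1, pow_one] at h2

/-- The additive functions used for the quadratic maps. -/
theorem chi_of (V : Subgroup P) (hc : Nat.card V = 4) {a : P} (ha : a ∈ V) (ha1 : a ≠ 1) (ha2 : a ^ 2 = 1) :
    ∃ χ : P → ZMod 2, (∀ w ∈ V, ∀ w' ∈ V, χ (w * w') = χ w + χ w') ∧ ∀ w, χ w = 0 → w = 1 ∨ w = a := by
  classical
  have hle : zpowers a ≤ V := by rwa [Subgroup.zpowers_le]
  have hoa : orderOf a = 2 := orderOf_eq_prime ha2 ha1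
  have hcard : Nat.card ((zpowers a).subgroupOf V) = 2 := by
    rw [Nat.card_congr (Subgroup.subgroupOfEquivOfLe hle).toEquiv, Nat.card_zpowers, hoa]
  have hi : ((zpowers a).subgroupOf V).index = 2 := by
    have h1 := ((zpowers a).subgroupOf V).card_mul_index
    rw [hcard, hc] at h1
    omega
  refine ⟨fun w => if w ∈ zpowers a then 0 else 1, ?_, ?_⟩
  · intro w hw w' hw'
    have h1 := Subgroup.mul_mem_iff_of_index_two hi (a := ⟨w, hw⟩) (b := ⟨w', hw'⟩)
    have h2 : w * w' ∈ zpowers a ↔ (w ∈ zpowers a ↔ w' ∈ zpowers a) := h1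
    by_cases h3 : w ∈ zpowers a <;> by_cases h4 : w' ∈ zpowers a <;> simp [h3, h4, h2] <;> decide
  · intro w hw
    have hw2 : w ∈ zpowers a := by
      by_contra h3
      simp [h3] at hw
    obtain ⟨k, rfl⟩ := hw2
    rcases Int.even_or_odd' k with ⟨m, rfl | rfl⟩
    · left
      show a ^ (2 * m) = 1
      rw [zpow_mul]
      have : a ^ (2 : ℤ) = 1 := by exact_mod_cast ha2
      rw [this, one_zpow]
    · right
      show a ^ (2 * m + 1) = a
      rw [zpow_add, zpow_mul]
      have : a ^ (2 : ℤ) = 1 := by exact_mod_cast ha2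
      rw [this, one_zpow, one_mul, zpow_one]

/-- The main theorem on commuting automorphisms. -/
theorem t1 (hP : IsPGroup 2 P) (V : Subgroup P) (hVc : Nat.card V = 4)
    (hV : ∀ x : P, x ∈ V ↔ x ^ 2 = 1) (hVz : ∀ v ∈ V, ∀ g : P, v * g = g * v)
    (u d : MulAut P) (hud : u * d = d * u) (hu3 : u ^ 3 = 1) (hd3 : ∃ k, d ^ (3 ^ k) = 1)
    (hdf : ∀ v ∈ V, d v = v → v = 1) (huV : ∀ v ∈ V, u v = v) : u = 1 := by
  classical
  by_contra hu1
  have huuu : ∀ x, u (u (u x)) = x := by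
    intro x
    have h1 : (u ^ 3) x = x := by rw [hu3]; rfl
    rwa [pow_succ, pow_two] at h1
  have hudx : ∀ x, u (d x) = d (u x) := fun x => DFunLike.congr_fun hud x
  let 𝓨 : Set (Subgroup P) := {Y | (∀ y ∈ Y, u y ∈ Y) ∧ (∀ y ∈ Y, d y ∈ Y) ∧ ∃ y ∈ Y, u y ≠ y}
  have htop : ⊤ ∈ 𝓨 := by
    refine ⟨fun _ _ => Subgroup.mem_top _, fun _ _ => Subgroup.mem_top _, ?_⟩
    by_contra hno
    push Not at hno
    apply hu1
    ext x
    exact hno x (Subgroup.mem_top x)
  obtain ⟨Y, hYmin⟩ := (Set.toFinite 𝓨).exists_minimal ⟨⊤, htop⟩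
  obtain ⟨hYu, hYd, y₀, hy₀, hy₀'⟩ := hYmin.1
  have hmin : ∀ Z : Subgroup P, Z ≤ Y → (∀ y ∈ Z, u y ∈ Z) → (∀ y ∈ Z, d y ∈ Z) → (∃ z ∈ Z, u z ≠ z) → Z = Y := by
    intro Z hZ h1 h2 h3
    exact le_antisymm hZ (hYmin.2 ⟨h1, h2, h3⟩ hZ)
  -- `Y = [Y, u]`
  have hRY : closure {c | ∃ y ∈ Y, c = y⁻¹ * u y} = Y := by
    apply hmin
    · rw [Subgroup.closure_le]
      rintro _ ⟨y, hy, rfl⟩
      exact Y.mul_mem (Y.inv_mem hy) (hYu y hy)
    · intro r hr
      have h1 : closure {c | ∃ y ∈ Y, c = y⁻¹ * u y} ≤ (closure {c | ∃ y ∈ Y, c = y⁻¹ * u y}).comap u.toMonoidHom := by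
        rw [Subgroup.closure_le]
        rintro _ ⟨y, hy, rfl⟩
        apply Subgroup.subset_closure
        refine ⟨u y, hYu y hy, ?_⟩
        show u (y⁻¹ * u y) = _
        rw [map_mul, map_inv]
      exact h1 hr
    · intro r hr
      have h1 : closure {c | ∃ y ∈ Y, c = y⁻¹ * u y} ≤ (closure {c | ∃ y ∈ Y, c = y⁻¹ * u y}).comap d.toMonoidHom := by
        rw [Subgroup.closure_le]
        rintro _ ⟨y, hy, rfl⟩
        apply Subgroup.subset_closure
        refine ⟨d y, hYd y hy, ?_⟩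
        show d (y⁻¹ * u y) = _
        rw [map_mul, map_inv, hudx]
      exact h1 hr
    · by_contra hno
      push Not at hno
      set r := y₀⁻¹ * u y₀ with hr
      have hr1 : u r = r := hno r (Subgroup.subset_closure ⟨y₀, hy₀, rfl⟩)
      have hu1' : u y₀ = y₀ * r := by rw [hr]; group
      have h2 : u (u (u y₀)) = y₀ * r * r * r := by
        rw [hu1', map_mul, map_mul, hr1, hu1', map_mul, hr1, hu1']
      have h3 := huuu y₀
      rw [h2] at h3
      have h4 : r ^ 3 = 1 := by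
        have h5 : y₀ * r ^ 3 = y₀ * 1 := by
          rw [mul_one, pow_succ, pow_two]
          simpa [mul_assoc] using h3
        exact mul_left_cancel h5
      have h5 := eq_one_of_pow_three hP h4
      apply hy₀'
      rw [hu1', h5, mul_one]
  -- the squares
  set F := closure {f | ∃ y ∈ Y, f = y ^ 2} with hFdef
  have hFY : F ≤ Y := by
    rw [hFdef, Subgroup.closure_le]
    rintro _ ⟨y, hy, rfl⟩
    exact pow_mem hy 2
  have hsq : ∀ y ∈ Y, y ^ 2 ∈ F := fun y hy => Subgroup.subset_closure ⟨y, hy, rfl⟩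
  have hFu : ∀ y ∈ F, u y ∈ F := by
    intro r hr
    have h1 : F ≤ F.comap u.toMonoidHom := by
      rw [hFdef, Subgroup.closure_le]
      rintro _ ⟨y, hy, rfl⟩
      change u (y ^ 2) ∈ closure {f | ∃ y ∈ Y, f = y ^ 2}
      rw [map_pow]
      exact hsq _ (hYu y hy)
    exact h1 hr
  have hFd : ∀ y ∈ F, d y ∈ F := by
    intro r hr
    have h1 : F ≤ F.comap d.toMonoidHom := by
      rw [hFdef, Subgroup.closure_le]
      rintro _ ⟨y, hy, rfl⟩
      change d (y ^ 2) ∈ closure {f | ∃ y ∈ Y, f = y ^ 2}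
      rw [map_pow]
      exact hsq _ (hYd y hy)
    exact h1 hr
  have hy₀1 : y₀ ≠ 1 := by
    rintro rfl
    exact hy₀' (map_one u)
  have hFne : F ≠ Y := by
    intro hFeq
    have hne1 : (⊥ : Subgroup Y) ≠ ⊤ := by
      intro h
      have h1 : (⟨y₀, hy₀⟩ : Y) ∈ (⊥ : Subgroup Y) := by rw [h]; exact Subgroup.mem_top _
      have h2 : (⟨y₀, hy₀⟩ : Y) = 1 := h1
      exact hy₀1 (congrArg Subtype.val h2)
    obtain ⟨L, -, hL⟩ := Cfsg.Agent.Lib.Coprime.Soft.exists_index_p Nat.prime_two (hP.to_subgroup Y) hne1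
    have h1 : F ≤ L.map Y.subtype := by
      rw [hFdef, Subgroup.closure_le]
      rintro _ ⟨y, hy, rfl⟩
      exact ⟨(⟨y, hy⟩ : Y) ^ 2, Subgroup.sq_mem_of_index_two hL _, rfl⟩
    have h2 : L = ⊤ := by
      rw [eq_top_iff]
      intro a _
      obtain ⟨b, hb, hba⟩ := h1 (hFeq.ge a.2)
      have : b = a := Subtype.ext hba
      rwa [← this]
    rw [h2, Subgroup.index_top] at hL
    omega
  have hFfix : ∀ f ∈ F, u f = f := by
    by_contra hno
    push Not at hno
    exact hFne (hmin F hFY hFu hFd hno)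
  have hFconj : ∀ y ∈ Y, ∀ f ∈ F, y * f * y⁻¹ ∈ F := by
    intro y hy f hf
    have h1 : F ≤ F.comap (MulAut.conj y).toMonoidHom := by
      rw [hFdef, Subgroup.closure_le]
      rintro _ ⟨x, hx, rfl⟩
      change y * x ^ 2 * y⁻¹ ∈ closure {f | ∃ y ∈ Y, f = y ^ 2}
      rw [← conj_pow]
      exact hsq _ (Y.mul_mem (Y.mul_mem hy hx) (Y.inv_mem hy))
    exact h1 hf
  have hFc : ∀ f ∈ F, ∀ y ∈ Y, y * f = f * y := by
    intro f hf y hy
    have hle : closure {c | ∃ y ∈ Y, c = y⁻¹ * u y} ≤ centralizer ({f} : Set P) := by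
      rw [Subgroup.closure_le]
      rintro _ ⟨y, hy, rfl⟩
      rw [SetLike.mem_coe, Subgroup.mem_centralizer_singleton_iff]
      have h1 := hFfix _ (hFconj y hy f hf)
      rw [map_mul, map_mul, map_inv, hFfix f hf] at h1
      have h2 : u y * f = y * f * y⁻¹ * u y := by
        rw [← h1]
        group
      calc y⁻¹ * u y * f = y⁻¹ * (u y * f) := by group
        _ = y⁻¹ * (y * f * y⁻¹ * u y) := by rw [h2]
        _ = f * (y⁻¹ * u y) := by group
    exact Subgroup.mem_centralizer_singleton_iff.mp (hle (hRY.ge hy))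
  have hcF : ∀ x ∈ Y, ∀ y ∈ Y, ⁅x, y⁆ ∈ F := by
    intro x hx y hy
    have e : ⁅x, y⁆ = (x * y) ^ 2 * (y⁻¹ * x⁻¹ * y) ^ 2 * (y⁻¹) ^ 2 := by
      rw [commutatorElement_def]
      simp only [pow_two]
      group
    rw [e]
    refine F.mul_mem (F.mul_mem (hsq _ (Y.mul_mem hx hy)) (hsq _ ?_)) (hsq _ (Y.inv_mem hy))
    exact Y.mul_mem (Y.mul_mem (Y.inv_mem hy) (Y.inv_mem hx)) hy
  have hmulsq : ∀ x ∈ Y, ∀ y ∈ Y, (x * y) ^ 2 = ⁅y, x⁆ * x ^ 2 * y ^ 2 := by
    intro x hx y hy
    have hc := hcF y hy x hx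
    set c := ⁅y, x⁆ with hcdef
    have hyx : y * x = c * x * y := by
      rw [hcdef, commutatorElement_def]
      group
    have hxc : x * c = c * x := hFc c hc x hx
    calc (x * y) ^ 2 = x * (y * x) * y := by
          simp only [pow_two]
          group
      _ = x * (c * x * y) * y := by rw [hyx]
      _ = (x * c) * x * y * y := by group
      _ = (c * x) * x * y * y := by rw [hxc]
      _ = c * x ^ 2 * y ^ 2 := by
          simp only [pow_two]
          group
  have hc2 : ∀ x ∈ Y, ∀ y ∈ Y, ⁅x, y⁆ ^ 2 = 1 := by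
    intro x hx y hy
    have hc := hcF x hx y hy
    set c := ⁅x, y⁆ with hcdef
    have hxc : x * c = c * x := hFc c hc x hx
    have hx2 : y * x ^ 2 = x ^ 2 * y := hFc _ (hsq x hx) y hy
    calc c ^ 2 = c * (x * y * x⁻¹ * y⁻¹) := by
          rw [pow_two]
          congr 1
      _ = (c * x) * y * x⁻¹ * y⁻¹ := by group
      _ = (x * c) * y * x⁻¹ * y⁻¹ := by rw [hxc]
      _ = x ^ 2 * y * (x ^ 2)⁻¹ * y⁻¹ := by
          rw [hcdef, commutatorElement_def]
          simp only [pow_two]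
          group
      _ = y * x ^ 2 * (x ^ 2)⁻¹ * y⁻¹ := by rw [hx2]
      _ = 1 := by group
  have hhom4 : ∀ x ∈ Y, ∀ y ∈ Y, (x * y) ^ 4 = x ^ 4 * y ^ 4 := by
    intro x hx y hy
    have hc := hcF y hy x hx
    have h1 := hc2 y hy x hx
    have h2 := hmulsq x hx y hy
    set c := ⁅y, x⁆ with hcdef
    have e1 : y ^ 2 * c = c * y ^ 2 := hFc c hc _ (hFY (hsq y hy))
    have e2 : x ^ 2 * c = c * x ^ 2 := hFc c hc _ (hFY (hsq x hx))
    have e3 : y ^ 2 * x ^ 2 = x ^ 2 * y ^ 2 := hFc _ (hsq x hx) _ (hFY (hsq y hy))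
    have e4 : (x * y) ^ 4 = ((x * y) ^ 2) * ((x * y) ^ 2) := by group
    rw [e4, h2]
    calc c * x ^ 2 * y ^ 2 * (c * x ^ 2 * y ^ 2) = c * x ^ 2 * (y ^ 2 * c) * x ^ 2 * y ^ 2 := by group
      _ = c * x ^ 2 * (c * y ^ 2) * x ^ 2 * y ^ 2 := by rw [e1]
      _ = c * (x ^ 2 * c) * (y ^ 2 * x ^ 2) * y ^ 2 := by group
      _ = c * (c * x ^ 2) * (x ^ 2 * y ^ 2) * y ^ 2 := by rw [e2, e3]
      _ = c ^ 2 * x ^ 4 * y ^ 4 := by
          have e5 : x ^ 4 = x ^ 2 * x ^ 2 := by rw [← pow_add]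
          have e6 : y ^ 4 = y ^ 2 * y ^ 2 := by rw [← pow_add]
          rw [e5, e6]
          simp only [pow_two]
          group
      _ = x ^ 4 * y ^ 4 := by rw [h1, one_mul]
  have h4 : ∀ x ∈ Y, x ^ 4 = 1 := by
    let S : Subgroup P :=
      { carrier := {x | x ∈ Y ∧ x ^ 4 = 1}
        mul_mem' := by
          rintro a b ⟨ha, ha'⟩ ⟨hb, hb'⟩
          refine ⟨Y.mul_mem ha hb, ?_⟩
          rw [hhom4 a ha b hb, ha', hb', one_mul]
        one_mem' := ⟨Y.one_mem, one_pow 4⟩
        inv_mem' := by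
          rintro a ⟨ha, ha'⟩
          refine ⟨Y.inv_mem ha, ?_⟩
          rw [inv_pow, ha', inv_one] }
    have hle : closure {c | ∃ y ∈ Y, c = y⁻¹ * u y} ≤ S := by
      rw [Subgroup.closure_le]
      rintro _ ⟨y, hy, rfl⟩
      refine ⟨Y.mul_mem (Y.inv_mem hy) (hYu y hy), ?_⟩
      rw [hhom4 _ (Y.inv_mem hy) _ (hYu y hy), inv_pow, ← map_pow]
      have h1 : y ^ 4 = (y ^ 2) ^ 2 := by group
      have h2 : u (y ^ 4) = y ^ 4 := by
        rw [h1]
        exact hFfix _ (hsq _ (hFY (hsq y hy)))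
      rw [h2, inv_mul_cancel]
    intro x hx
    exact (hle (hRY.ge hx)).2
  have hsqV : ∀ y ∈ Y, y ^ 2 ∈ V := by
    intro y hy
    rw [hV]
    have := h4 y hy
    rw [← pow_mul]
    exact this
  have hcV : ∀ x ∈ Y, ∀ y ∈ Y, ⁅x, y⁆ ∈ V := fun x hx y hy => (hV _).mpr (hc2 x hx y hy)
  -- the structure of `V`
  obtain ⟨y₁, hy₁, hy₁1⟩ : ∃ y ∈ Y, y ^ 2 ≠ 1 := by
    by_contra hno
    push Not at hno
    exact hy₀' (huV y₀ ((hV y₀).mpr (hno y₀ hy₀)))
  set v₀ := y₁ ^ 2 with hv₀
  have hv₀V : v₀ ∈ V := hsqV y₁ hy₁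
  have hdinv : ∀ v ∈ V, d v ∈ V := by
    intro v hv
    rw [hV] at hv ⊢
    rw [← map_pow, hv, map_one]
  have hdne : ∀ v ∈ V, v ≠ 1 → d v ≠ v := fun v hv h1 h2 => h1 (hdf v hv h2)
  have hdd : ∀ v ∈ V, v ≠ 1 → d (d v) ≠ v := by
    intro v hv h1 h2
    obtain ⟨k, hk⟩ := hd3
    have hpow : ∀ m : ℕ, (d ^ (2 * m + 1)) v = d v := by
      intro m
      induction m with
      | zero => rfl
      | succ m ih =>
        have e : 2 * (m + 1) + 1 = (2 * m + 1) + 2 := by ring
        rw [e, pow_add, MulAut.mul_apply, pow_two, MulAut.mul_apply, h2, ih]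
    obtain ⟨m, hm⟩ : Odd (3 ^ k) := Odd.pow (by decide)
    have h3 := hpow m
    rw [← hm, hk] at h3
    exact hdne v hv h1 h3.symm
  have hv₁1 : d v₀ ≠ 1 := fun h => hy₁1 ((map_eq_one_iff d d.injective).mp h)
  have hv₂1 : d (d v₀) ≠ 1 := fun h => hv₁1 ((map_eq_one_iff d d.injective).mp h)
  have hne01 := hdne v₀ hv₀V hy₁1
  have hne02 := hdd v₀ hv₀V hy₁1
  have hne12 := hdne (d v₀) (hdinv _ hv₀V) hv₁1
  haveI := Fintype.ofFinite P
  let T : Finset P := Finset.univ.filter (· ∈ V)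
  have hTc : T.card = 4 := by
    rw [← hVc, Nat.card_eq_fintype_card, Fintype.card_subtype]
  have hVset : ∀ w ∈ V, w = 1 ∨ w = v₀ ∨ w = d v₀ ∨ w = d (d v₀) := by
    intro w hw
    let S : Finset P := {1, v₀, d v₀, d (d v₀)}
    have hSc : S.card = 4 := by
      rw [Finset.card_insert_of_notMem, Finset.card_insert_of_notMem, Finset.card_insert_of_notMem,
        Finset.card_singleton]
      · simpa using hne12.symm
      · simp only [Finset.mem_insert, Finset.mem_singleton, not_or]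
        exact ⟨hne01.symm, hne02.symm⟩
      · simp only [Finset.mem_insert, Finset.mem_singleton, not_or]
        exact ⟨fun h => hy₁1 h.symm, fun h => hv₁1 h.symm, fun h => hv₂1 h.symm⟩
    have hST : S ⊆ T := by
      intro x hx
      refine Finset.mem_filter.mpr ⟨Finset.mem_univ _, ?_⟩
      simp only [S, Finset.mem_insert, Finset.mem_singleton] at hx
      rcases hx with rfl | rfl | rfl | rfl
      · exact V.one_mem
      · exact hv₀V
      · exact hdinv _ hv₀V
      · exact hdinv _ (hdinv _ hv₀V)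
    have heq := Finset.eq_of_subset_of_card_le hST (by rw [hTc, hSc])
    have h1 : w ∈ S := by
      rw [heq]
      exact Finset.mem_filter.mpr ⟨Finset.mem_univ _, hw⟩
    simpa only [S, Finset.mem_insert, Finset.mem_singleton] using h1
  have hddd : d (d (d v₀)) = v₀ := by
    rcases hVset _ (hdinv _ (hdinv _ (hdinv _ hv₀V))) with h | h | h | h
    · exact absurd ((map_eq_one_iff d d.injective).mp h) hv₂1
    · exact h
    · exact absurd (d.injective h) hne02
    · exact absurd (hdf _ (hdinv _ (hdinv _ hv₀V)) h) hv₂1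
  have hVY : V ≤ Y := by
    intro w hw
    have h0 : v₀ ∈ Y := hFY (hsq y₁ hy₁)
    rcases hVset w hw with rfl | rfl | rfl | rfl
    · exact Y.one_mem
    · exact h0
    · exact hYd _ h0
    · exact hYd _ (hYd _ h0)
  -- elements fixed by `u`
  haveI hVn : V.Normal := ⟨fun v hv g => by
    rw [← hVz v hv g, mul_assoc, mul_inv_cancel, mul_one]
    exact hv⟩
  have hcomπ : ∀ a ∈ Y, ∀ b ∈ Y, QuotientGroup.mk' V a * QuotientGroup.mk' V b =
      QuotientGroup.mk' V b * QuotientGroup.mk' V a := fun a ha b hb =>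
    (Cfsg.Agent.Lib.Coprime.Soft.mk_comm_iff V).mpr (hcV a ha b hb)
  have hfree : ∀ y ∈ Y, u y = y → y ∈ V := by
    let K : Subgroup P :=
      { carrier := {y | y ∈ Y ∧ QuotientGroup.mk' V y * QuotientGroup.mk' V (u y) * QuotientGroup.mk' V (u (u y)) = 1}
        mul_mem' := by
          rintro x y ⟨hx, hx'⟩ ⟨hy, hy'⟩
          refine ⟨Y.mul_mem hx hy, ?_⟩
          simp only [map_mul]
          have e1 := hcomπ y hy _ (hYu x hx)
          have e2 := hcomπ (u y) (hYu y hy) _ (hYu _ (hYu x hx))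
          have e3 := hcomπ y hy _ (hYu _ (hYu x hx))
          generalize QuotientGroup.mk' V x = a at *
          generalize QuotientGroup.mk' V y = b at *
          generalize QuotientGroup.mk' V (u x) = c at *
          generalize QuotientGroup.mk' V (u y) = e at *
          generalize QuotientGroup.mk' V (u (u x)) = f at *
          generalize QuotientGroup.mk' V (u (u y)) = g at *
          calc a * b * (c * e) * (f * g) = a * (b * c) * e * f * g := by group
            _ = a * (c * b) * e * f * g := by rw [e1]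
            _ = a * c * b * (e * f) * g := by group
            _ = a * c * b * (f * e) * g := by rw [e2]
            _ = a * c * (b * f) * e * g := by group
            _ = a * c * (f * b) * e * g := by rw [e3]
            _ = (a * c * f) * (b * e * g) := by group
            _ = 1 := by rw [hx', hy', one_mul]
        one_mem' := ⟨Y.one_mem, by simp⟩
        inv_mem' := by
          rintro y ⟨hy, hy'⟩
          refine ⟨Y.inv_mem hy, ?_⟩
          simp only [map_inv]
          have e1 := hcomπ y hy _ (hYu y hy)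
          have e2 := hcomπ y hy _ (hYu _ (hYu y hy))
          have e3 := hcomπ (u y) (hYu y hy) _ (hYu _ (hYu y hy))
          generalize QuotientGroup.mk' V y = a at *
          generalize QuotientGroup.mk' V (u y) = c at *
          generalize QuotientGroup.mk' V (u (u y)) = f at *
          have e4 : f * c * a = a * c * f := by
            calc f * c * a = f * (c * a) := by group
              _ = f * (a * c) := by rw [e1]
              _ = (f * a) * c := by group
              _ = (a * f) * c := by rw [e2]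
              _ = a * (f * c) := by group
              _ = a * (c * f) := by rw [e3]
              _ = a * c * f := by group
          have e5 : a⁻¹ * c⁻¹ * f⁻¹ = (f * c * a)⁻¹ := by group
          rw [e5, e4, hy', inv_one] }
    have hle : closure {c | ∃ y ∈ Y, c = y⁻¹ * u y} ≤ K := by
      rw [Subgroup.closure_le]
      rintro _ ⟨y, hy, rfl⟩
      refine ⟨Y.mul_mem (Y.inv_mem hy) (hYu y hy), ?_⟩
      rw [← map_mul, ← map_mul]
      have e : y⁻¹ * u y * u (y⁻¹ * u y) * u (u (y⁻¹ * u y)) = 1 := by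
        simp only [map_mul, map_inv, huuu]
        group
      rw [e, map_one]
    intro y hy huy
    have h1 := (hle (hRY.ge hy)).2
    rw [huy, huy, ← map_mul, ← map_mul] at h1
    have h2 : y * y * y ∈ V := (QuotientGroup.eq_one_iff _).mp h1
    rw [hV] at h2 ⊢
    have h3 := h4 y hy
    calc y ^ 2 = (y * y * y) ^ 2 * (y ^ 4)⁻¹ := by
          have e1 : y * y * y = y ^ 3 := by rw [pow_succ, pow_two]
          rw [e1, ← pow_mul, show 3 * 2 = 2 + 4 from rfl, pow_add, mul_assoc, mul_inv_cancel, mul_one]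
      _ = 1 := by rw [h2, h3, inv_one, one_mul]
  -- counting
  let X : P → Finset P := fun v => Finset.univ.filter (fun y => y ∈ Y ∧ y ^ 2 = v)
  have hXle : ∀ v, (X v).card ≤ (X (d v)).card := by
    intro v
    refine Finset.card_le_card_of_injOn d ?_ (fun a _ b _ h => d.injective h)
    intro y hy
    have hy' := (Finset.mem_filter.mp hy).2
    refine Finset.mem_filter.mpr ⟨Finset.mem_univ _, hYd y hy'.1, ?_⟩
    rw [← map_pow, hy'.2]
  have hX3 : ∀ v, v ≠ 1 → 3 ∣ (X v).card := by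
    intro v hv
    haveI : Fact (Nat.Prime 3) := ⟨Nat.prime_three⟩
    let f : Function.End {y // y ∈ X v} := fun y => ⟨u y.1, by
      have hy' := (Finset.mem_filter.mp y.2).2
      refine Finset.mem_filter.mpr ⟨Finset.mem_univ _, hYu _ hy'.1, ?_⟩
      rw [← map_pow, hy'.2]
      have hvV : v ∈ V := by
        rw [← hy'.2]
        exact hsqV _ hy'.1
      exact huV v hvV⟩
    have hf : f ^ 3 ^ 1 = 1 := by
      funext y
      apply Subtype.ext
      exact huuu y.1
    have h1 := Equiv.Perm.card_fixedPoints_modEq hf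
    have h2 : Fintype.card (Function.fixedPoints f) = 0 := by
      rw [Fintype.card_eq_zero_iff]
      refine ⟨fun y => ?_⟩
      have h3 : u y.1.1 = y.1.1 := congrArg Subtype.val y.2
      have hy' := (Finset.mem_filter.mp y.1.2).2
      have h4' := hfree _ hy'.1 h3
      rw [hV] at h4'
      exact hv (hy'.2.symm.trans h4')
    rw [h2, Fintype.card_coe] at h1
    exact (Nat.modEq_zero_iff_dvd).mp h1
  have hX1 : X 1 = T := by
    ext y
    simp only [X, T, Finset.mem_filter, Finset.mem_univ, true_and]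
    constructor
    · rintro ⟨-, h⟩
      exact (hV y).mpr h
    · intro h
      exact ⟨hVY h, (hV y).mp h⟩
  have hn1 : (X v₀).card ≤ (X (d v₀)).card := hXle _
  have hn2 : (X (d v₀)).card ≤ (X (d (d v₀))).card := hXle _
  have hn3 : (X (d (d v₀))).card ≤ (X v₀).card := by
    have := hXle (d (d v₀))
    rwa [hddd] at this
  have hcardY : Nat.card Y = 4 + 3 * (X v₀).card := by
    let t : Finset P := {1, v₀, d v₀, d (d v₀)}
    have hmaps : ∀ y ∈ Finset.univ.filter (· ∈ Y), y ^ 2 ∈ t := by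
      intro y hy
      have hy' := (Finset.mem_filter.mp hy).2
      simp only [t, Finset.mem_insert, Finset.mem_singleton]
      exact hVset _ (hsqV y hy')
    have h1 := Finset.card_eq_sum_card_fiberwise hmaps
    have hfil : ∀ b, ((Finset.univ.filter (· ∈ Y)).filter (fun y => y ^ 2 = b)) = X b := by
      intro b
      rw [Finset.filter_filter]
    simp only [hfil] at h1
    rw [Finset.sum_insert, Finset.sum_insert, Finset.sum_insert, Finset.sum_singleton, hX1, hTc] at h1
    · have h2 : Nat.card Y = (Finset.univ.filter (· ∈ Y)).card := by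
        rw [Nat.card_eq_fintype_card, Fintype.card_subtype]
      rw [h2, h1]
      omega
    · simpa using hne12.symm
    · simp only [Finset.mem_insert, Finset.mem_singleton, not_or]
      exact ⟨hne01.symm, hne02.symm⟩
    · simp only [Finset.mem_insert, Finset.mem_singleton, not_or]
      exact ⟨fun h => hy₁1 h.symm, fun h => hv₁1 h.symm, fun h => hv₂1 h.symm⟩
  obtain ⟨m, hm⟩ := hX3 v₀ hy₁1
  have hy₁X : y₁ ∈ X v₀ := Finset.mem_filter.mpr ⟨Finset.mem_univ _, hy₁, rfl⟩
  have hpos : 0 < (X v₀).card := Finset.card_pos.mpr ⟨y₁, hy₁X⟩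
  obtain ⟨f, hf⟩ := IsPGroup.iff_card.mp (hP.to_subgroup Y)
  have hf8 : 8 ≤ f := by
    by_contra hlt
    have hf7 : f ≤ 7 := by omega
    rw [hf, hm] at hcardY
    have hm0 : 0 < m := by
      rcases Nat.eq_zero_or_pos m with rfl | h
      · omega
      · exact h
    interval_cases f <;> omega
  have hcard256 : 256 ≤ Nat.card Y := by
    rw [hf]
    calc 256 = 2 ^ 8 := by norm_num
      _ ≤ 2 ^ f := Nat.pow_le_pow_right (by norm_num) hf8
  -- Chevalley--Warning
  obtain ⟨χ₁, hχ₁, hχ₁0⟩ := chi_of V hVc hv₀V hy₁1 ((hV _).mp hv₀V)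
  obtain ⟨χ₂, hχ₂, hχ₂0⟩ := chi_of V hVc (hdinv _ hv₀V) hv₁1 ((hV _).mp (hdinv _ hv₀V))
  have hidx : 32 ≤ (V.subgroupOf Y).index := by
    have h1 := (V.subgroupOf Y).card_mul_index
    rw [Nat.card_congr (Subgroup.subgroupOfEquivOfLe hVY).toEquiv, hVc] at h1
    omega
  have hcomm_add : ∀ x ∈ Y, ∀ y ∈ Y, ∀ z ∈ Y, ⁅z, x * y⁆ = ⁅z, x⁆ * ⁅z, y⁆ := by
    intro x hx y hy z hz
    have hc := hcV z hz y hy
    have h1 : x * ⁅z, y⁆ = ⁅z, y⁆ * x := (hVz _ hc x).symm
    rw [commutatorElement_def z (x * y), commutatorElement_def z x]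
    calc z * (x * y) * z⁻¹ * (x * y)⁻¹ = z * x * z⁻¹ * (z * y * z⁻¹ * y⁻¹ ) * x⁻¹ := by group
      _ = z * x * z⁻¹ * ⁅z, y⁆ * x⁻¹ := by rw [commutatorElement_def]
      _ = z * x * z⁻¹ * x⁻¹ * (x * ⁅z, y⁆ * x⁻¹) := by group
      _ = z * x * z⁻¹ * x⁻¹ * ⁅z, y⁆ := by
          rw [h1]
          group
  have hquad : ∀ χ : P → ZMod 2, (∀ w ∈ V, ∀ w' ∈ V, χ (w * w') = χ w + χ w') →
      (∀ x y : Y, χ (((x * y : Y) : P) ^ 2) = χ ((x : P) ^ 2) + χ ((y : P) ^ 2) + χ ⁅(y : P), (x : P)⁆) ∧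
      (∀ x y z : Y, χ ⁅(z : P), ((x * y : Y) : P)⁆ = χ ⁅(z : P), (x : P)⁆ + χ ⁅(z : P), (y : P)⁆) := by
    intro χ hχ
    constructor
    · intro x y
      show χ (((x : P) * (y : P)) ^ 2) = _
      rw [hmulsq _ x.2 _ y.2, hχ _ (V.mul_mem (hcV _ y.2 _ x.2) (hsqV _ x.2)) _ (hsqV _ y.2),
        hχ _ (hcV _ y.2 _ x.2) _ (hsqV _ x.2)]
      ring
    · intro x y z
      show χ ⁅(z : P), (x : P) * (y : P)⁆ = _
      rw [hcomm_add _ x.2 _ y.2 _ z.2, hχ _ (hcV _ z.2 _ x.2) _ (hcV _ z.2 _ y.2)]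
  obtain ⟨y, hy, hy1, hy2⟩ := cw_exists (V.subgroupOf Y) (fun a => hsqV _ a.2)
    (fun a b => hcV _ a.2 _ b.2) hidx (fun y => χ₁ ((y : P) ^ 2)) (fun y => χ₂ ((y : P) ^ 2))
    (fun x y => χ₁ ⁅(y : P), (x : P)⁆) (fun x y => χ₂ ⁅(y : P), (x : P)⁆)
    (hquad χ₁ hχ₁).1 (hquad χ₂ hχ₂).1 (fun x y z => (hquad χ₁ hχ₁).2 x y z) (fun x y z => (hquad χ₂ hχ₂).2 x y z)
  apply hy
  show (y : P) ∈ V
  rw [hV]
  rcases hχ₁0 _ hy1 with h1 | h1
  · exact h1
  rcases hχ₂0 _ hy2 with h2 | h2
  · exact h2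
  exact absurd (h1.symm.trans h2) hne01.symm

end T1


end Cfsg.Agent.Lib.Coprime.Rank3
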