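import Mathlib

/-!
# Elements of `SL₂(F)` in odd characteristic: commuting and unipotent computations
-/

set_option autoImplicit false

namespace Cfsg.Agent.Lib.Coprime.SL2PElt

open Matrix

variable {F : Type*} [Field F]

local notation "M₂" => Matrix (Fin 2) (Fin 2) F
local notation "Γ" => Matrix.SpecialLinearGroup (Fin 2) F

theorem cayley (T : M₂) : T * T = T.trace • T - T.det • (1 : M₂) := by
  ext i j
  fin_cases i <;> fin_cases j <;>
    simp [Matrix.mul_apply, Fin.sum_univ_two, Matrix.trace_fin_two, Matrix.det_fin_two,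
      Matrix.one_apply] <;> ring

theorem det_comb (x w : F) (T : M₂) :
    (x • (1 : M₂) + w • T).det = x ^ 2 + x * w * T.trace + w ^ 2 * T.det := by
  simp [Matrix.trace_fin_two, Matrix.det_fin_two, Matrix.one_apply]
  ring

theorem trace_comb (x w : F) (T : M₂) :
    (x • (1 : M₂) + w • T).trace = 2 * x + w * T.trace := by
  simp [Matrix.trace_fin_two, Matrix.one_apply]
  ring

theorem ext_comb {M T : M₂} {x w : F} (h00 : M 0 0 = x + w * T 0 0) (h01 : M 0 1 = w * T 0 1)
    (h10 : M 1 0 = w * T 1 0) (h11 : M 1 1 = x + w * T 1 1) : M = x • (1 : M₂) + w • T := by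
  ext i j
  fin_cases i <;> fin_cases j <;> simp [Matrix.one_apply, h00, h01, h10, h11]

/-- The commutant of a non-scalar `2 × 2` matrix. -/
theorem commutant {M T : M₂} (hT : ¬ ∃ c : F, T = c • (1 : M₂)) (h : M * T = T * M) :
    ∃ x w : F, M = x • (1 : M₂) + w • T := by
  have h00 := congrFun (congrFun h 0) 0
  have h01 := congrFun (congrFun h 0) 1
  have h10 := congrFun (congrFun h 1) 0
  have h11 := congrFun (congrFun h 1) 1
  simp only [Matrix.mul_apply, Fin.sum_univ_two] at h00 h01 h10 h11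
  by_cases hb : T 0 1 = 0
  · by_cases hc : T 1 0 = 0
    · have hd : T 0 0 - T 1 1 ≠ 0 := by
        intro hd
        apply hT
        refine ⟨T 1 1, ?_⟩
        have := sub_eq_zero.mp hd
        ext i j
        fin_cases i <;> fin_cases j <;> simp [Matrix.one_apply, hb, hc, this]
      rw [hb] at h01
      rw [hc] at h10
      have h01' : M 0 1 = 0 := by
        have : (T 0 0 - T 1 1) * M 0 1 = 0 := by linear_combination -h01
        exact (mul_eq_zero.mp this).resolve_left hd
      have h10' : M 1 0 = 0 := by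
        have : (T 0 0 - T 1 1) * M 1 0 = 0 := by linear_combination h10
        exact (mul_eq_zero.mp this).resolve_left hd
      refine ⟨M 0 0 - (M 0 0 - M 1 1) / (T 0 0 - T 1 1) * T 0 0, (M 0 0 - M 1 1) / (T 0 0 - T 1 1),
        ext_comb ?_ ?_ ?_ ?_⟩
      · ring
      · rw [h01', hb, mul_zero]
      · rw [h10', hc, mul_zero]
      · field_simp
        ring
    · refine ⟨M 0 0 - M 1 0 / T 1 0 * T 0 0, M 1 0 / T 1 0, ext_comb ?_ ?_ ?_ ?_⟩
      · ring
      · rw [hb] at h00 ⊢
        field_simp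
        linear_combination h00
      · field_simp
      · field_simp
        linear_combination h10
  · refine ⟨M 0 0 - M 0 1 / T 0 1 * T 0 0, M 0 1 / T 0 1, ext_comb ?_ ?_ ?_ ?_⟩
    · ring
    · field_simp
    · field_simp
      linear_combination -h00
    · field_simp
      linear_combination -h01

/-- A `2 × 2` matrix squaring to one with determinant one is `± 1`. -/
theorem eq_one_or_neg_of_sq {Y : M₂} (h2 : (2 : F) ≠ 0) (hd : Y.det = 1) (hY : Y * Y = 1) :
    Y = 1 ∨ Y = -1 := by
  have hc := cayley Y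
  rw [hY, hd, one_smul] at hc
  have h3 : Y.trace • Y = (2 : F) • (1 : M₂) := by
    rw [two_smul]
    rw [eq_sub_iff_add_eq] at hc
    exact hc.symm
  have ht : Y.trace ≠ 0 := by
    intro ht
    rw [ht, zero_smul] at h3
    have := congrFun (congrFun h3 0) 0
    simp at this
    exact h2 this.symm
  have h4 : Y = (2 / Y.trace) • (1 : M₂) := by
    rw [div_eq_mul_inv, mul_comm, mul_smul, ← h3, smul_smul, inv_mul_cancel₀ ht, one_smul]
  have h5 : (2 / Y.trace) ^ 2 = 1 := by
    have h6 := congrArg Matrix.det h4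
    rw [hd] at h6
    simp [Matrix.det_fin_two, Matrix.one_apply] at h6
    rw [pow_two]
    field_simp at h6 ⊢
    linear_combination -h6
  have h7 : (2 / Y.trace - 1) * (2 / Y.trace + 1) = 0 := by linear_combination h5
  rcases mul_eq_zero.mp h7 with h8 | h8
  · left
    rw [h4, sub_eq_zero.mp h8, one_smul]
  · right
    have h9 : 2 / Y.trace = -1 := eq_neg_of_add_eq_zero_left h8
    rw [h4, h9, neg_smul, one_smul]

section Char

variable {p : ℕ} [Fact p.Prime] [CharP F p]

theorem two_ne_zero_of_odd (hp : p ≠ 2) : (2 : F) ≠ 0 := by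
  intro h
  have h1 : ((2 : ℕ) : F) = 0 := by exact_mod_cast h
  rw [CharP.cast_eq_zero_iff F p] at h1
  exact hp ((Nat.prime_dvd_prime_iff_eq (Fact.out) Nat.prime_two).mp h1)

omit [Fact p.Prime] [CharP F p] in
theorem unip_order (hp : p ≠ 2) [Fact p.Prime] [CharP F p] {Y : M₂} {ε : F} (hε : ε * ε = 1)
    (hN : (Y - ε • (1 : M₂)) * (Y - ε • (1 : M₂)) = 0) : (Y ^ p) * (Y ^ p) = 1 := by
  have hpp : p.Prime := Fact.out
  have hodd : Odd p := hpp.odd_of_ne_two hp
  set N := Y - ε • (1 : M₂) with hNdef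
  have hY : Y = ε • (1 : M₂) + N := by rw [hNdef]; abel
  have hcomm : Commute (ε • (1 : M₂)) N := by
    show (ε • (1 : M₂)) * N = N * (ε • (1 : M₂))
    simp
  have hNp : N ^ p = 0 := by
    obtain ⟨k, hk⟩ : ∃ k, p = k + 2 := ⟨p - 2, by have := hpp.two_le; omega⟩
    rw [hk, pow_add, pow_two, hN, mul_zero]
  have hp1 : Y ^ p = ε • (1 : M₂) := by
    haveI : CharP M₂ p := Matrix.charP p
    rw [hY, add_pow_char_of_commute p hcomm, hNp, add_zero, smul_pow, one_pow]
    congr 1
    obtain ⟨k, hk⟩ := hodd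
    rw [hk, pow_succ, pow_mul, pow_two, hε, one_pow, one_mul]
  rw [hp1, smul_mul_smul_comm, hε, mul_one, one_smul]

/-- An element of `SL₂(F)` of order prime to `p` which is `ε + N` with `N² = 0`, has square one. -/
theorem mul_self_of_unip (hp : p ≠ 2) {y : Γ} {ε : F} (hε : ε * ε = 1)
    (hN : ((y : M₂) - ε • (1 : M₂)) * ((y : M₂) - ε • (1 : M₂)) = 0)
    (hc : (orderOf y).Coprime p) : y * y = 1 := by
  have h1 : y ^ p * y ^ p = 1 := by
    apply Subtype.ext
    simpa using unip_order hp hε hN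
  have h2 : orderOf y ∣ 2 * p := by
    apply orderOf_dvd_of_pow_eq_one
    rw [two_mul, pow_add, h1]
  have h3 : orderOf y ∣ 2 := hc.dvd_of_dvd_mul_right h2
  have h4 := orderOf_dvd_iff_pow_eq_one.mp h3
  rwa [pow_two] at h4

/-- A `p`-element of `SL₂(F)` is unipotent with `(A - 1)² = 0`. -/
theorem unip_of_pow {a : Γ} {k : ℕ} (hk : a ^ (p ^ k) = 1) :
    ((a : M₂) - 1) * ((a : M₂) - 1) = 0 := by
  haveI : CharP M₂ p := Matrix.charP p
  set N : M₂ := (a : M₂) - 1 with hNdef
  have hNp : N ^ (p ^ k) = 0 := by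
    rw [hNdef, sub_pow_char_pow_of_commute p k (Commute.one_right _), one_pow]
    have : ((a ^ (p ^ k) : Γ) : M₂) = 1 := by rw [hk]; rfl
    rw [← Matrix.SpecialLinearGroup.coe_pow, this, sub_self]
  have hdet : N.det = 0 := by
    have h1 := congrArg Matrix.det hNp
    rw [Matrix.det_pow, Matrix.det_zero] at h1
    exact eq_zero_of_pow_eq_zero h1
  have hc := cayley N
  rw [hdet, zero_smul, sub_zero] at hc
  have hpow : ∀ m : ℕ, N ^ (m + 1) = (N.trace) ^ m • N := by
    intro m
    induction m with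
    | zero => simp
    | succ m ih =>
      rw [pow_succ, ih, smul_mul_assoc, hc, smul_smul, pow_succ]
  have hpos : 0 < p ^ k := pow_pos (Fact.out : p.Prime).pos k
  obtain ⟨m, hm⟩ : ∃ m, p ^ k = m + 1 := ⟨p ^ k - 1, by omega⟩
  rw [hm, hpow] at hNp
  rcases smul_eq_zero.mp hNp with h | h
  · have : N.trace = 0 := eq_zero_of_pow_eq_zero h
    rw [hc, this, zero_smul]
  · rw [h, zero_mul]

theorem pow_p_eq_one_of_unip {a : Γ} (h : ((a : M₂) - 1) * ((a : M₂) - 1) = 0) : a ^ p = 1 := by
  haveI : CharP M₂ p := Matrix.charP p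
  have hpp : p.Prime := Fact.out
  apply Subtype.ext
  rw [Matrix.SpecialLinearGroup.coe_pow, Matrix.SpecialLinearGroup.coe_one]
  have h1 : (a : M₂) = 1 + ((a : M₂) - 1) := by abel
  rw [h1, add_pow_char_of_commute p (Commute.one_left _), one_pow]
  obtain ⟨k, hk⟩ : ∃ k, p = k + 2 := ⟨p - 2, by have := hpp.two_le; omega⟩
  have h2 : ((a : M₂) - 1) ^ p = 0 := by
    rw [hk, pow_add, pow_two, h, mul_zero]
  rw [h2, add_zero]

theorem trace_eq_two_of_unip (h2 : (2 : F) ≠ 0) {a : Γ} (h : ((a : M₂) - 1) * ((a : M₂) - 1) = 0) :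
    (a : M₂).trace = 2 := by
  have hc := cayley (a : M₂)
  rw [a.2, one_smul] at hc
  have h3 : ((a : M₂).trace - 2) • (a : M₂) = 0 := by
    have : ((a : M₂) - 1) * ((a : M₂) - 1) = (a : M₂) * (a : M₂) - (2 : F) • (a : M₂) + 1 := by
      rw [two_smul, sub_mul, mul_sub, mul_sub, mul_one, one_mul, mul_one]
      abel
    rw [this, hc] at h
    rw [sub_smul]
    have h5 : (a : M₂).trace • (a : M₂) - 1 - (2 : F) • (a : M₂) + 1
        = (a : M₂).trace • (a : M₂) - (2 : F) • (a : M₂) := by abel
    rw [h5] at h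
    exact h
  rcases smul_eq_zero.mp h3 with h4 | h4
  · exact sub_eq_zero.mp h4
  · exfalso
    have h5 := a.2
    have h6 : (a : M₂) = 0 := h4
    rw [h6, Matrix.det_zero] at h5
    exact zero_ne_one h5

theorem not_scalar_of_unip {a : Γ} (ha : a ≠ 1)
    (h : ((a : M₂) - 1) * ((a : M₂) - 1) = 0) : ¬ ∃ c : F, (a : M₂) = c • (1 : M₂) := by
  rintro ⟨c, hc⟩
  apply ha
  apply Subtype.ext
  rw [Matrix.SpecialLinearGroup.coe_one, hc]
  rw [hc] at h
  have h1 := congrFun (congrFun h 0) 0
  simp [Matrix.mul_apply, Fin.sum_univ_two, Matrix.one_apply] at h1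
  have h2 : c = 1 := sub_eq_zero.mp h1
  rw [h2, one_smul]

/-- An element of order prime to `p` commuting with a nontrivial unipotent element has square one. -/
theorem mul_self_of_comm (hp : p ≠ 2) {a y : Γ} (ha : a ≠ 1)
    (h : ((a : M₂) - 1) * ((a : M₂) - 1) = 0) (hcomm : y * a = a * y) (hc : (orderOf y).Coprime p) :
    y * y = 1 := by
  have h2 := two_ne_zero_of_odd (F := F) hp
  have hcm : (y : M₂) * (a : M₂) = (a : M₂) * (y : M₂) := congrArg Subtype.val hcomm
  obtain ⟨x, w, hxw⟩ := commutant (not_scalar_of_unip ha h) hcm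
  have hd := det_comb x w (a : M₂)
  rw [← hxw, y.2, trace_eq_two_of_unip h2 h, a.2] at hd
  refine mul_self_of_unip hp (ε := x + w) (by linear_combination -hd) ?_ hc
  have h3 : (y : M₂) - (x + w) • (1 : M₂) = w • ((a : M₂) - 1) := by
    rw [hxw, add_smul, smul_sub]
    abel
  rw [h3, smul_mul_smul_comm, h, smul_zero]

/-- Key computation: a conjugate of `t` commuting with `t`, for `t` of order prime to `p`. -/
theorem conj_comm (hp : p ≠ 2) {t g : Γ} (hcomm : (g * t * g⁻¹) * t = t * (g * t * g⁻¹))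
    (hc : (orderOf t).Coprime p) : t * t = 1 ∨ g * t * g⁻¹ = t ∨ g * t * g⁻¹ = t⁻¹ := by
  have h2 := two_ne_zero_of_odd (F := F) hp
  have hcayley := cayley (t : M₂)
  rw [t.2, one_smul] at hcayley
  by_cases hsc : ∃ c : F, (t : M₂) = c • (1 : M₂)
  · left
    obtain ⟨c, hc'⟩ := hsc
    apply Subtype.ext
    have h3 := t.2
    rw [hc'] at h3
    simp [Matrix.det_fin_two, Matrix.one_apply] at h3
    rw [Matrix.SpecialLinearGroup.coe_mul, Matrix.SpecialLinearGroup.coe_one, hc',
      smul_mul_smul_comm, mul_one]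
    have h4 : c * c = 1 := by
      rcases h3 with rfl | rfl
      · ring
      · ring
    rw [h4, one_smul]
  · have hcm : ((g * t * g⁻¹ : Γ) : M₂) * (t : M₂) = (t : M₂) * ((g * t * g⁻¹ : Γ) : M₂) :=
      congrArg Subtype.val hcomm
    obtain ⟨x, w, hxw⟩ := commutant hsc hcm
    have hd := det_comb x w (t : M₂)
    rw [← hxw, (g * t * g⁻¹).2, t.2] at hd
    have htr := trace_comb x w (t : M₂)
    rw [← hxw] at htr
    have htr2 : ((g * t * g⁻¹ : Γ) : M₂).trace = (t : M₂).trace := by
      have h5 : ((g * t * g⁻¹ : Γ) : M₂) = ((g * t : Γ) : M₂) * ((g⁻¹ : Γ) : M₂) := rfl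
      rw [h5, Matrix.trace_mul_comm]
      show ((g⁻¹ * (g * t) : Γ) : M₂).trace = _
      rw [inv_mul_cancel_left]
    set τ := (t : M₂).trace with hτ
    rw [htr2] at htr
    have key : (1 - w) * (1 + w) * (τ ^ 2 - 4) = 0 := by
      linear_combination (-4 : F) * hd + (2 * x + (1 - w) * τ + 2 * w * τ) * htr
    rcases mul_eq_zero.mp key with h3 | h3
    · rcases mul_eq_zero.mp h3 with h4 | h4
      · right; left
        have hw : w = 1 := (sub_eq_zero.mp h4).symm
        have hx : x = 0 := by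
          rw [hw] at htr
          have : 2 * x = 0 := by linear_combination -htr
          exact (mul_eq_zero.mp this).resolve_left h2
        apply Subtype.ext
        rw [hxw, hw, hx, zero_smul, zero_add, one_smul]
      · right; right
        have hw : w = -1 := eq_neg_of_add_eq_zero_right h4
        have hx : x = τ := by
          rw [hw] at htr
          have : 2 * (x - τ) = 0 := by linear_combination -htr
          exact sub_eq_zero.mp ((mul_eq_zero.mp this).resolve_left h2)
        apply eq_inv_of_mul_eq_one_left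
        apply Subtype.ext
        rw [Matrix.SpecialLinearGroup.coe_mul, Matrix.SpecialLinearGroup.coe_one, hxw, hw, hx,
          add_mul, smul_mul_assoc, smul_mul_assoc, one_mul, hcayley]
        simp
    · left
      have hε : (τ / 2) * (τ / 2) = 1 := by
        field_simp
        linear_combination h3
      refine mul_self_of_unip hp hε ?_ hc
      have h4 : ((t : M₂) - (τ / 2) • (1 : M₂)) * ((t : M₂) - (τ / 2) • (1 : M₂))
          = (t : M₂) * (t : M₂) - (2 * (τ / 2)) • (t : M₂) + ((τ / 2) * (τ / 2)) • (1 : M₂) := by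
        rw [sub_mul, mul_sub, mul_sub, smul_mul_assoc, mul_smul_comm, smul_mul_smul_comm, two_mul,
          add_smul, mul_one, one_mul, mul_one]
        abel
      rw [h4, hε, one_smul, hcayley, mul_div_cancel₀ _ h2]
      abel

end Char

end Cfsg.Agent.Lib.Coprime.SL2PElt
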