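import Mathlib
import Cfsg.Agent.Lib.Known.SL23

/-!
# `Q₈` and `SL₂(3)`: recognising homomorphisms out of them
-/

set_option autoImplicit false

namespace Cfsg.Agent.Lib.Coprime.SL2Q8

open QuaternionGroup Cfsg.Agent.Lib.Known Cfsg.Agent.Lib.Known.SL23

local notation "Q₈" => QuaternionGroup 2

section Lift

variable {Y : Type*} [Group Y]

/-- A homomorphism from `Q₈` is determined by two elements satisfying the relations. -/
theorem hom_of_rel (i j : Y) (h4 : i ^ 4 = 1) (h2 : j * j = i * i) (h3 : j * i * j⁻¹ = i⁻¹) :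
    ∃ f : Q₈ →* Y, f (a 1) = i ∧ f (xa 0) = j := by
  let P : ZMod (2 * 2) → Y := fun k => i ^ k.val
  have hadd : ∀ k l : ZMod (2 * 2), P (k + l) = P k * P l := by
    intro k l
    simp only [P]
    rw [ZMod.val_add, ← pow_add]
    exact (pow_eq_pow_mod (k.val + l.val) h4).symm
  have hzero : P 0 = 1 := by simp [P]
  have hneg : ∀ k : ZMod (2 * 2), P (-k) = (P k)⁻¹ := by
    intro k
    have := hadd (-k) k
    rw [neg_add_cancel, hzero] at this
    exact eq_inv_of_mul_eq_one_left this.symm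
  have hsub : ∀ k l : ZMod (2 * 2), P (l - k) = (P k)⁻¹ * P l := by
    intro k l
    rw [sub_eq_add_neg, add_comm, hadd, hneg]
  have hconj : ∀ k : ZMod (2 * 2), P k * j = j * (P k)⁻¹ := by
    intro k
    have h5 : j * P k * j⁻¹ = (P k)⁻¹ := by
      simp only [P]
      rw [← conj_pow, h3, inv_pow]
    have h6 : j * (P k)⁻¹ * j⁻¹ = P k := by
      have h7 := congrArg (fun t => t⁻¹) h5
      simp only [mul_inv_rev, inv_inv] at h7
      rw [mul_assoc]
      exact h7
    calc P k * j = (j * (P k)⁻¹ * j⁻¹) * j := by rw [h6]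
      _ = j * (P k)⁻¹ := by group
  have hPm : P ((2 : ℕ) : ZMod (2 * 2)) = i * i := by
    show i ^ ((2 : ℕ) : ZMod (2 * 2)).val = i * i
    rw [ZMod.val_natCast]
    norm_num
    rw [pow_two]
  let f : Q₈ →* Y :=
    { toFun := fun x => match x with
        | QuaternionGroup.a k => P k
        | QuaternionGroup.xa k => j * P k
      map_one' := by
        show P 0 = 1
        exact hzero
      map_mul' := by
        rintro (k | k) (l | l)
        · show P (k + l) = P k * P l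
          exact hadd k l
        · show j * P (l - k) = P k * (j * P l)
          rw [hsub, ← mul_assoc (P k), hconj, mul_assoc]
        · show j * P (k + l) = j * P k * P l
          rw [hadd, mul_assoc]
        · show P (((2 : ℕ) : ZMod (2 * 2)) + l - k) = j * P k * (j * P l)
          rw [add_sub_assoc, hadd, hPm, hsub, ← h2]
          calc j * j * ((P k)⁻¹ * P l) = j * (j * (P k)⁻¹) * P l := by group
            _ = j * (P k * j) * P l := by rw [hconj]
            _ = j * P k * (j * P l) := by group }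
  refine ⟨f, ?_, ?_⟩
  · show P 1 = i
    simp only [P]
    have : (1 : ZMod (2 * 2)).val = 1 := by decide
    rw [this, pow_one]
  · show j * P 0 = j
    rw [hzero, mul_one]

theorem q8_gen : ∀ g : Q₈, ∃ m : Fin 4, ∃ n : Fin 2, g = (a 1) ^ (m : ℕ) * (xa 0) ^ (n : ℕ) := by
  decide

theorem q8_pow_a2 : ∀ g : Q₈, g ≠ 1 → ∃ n : Fin 4, g ^ (n : ℕ) = a 2 := by decide

/-- A homomorphism from `Q₈` killing no `a 2` is injective. -/
theorem injective_of_a2 (f : Q₈ →* Y) (h : f (a 2) ≠ 1) : Function.Injective f := by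
  rw [injective_iff_map_eq_one]
  intro g hg
  by_contra hg1
  obtain ⟨n, hn⟩ := q8_pow_a2 g hg1
  apply h
  rw [← hn, map_pow, hg, one_pow]

end Lift

section Aut

theorem sq_cases : ∀ x : Q₈, x * x ≠ 1 → x * x = a 2 := by decide

theorem q8_third : ∀ i u v : Q₈, i * i = a 2 → u * u = a 2 → v * v = a 2 → u ≠ i → u ≠ i⁻¹ → v ≠ i →
    v ≠ i⁻¹ → v ≠ u → v ≠ u⁻¹ → v = i * u ∨ v = (i * u)⁻¹ := by decide

theorem q8_inv_mul : ∀ i u : Q₈, i * i = a 2 → u * u = a 2 → i⁻¹ * u⁻¹ = i * u := by decide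

theorem q8_anti : ∀ i u : Q₈, i * i = a 2 → u * u = a 2 → u ≠ i → u ≠ i⁻¹ → u * i * u⁻¹ = i⁻¹ := by
  decide

theorem q8_inv_sq : ∀ i : Q₈, i * i = a 2 → i⁻¹ * i⁻¹ = a 2 := by decide

theorem q8_inv_ne : ∀ i u : Q₈, u ≠ i → u ≠ i⁻¹ → u⁻¹ ≠ i⁻¹ ∧ u⁻¹ ≠ (i⁻¹)⁻¹ := by decide

/-- The normal form of an automorphism of `Q₈` of odd order acting freely on elements of order four. -/
theorem aut_normal (α : Q₈ ≃* Q₈)
    (h1 : ∀ x, α x = x → x * x = 1) (h2 : ∀ x, α (α x) = x → x * x = 1)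
    (h4 : ∀ x, α (α (α (α x))) = x → x * x = 1) :
    ∃ i u : Q₈, i * i = a 2 ∧ u * u = a 2 ∧ u ≠ i ∧ u ≠ i⁻¹ ∧ α i = u ∧ α u = i * u := by
  have hnt : ((a 1 : Q₈) * a 1) ≠ 1 := by decide
  have hsq : ∀ x : Q₈, x * x ≠ 1 → α x * α x ≠ 1 := by
    intro x hx h
    apply hx
    apply α.injective
    rw [map_mul, h, map_one]
  set i : Q₈ := a 1 with hi
  set u : Q₈ := α i with hu
  set v : Q₈ := α u with hv
  have hii : i * i = a 2 := by decide
  have huu : u * u = a 2 := sq_cases u (hsq i hnt)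
  have hun : u * u ≠ 1 := hsq i hnt
  have hvn : v * v ≠ 1 := hsq u hun
  have hvv : v * v = a 2 := sq_cases v hvn
  have hui : u ≠ i := fun h => hnt (h1 i h)
  have huinv : u ≠ i⁻¹ := by
    intro h
    apply hnt
    apply h2 i
    show α u = i
    rw [h, map_inv, ← hu, h, inv_inv]
  have hvi : v ≠ i := fun h => hnt (h2 i h)
  have hvinv : v ≠ i⁻¹ := by
    intro h
    apply hnt
    apply h4 i
    show α (α v) = i
    rw [h, map_inv, map_inv, ← hu, ← hv, h, inv_inv]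
  have hvu : v ≠ u := fun h => hun (h1 u h)
  have hvuinv : v ≠ u⁻¹ := by
    intro h
    apply hun
    apply h2 u
    show α v = u
    rw [h, map_inv, ← hv, h, inv_inv]
  rcases q8_third i u v hii huu hvv hui huinv hvi hvinv hvu hvuinv with h | h
  · exact ⟨i, u, hii, huu, hui, huinv, rfl, h⟩
  · have hne := q8_inv_ne i u hui huinv
    refine ⟨i⁻¹, u⁻¹, q8_inv_sq i hii, q8_inv_sq u huu, hne.1, hne.2, by rw [map_inv], ?_⟩
    rw [map_inv, ← hv, h, inv_inv, q8_inv_mul i u hii huu]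

end Aut

section G3

/-- The element of order three of `SL₂(3)` permuting `Q₈`. -/
def b : G3 := ⟨!![1, 0; 1, 1], by decide +kernel⟩

theorem b_cube : b ^ 3 = 1 := by decide +kernel

theorem b_ne_one : b ≠ 1 := by decide +kernel

theorem b_qI : b * qI * b⁻¹ = qJ := by decide +kernel

theorem b_qJ : b * qJ * b⁻¹ = qI * qJ := by decide +kernel

theorem decomp : ∀ g : G3, ∃ x : Q₈, ∃ m : Fin 3, g = qMap x * b ^ (m : ℕ) := by decide +kernel

theorem decomp_uniq : ∀ (x x' : Q₈) (m m' : Fin 3), qMap x * b ^ (m : ℕ) = qMap x' * b ^ (m' : ℕ) →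
    x = x' ∧ m = m' := by decide +kernel

theorem conj_q : ∀ x : Q₈, ∃ x' : Q₈, b * qMap x * b⁻¹ = qMap x' := by decide +kernel

theorem qMap_one : qMap 1 = 1 := by decide +kernel

theorem qMap_a1 : qMap (a 1) = qI := by decide +kernel

theorem qMap_xa0 : qMap (xa 0) = qJ := by decide +kernel

theorem qMap_a1_xa0 : qMap (a 1 * xa 0) = qI * qJ := by decide +kernel

variable {Y : Type*} [Group Y]

/-- A homomorphism out of `SL₂(3)`, from a homomorphism out of `Q₈` and a compatible element of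
order dividing three. -/
theorem exists_hom (f : Q₈ →* Y) (y : Y) (hy : y ^ 3 = 1) (h1 : y * f (a 1) * y⁻¹ = f (xa 0))
    (h2 : y * f (xa 0) * y⁻¹ = f (a 1) * f (xa 0)) :
    ∃ Ψ : G3 →* Y, (∀ x, Ψ (qMap x) = f x) ∧ Ψ b = y ∧ ∀ g, ∃ x, ∃ m : Fin 3, Ψ g = f x * y ^ (m : ℕ) := by
  choose th hth using conj_q
  have hthmul : ∀ x x', th (x * x') = th x * th x' := by
    intro x x'
    apply qMap_inj
    rw [qMap_mul, ← hth, ← hth, ← hth, qMap_mul]
    group
  let θ : Q₈ →* Q₈ := MonoidHom.mk' th hthmul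
  have hθ : ∀ x, b * qMap x * b⁻¹ = qMap (θ x) := hth
  have hθ1 : θ (a 1) = xa 0 := by
    apply qMap_inj
    rw [← hθ, qMap_a1, b_qI, qMap_xa0]
  have hθ2 : θ (xa 0) = a 1 * xa 0 := by
    apply qMap_inj
    rw [← hθ, qMap_xa0, b_qJ, qMap_a1_xa0]
  have hcompat : ∀ x, f (θ x) = y * f x * y⁻¹ := by
    intro x
    obtain ⟨m, n, rfl⟩ := q8_gen x
    simp only [map_mul, map_pow, hθ1, hθ2]
    have e0 : y * (f (a 1) ^ (m : ℕ) * f (xa 0) ^ (n : ℕ)) * y⁻¹
        = (y * f (a 1) ^ (m : ℕ) * y⁻¹) * (y * f (xa 0) ^ (n : ℕ) * y⁻¹) := by group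
    rw [e0, ← conj_pow, ← conj_pow, h1, h2]
  have hiter : ∀ (m : ℕ) (x : Q₈), b ^ m * qMap x * (b ^ m)⁻¹ = qMap (θ^[m] x) := by
    intro m
    induction m with
    | zero => intro x; simp
    | succ m ih =>
      intro x
      rw [Function.iterate_succ_apply', ← hθ, ← ih, pow_succ']
      group
  have hiter2 : ∀ (m : ℕ) (x : Q₈), f (θ^[m] x) = y ^ m * f x * (y ^ m)⁻¹ := by
    intro m
    induction m with
    | zero => intro x; simp
    | succ m ih =>
      intro x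
      rw [Function.iterate_succ_apply', hcompat, ih, pow_succ']
      group
  choose c d hcd using decomp
  have hmul : ∀ g g', f (c (g * g')) * y ^ (d (g * g') : ℕ) = f (c g) * y ^ (d g : ℕ) * (f (c g') * y ^ (d g' : ℕ)) := by
    intro g g'
    have e1 : g * g' = qMap (c g * θ^[(d g : ℕ)] (c g')) * b ^ ((((d g : ℕ) + (d g' : ℕ)) % 3 : ℕ)) := by
      have e2 : b ^ ((((d g : ℕ) + (d g' : ℕ)) % 3 : ℕ)) = b ^ ((d g : ℕ) + (d g' : ℕ)) :=
        (pow_eq_pow_mod _ b_cube).symm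
      rw [e2, qMap_mul, ← hiter]
      conv_lhs => rw [hcd g, hcd g']
      rw [pow_add]
      group
    have e3 : g * g' = qMap (c (g * g')) * b ^ (d (g * g') : ℕ) := hcd _
    have e4 := decomp_uniq (c (g * g')) (c g * θ^[(d g : ℕ)] (c g')) (d (g * g'))
      ⟨((d g : ℕ) + (d g' : ℕ)) % 3, Nat.mod_lt _ (by norm_num)⟩ (e3.symm.trans e1)
    rw [e4.1, e4.2]
    show f _ * y ^ (((d g : ℕ) + (d g' : ℕ)) % 3) = _
    rw [← pow_eq_pow_mod _ hy, map_mul, hiter2, pow_add]
    group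
  let Ψ : G3 →* Y := MonoidHom.mk' (fun g => f (c g) * y ^ (d g : ℕ)) hmul
  have hΨ : ∀ g, Ψ g = f (c g) * y ^ (d g : ℕ) := fun _ => rfl
  refine ⟨Ψ, ?_, ?_, ?_⟩
  · intro x
    have e1 : qMap x = qMap x * b ^ ((0 : Fin 3) : ℕ) := by simp
    have e2 := decomp_uniq _ _ _ _ ((hcd (qMap x)).symm.trans e1)
    rw [hΨ, e2.1, e2.2]
    simp
  · have e1 : b = qMap 1 * b ^ ((1 : Fin 3) : ℕ) := by
      rw [qMap_one, one_mul]
      show b = b ^ 1
      rw [pow_one]
    have e2 := decomp_uniq _ _ _ _ ((hcd b).symm.trans e1)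
    rw [hΨ, e2.1, e2.2]
    show f 1 * y ^ 1 = y
    rw [map_one, one_mul, pow_one]
  · intro g
    exact ⟨c g, d g, hΨ g⟩

end G3

end Cfsg.Agent.Lib.Coprime.SL2Q8
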