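import Mathlib
import Cfsg.Prelude.Def_KGroupFacts

/-!
Basic tools for stem extensions: twisted products from biadditive maps, transport along
isomorphisms and universes, and generation of the commutator subgroup.
-/

set_option autoImplicit false

namespace Cfsg.Agent.Lib.Coprime.SchurBasic

open Subgroup

/-- A map `X × X → T` additive in each variable. -/
structure BiAdd (X T : Type*) [Group X] [AddCommGroup T] where
  toFun : X → X → T
  map_mul_left : ∀ x x' y, toFun (x * x') y = toFun x y + toFun x' y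
  map_mul_right : ∀ x y y', toFun x (y * y') = toFun x y + toFun x y'

variable {X T : Type*} [Group X] [AddCommGroup T]

theorem BiAdd.one_left (β : BiAdd X T) (y : X) : β.toFun 1 y = 0 := by
  have h := β.map_mul_left 1 1 y
  rw [mul_one] at h
  exact left_eq_add.mp h

theorem BiAdd.one_right (β : BiAdd X T) (x : X) : β.toFun x 1 = 0 := by
  have h := β.map_mul_right x 1 1
  rw [mul_one] at h
  exact left_eq_add.mp h

/-- The central extension of `X` by `T` with cocycle `β`. -/
@[ext]
structure Twist (β : BiAdd X T) where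
  fst : X
  snd : T

namespace Twist

variable {β : BiAdd X T}

instance : Mul (Twist β) := ⟨fun a b => ⟨a.fst * b.fst, a.snd + b.snd + β.toFun a.fst b.fst⟩⟩
instance : One (Twist β) := ⟨⟨1, 0⟩⟩
instance : Inv (Twist β) := ⟨fun a => ⟨a.fst⁻¹, -a.snd - β.toFun a.fst⁻¹ a.fst⟩⟩

@[simp] theorem mul_fst (a b : Twist β) : (a * b).fst = a.fst * b.fst := rfl
@[simp] theorem mul_snd (a b : Twist β) : (a * b).snd = a.snd + b.snd + β.toFun a.fst b.fst := rfl
@[simp] theorem one_fst : (1 : Twist β).fst = 1 := rfl
@[simp] theorem one_snd : (1 : Twist β).snd = 0 := rfl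
@[simp] theorem inv_fst (a : Twist β) : (a⁻¹).fst = a.fst⁻¹ := rfl
@[simp] theorem inv_snd (a : Twist β) : (a⁻¹).snd = -a.snd - β.toFun a.fst⁻¹ a.fst := rfl

instance : Group (Twist β) :=
  Group.ofLeftAxioms
    (by
      intro a b c
      apply Twist.ext
      · simp [mul_assoc]
      · simp only [mul_snd, mul_fst, β.map_mul_left, β.map_mul_right]
        abel)
    (by
      intro a
      apply Twist.ext
      · simp
      · simp [β.one_left])
    (by
      intro a
      apply Twist.ext
      · simp
      · simp only [mul_snd, inv_snd, inv_fst, one_snd]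
        abel)

/-- The projection. -/
def proj : Twist β →* X where
  toFun a := a.fst
  map_one' := rfl
  map_mul' _ _ := rfl

@[simp] theorem proj_apply (a : Twist β) : proj a = a.fst := rfl

theorem proj_surjective : Function.Surjective (proj : Twist β →* X) := fun x => ⟨⟨x, 0⟩, rfl⟩

theorem mem_ker_proj {a : Twist β} : a ∈ (proj : Twist β →* X).ker ↔ a.fst = 1 := Iff.rfl

instance [Finite X] [Finite T] : Finite (Twist β) :=
  Finite.of_injective (fun a : Twist β => (a.fst, a.snd)) (by
    intro a b h
    simp only [Prod.mk.injEq] at h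
    exact Twist.ext h.1 h.2)

/-- The central elements `(1, t)`. -/
def inc (t : T) : Twist β := ⟨1, t⟩

theorem inc_mul_comm (t : T) (a : Twist β) : inc t * a = a * inc t := by
  apply Twist.ext
  · simp [inc]
  · simp [inc, β.one_left, β.one_right, add_comm]

/-- Kernel of the projection is central. -/
theorem ker_proj_le_center : (proj : Twist β →* X).ker ≤ center (Twist β) := by
  intro a ha
  rw [mem_center_iff]
  intro b
  have h1 : a = inc a.snd := Twist.ext ha rfl
  rw [h1]
  exact (inc_mul_comm _ _).symm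

/-- The kernel of the projection to `T`. -/
def kerHom : (proj : Twist β →* X).ker →* Multiplicative T where
  toFun := fun a => Multiplicative.ofAdd (a : Twist β).snd
  map_one' := rfl
  map_mul' := by
    rintro ⟨a, ha⟩ ⟨b, hb⟩
    have ha' : a.fst = 1 := ha
    show Multiplicative.ofAdd (a * b).snd = _
    rw [mul_snd, ha', β.one_left, add_zero]
    rfl

/-- The kernel of the projection is `T`. -/
noncomputable def kerEquiv : (proj : Twist β →* X).ker ≃* Multiplicative T :=
  MulEquiv.ofBijective kerHom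
    ⟨by
      rintro ⟨a, ha⟩ ⟨b, hb⟩ h
      have ha' : a.fst = 1 := ha
      have hb' : b.fst = 1 := hb
      apply Subtype.ext
      apply Twist.ext
      · rw [ha', hb']
      · exact Multiplicative.ofAdd.injective h,
    fun t => ⟨⟨⟨1, t.toAdd⟩, rfl⟩, rfl⟩⟩

theorem inc_add (s t : T) : (inc (s + t) : Twist β) = inc s * inc t := by
  apply Twist.ext
  · simp [inc]
  · simp [inc, β.one_left]

/-- `inc` as a homomorphism. -/
def incHom : Multiplicative T →* Twist β where
  toFun t := inc t.toAdd
  map_one' := rfl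
  map_mul' s t := inc_add s.toAdd t.toAdd

theorem commutator_eq_inc {x y : X} (hxy : x * y = y * x) :
    (⟨x, 0⟩ : Twist β) * ⟨y, 0⟩ * (⟨x, 0⟩ : Twist β)⁻¹ * (⟨y, 0⟩ : Twist β)⁻¹ =
      inc (β.toFun x y - β.toFun y x) := by
  have h1 : (⟨x, 0⟩ : Twist β) * ⟨y, 0⟩ =
      inc (β.toFun x y - β.toFun y x) * ((⟨y, 0⟩ : Twist β) * ⟨x, 0⟩) := by
    apply Twist.ext
    · simp [inc, hxy]
    · simp [inc, β.one_left]
  have h2 : (⟨x, 0⟩ : Twist β) * ⟨y, 0⟩ * (⟨x, 0⟩ : Twist β)⁻¹ * (⟨y, 0⟩ : Twist β)⁻¹ =
      ((⟨x, 0⟩ : Twist β) * ⟨y, 0⟩) * ((⟨y, 0⟩ : Twist β) * ⟨x, 0⟩)⁻¹ := by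
    group
  rw [h2, h1]
  group

theorem inc_mem_commutator {x y : X} (hxy : x * y = y * x) :
    (inc (β.toFun x y - β.toFun y x) : Twist β) ∈ commutator (Twist β) := by
  rw [← commutator_eq_inc hxy]
  exact Subgroup.commutator_mem_commutator (mem_top _) (mem_top _)

end Twist

theorem map_commutator_le {A B : Type*} [Group A] [Group B] (f : A →* B) :
    (commutator A).map f ≤ commutator B := by
  rw [_root_.commutator_def, _root_.commutator_def, Subgroup.map_commutator]
  exact Subgroup.commutator_mono le_top le_top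

theorem mem_commutator_map {A B : Type*} [Group A] [Group B] (f : A →* B) {x : A}
    (hx : x ∈ commutator A) : f x ∈ commutator B :=
  map_commutator_le f ⟨x, hx, rfl⟩

theorem map_commutator_of_surjective {A B : Type*} [Group A] [Group B] (f : A →* B)
    (hf : Function.Surjective f) : (commutator A).map f = commutator B := by
  rw [_root_.commutator_def, _root_.commutator_def, Subgroup.map_commutator,
    ← MonoidHom.range_eq_map, MonoidHom.range_eq_top.mpr hf]

/-- Transport of a stem extension along an isomorphism of the source. -/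
theorem isStem_comp_equiv {Γ Γ' Q : Type*} [Group Γ] [Group Γ'] [Group Q] (e : Γ' ≃* Γ) (σ : Γ →* Q)
    (h : Cfsg.IsStemExtension σ) : Cfsg.IsStemExtension (σ.comp e.toMonoidHom) := by
  refine ⟨h.1.comp e.surjective, ?_, ?_⟩
  · intro x hx
    have h1 : e x ∈ σ.ker := hx
    have h2 := h.2.1 h1
    rw [mem_center_iff] at h2 ⊢
    intro g
    apply e.injective
    rw [map_mul, map_mul]
    exact h2 (e g)
  · intro x hx
    have h1 : e x ∈ σ.ker := hx
    have h2 := h.2.2 h1
    have h5 := mem_commutator_map e.symm.toMonoidHom h2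
    simpa using h5

/-- The kernel after composing with an isomorphism. -/
def kerCompHom {Γ Γ' Q : Type*} [Group Γ] [Group Γ'] [Group Q] (e : Γ' ≃* Γ)
    (σ : Γ →* Q) : (σ.comp e.toMonoidHom).ker →* σ.ker where
  toFun := fun a => ⟨e a, a.2⟩
  map_one' := by apply Subtype.ext; simp
  map_mul' := by
    intro a b
    apply Subtype.ext
    show e ((a : Γ') * (b : Γ')) = e a * e b
    rw [map_mul]

/-- The kernel after composing with an isomorphism. -/
noncomputable def kerCompEquiv {Γ Γ' Q : Type*} [Group Γ] [Group Γ'] [Group Q] (e : Γ' ≃* Γ)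
    (σ : Γ →* Q) : (σ.comp e.toMonoidHom).ker ≃* σ.ker :=
  MulEquiv.ofBijective (kerCompHom e σ)
    ⟨by
      intro a b h
      apply Subtype.ext
      apply e.injective
      exact congrArg (fun z : σ.ker => (z : Γ)) h,
    fun b => ⟨⟨e.symm b, by
      show σ (e (e.symm b)) = 1
      rw [MulEquiv.apply_symm_apply]
      exact b.2⟩, by
      apply Subtype.ext
      show e (e.symm b) = b
      rw [MulEquiv.apply_symm_apply]⟩⟩

universe a b

/-- A copy of `Fin n` in a given universe without any extra structure. -/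
def CopyCarrier (n : ℕ) : Type b := ULift.{b} (Fin n)

/-- A finite group has an isomorphic copy in every universe. -/
theorem exists_copy (Y : Type a) [Group Y] [Finite Y] :
    ∃ (Y' : Type b) (_ : Group Y') (_ : Finite Y'), Nonempty (Y' ≃* Y) := by
  classical
  obtain ⟨n, ⟨e⟩⟩ := Finite.exists_equiv_fin Y
  let e' : CopyCarrier.{b} n ≃ Y := Equiv.ulift.trans e.symm
  letI : Group (CopyCarrier.{b} n) := e'.group
  haveI : Finite (CopyCarrier.{b} n) := Finite.of_equiv Y e'.symm
  exact ⟨CopyCarrier.{b} n, inferInstance, inferInstance, ⟨e'.mulEquiv⟩⟩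

/-- If generators commute modulo a normal subgroup, then the commutator subgroup is inside. -/
theorem commutator_le_of_closure {Γ : Type*} [Group Γ] (K : Subgroup Γ) [K.Normal] (S : Set Γ)
    (hS : closure S = ⊤) (h : ∀ u ∈ S, ∀ v ∈ S, u * v * u⁻¹ * v⁻¹ ∈ K) : commutator Γ ≤ K := by
  classical
  let mk := QuotientGroup.mk' K
  have hcomm : ∀ x ∈ mk '' S, ∀ y ∈ mk '' S, x * y = y * x := by
    rintro _ ⟨u, hu, rfl⟩ _ ⟨v, hv, rfl⟩
    have h1 : mk (u * v * u⁻¹ * v⁻¹) = 1 := (QuotientGroup.eq_one_iff _).mpr (h u hu v hv)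
    have h2 : mk u * mk v * (mk u)⁻¹ * (mk v)⁻¹ = 1 := by
      simpa using h1
    have h3 : mk u * mk v * (mk u)⁻¹ = mk v := by
      rwa [mul_inv_eq_one] at h2
    have h4 : mk u * mk v = mk v * mk u := by
      rwa [mul_inv_eq_iff_eq_mul] at h3
    exact h4
  have htop : closure (mk '' S) = ⊤ := by
    rw [← MonoidHom.map_closure, hS, ← MonoidHom.range_eq_map,
      MonoidHom.range_eq_top.mpr (QuotientGroup.mk'_surjective K)]
  have hcc := Subgroup.isMulCommutative_closure hcomm
  have hall : ∀ x y : Γ ⧸ K, x * y = y * x := by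
    intro x y
    have hx : x ∈ closure (mk '' S) := by rw [htop]; trivial
    have hy : y ∈ closure (mk '' S) := by rw [htop]; trivial
    have := hcc.is_comm.comm (⟨x, hx⟩ : closure (mk '' S)) ⟨y, hy⟩
    exact congrArg (fun z : closure (mk '' S) => (z : Γ ⧸ K)) this
  rw [commutator_def, Subgroup.commutator_le]
  intro g _ h' _
  have h5 : mk g * mk h' = mk h' * mk g := hall _ _
  have h6 : mk (g * h' * g⁻¹ * h'⁻¹) = 1 := by
    simp only [map_mul, map_inv, h5]
    group
  exact (QuotientGroup.eq_one_iff _).mp h6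

/-- A homomorphism out of `Multiplicative (ZMod n)` with a given image of `1`. -/
theorem exists_zmod_hom {C : Type*} [CommGroup C] (n : ℕ) (c : C) (hc : c ^ n = 1) :
    ∃ π : Multiplicative (ZMod n) →* C, ∀ i : ℤ, π (Multiplicative.ofAdd (i : ZMod n)) = c ^ i := by
  let f : ℤ →+ Additive C := zmultiplesHom (Additive C) (Additive.ofMul c)
  have hf : f n = 0 := by
    show (n : ℤ) • Additive.ofMul c = 0
    rw [natCast_zsmul, ← ofMul_pow, hc]
    rfl
  refine ⟨AddMonoidHom.toMultiplicativeLeft (ZMod.lift n ⟨f, hf⟩), ?_⟩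
  intro i
  show Additive.toMul (ZMod.lift n ⟨f, hf⟩ (i : ZMod n)) = c ^ i
  rw [ZMod.lift_coe]
  show Additive.toMul (i • Additive.ofMul c) = c ^ i
  rw [← ofMul_zpow]
  rfl

end Cfsg.Agent.Lib.Coprime.SchurBasic
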