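import Mathlib
import Cfsg.Agent.Lib.Coprime.SchurBasic

/-!
For a central extension `ξ : L →* Q` with `Q` finite there is a finite stem extension of `Q` whose
kernel is isomorphic to `ker ξ ⊓ L'`.  The proof embeds `ker ξ` into a divisible abelian group.
-/

set_option autoImplicit false

namespace Cfsg.Agent.Lib.Coprime.SchurExt

open Subgroup Cfsg.Agent.Lib.Coprime.SchurBasic

universe u v w

/-- Homomorphisms into a divisible abelian group extend along injections. -/
theorem ext_hom {X Y D : Type*} [CommGroup X] [CommGroup Y] [CommGroup D]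
    (hdiv : ∀ (n : ℕ) (d : D), n ≠ 0 → ∃ y : D, y ^ n = d)
    (f : X →* Y) (hf : Function.Injective f) (g : X →* D) : ∃ h : Y →* D, h.comp f = g := by
  classical
  letI : DivisibleBy (Additive D) ℕ := divisibleByOfSMulRightSurj (Additive D) ℕ (by
    intro n hn d
    obtain ⟨y, hy⟩ := hdiv n d.toMul hn
    exact ⟨Additive.ofMul y, by
      show Additive.ofMul (y ^ n) = d
      rw [hy]; rfl⟩)
  letI : DivisibleBy (Additive D) ℤ := AddGroup.divisibleByIntOfDivisibleByNat _
  obtain ⟨h, hh⟩ := (Module.Baer.of_divisible (Additive D)).extension_property_addMonoidHom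
    f.toAdditive hf g.toAdditive
  refine ⟨MonoidHom.toAdditive.symm h, ?_⟩
  ext x
  have := congrArg (fun k : Additive X →+ Additive D => k (Additive.ofMul x)) hh
  exact this

/-- A divisible abelian group into which a finite subgroup embeds. -/
theorem exists_div_embedding {E : Type u} [CommGroup E] (E₁ : Subgroup E) :
    ∃ (I : Type u) (_ : CommGroup I), (∀ (n : ℕ) (d : I), n ≠ 0 → ∃ y : I, y ^ n = d) ∧
      ∃ χ : E →* I, ∀ e ∈ E₁, χ e = 1 → e = 1 := by
  classical
  -- the circle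
  let D := Multiplicative (AddCircle (1 : ℚ))
  have hdivD : ∀ (n : ℕ) (d : D), n ≠ 0 → ∃ y : D, y ^ n = d := by
    intro n d hn
    have hn' : (n : ℤ) ≠ 0 := by exact_mod_cast hn
    refine ⟨Multiplicative.ofAdd (DivisibleBy.div d.toAdd (n : ℤ)), ?_⟩
    apply Multiplicative.toAdd.injective
    show n • (DivisibleBy.div d.toAdd (n : ℤ)) = d.toAdd
    rw [← natCast_zsmul]
    exact DivisibleBy.div_cancel _ hn'
  -- extend characters
  have hext : ∀ c : CharacterModule (Additive E₁), ∃ h : E →* D,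
      h.comp E₁.subtype = AddMonoidHom.toMultiplicativeRight c :=
    fun c => ext_hom hdivD E₁.subtype E₁.subtype_injective _
  choose ext hext using hext
  let I := CharacterModule (Additive E₁) → D
  refine ⟨I, inferInstance, ?_, ?_⟩
  · intro n d hn
    choose y hy using fun c => hdivD n (d c) hn
    exact ⟨y, funext hy⟩
  · let χ : E →* I :=
      { toFun := fun e c => ext c e
        map_one' := by funext c; exact map_one _
        map_mul' := by intro a b; funext c; exact map_mul _ a b }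
    refine ⟨χ, ?_⟩
    intro e he hχ
    have h1 : Additive.ofMul (⟨e, he⟩ : E₁) = 0 := by
      apply CharacterModule.eq_zero_of_character_apply
      intro c
      have h2 : χ e c = 1 := by rw [hχ]; rfl
      have h3 := congrArg (fun k : E₁ →* D => k ⟨e, he⟩) (hext c)
      have h4 : ext c e = Multiplicative.ofAdd (c (Additive.ofMul ⟨e, he⟩)) := h3
      have h5 : ext c e = 1 := h2
      rw [h5] at h4
      exact (Multiplicative.ofAdd.injective (h4.symm.trans rfl))
    have h2 : (⟨e, he⟩ : E₁) = 1 := Additive.ofMul.injective h1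
    exact congrArg Subtype.val h2

/-- Finite source from finite kernel and finite target. -/
theorem finite_of_ker {A B : Type*} [Group A] [Group B] [Finite B] (f : A →* B)
    (hf : Function.Surjective f) [Finite f.ker] : Finite A := by
  have e := QuotientGroup.quotientKerEquivOfSurjective f hf
  haveI : Finite (A ⧸ f.ker) := Finite.of_equiv B e.symm.toEquiv
  exact Finite.of_equiv _ (Subgroup.groupEquivQuotientProdSubgroup (s := f.ker)).symm

section aux

variable {E : Type u} {L : Type v} {Q : Type w} [CommGroup E] [Group L] [Group Q]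

/-- The construction for a central extension with a commutative kernel. -/
theorem stem_of_central_aux (ι : E →* L) (ξ : L →* Q) (hι : Function.Injective ι)
    (hex : ι.range = ξ.ker) (hcen : ∀ e l, ι e * l = l * ι e) (hs : Function.Surjective ξ)
    [Finite Q] (hfin : Finite ((commutator L).comap ι)) :
    ∃ (L₀ : Type (max u v)) (_ : Group L₀) (_ : Finite L₀) (σ : L₀ →* Q),
      Cfsg.IsStemExtension σ ∧ Nonempty (((commutator L).comap ι) ≃* σ.ker) := by
  classical
  obtain ⟨E₁, hE₁⟩ : ∃ E₁, E₁ = (commutator L).comap ι := ⟨_, rfl⟩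
  rw [← hE₁] at hfin ⊢
  obtain ⟨I, _, hdiv, χ, hχ⟩ := exists_div_embedding E₁
  obtain ⟨J, hJ⟩ : ∃ J : Subgroup I, J = E₁.map χ := ⟨_, rfl⟩
  have hdiv' : ∀ (n : ℕ) (d : I ⧸ J), n ≠ 0 → ∃ y : I ⧸ J, y ^ n = d := by
    intro n d hn
    induction d using QuotientGroup.induction_on with
    | H d =>
      obtain ⟨y, hy⟩ := hdiv n d hn
      exact ⟨(y : I ⧸ J), by rw [← QuotientGroup.mk_pow, hy]⟩
  -- the map to the abelianization
  let p : E →* Abelianization L := Abelianization.of.comp ι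
  have hpk : p.ker = E₁ := by
    rw [hE₁]
    ext x
    rw [MonoidHom.mem_ker, Subgroup.mem_comap]
    show Abelianization.of (ι x) = 1 ↔ _
    rw [← MonoidHom.mem_ker, Abelianization.ker_of]
  let θ₀ : E →* I ⧸ J := (QuotientGroup.mk' J).comp χ
  have hθ₀ : p.ker ≤ θ₀.ker := by
    rw [hpk]
    intro x hx
    rw [MonoidHom.mem_ker]
    show ((χ x : I) : I ⧸ J) = 1
    rw [QuotientGroup.eq_one_iff, hJ]
    exact ⟨x, hx, rfl⟩
  obtain ⟨h, hh⟩ := ext_hom hdiv' (QuotientGroup.kerLift p) (QuotientGroup.kerLift_injective p)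
    (QuotientGroup.lift p.ker θ₀ hθ₀)
  let θ : L →* I ⧸ J := h.comp Abelianization.of
  have hθ : ∀ e, θ (ι e) = ((χ e : I) : I ⧸ J) := by
    intro e
    have := congrArg (fun k : E ⧸ p.ker →* I ⧸ J => k ((e : E ⧸ p.ker))) hh
    exact this
  let Θ : L × I →* I ⧸ J := θ.coprod (QuotientGroup.mk' J)
  have hΘ : ∀ l x, Θ (l, x) = θ l * ((x : I) : I ⧸ J) := fun _ _ => rfl
  obtain ⟨Y, hY⟩ : ∃ Y : Subgroup (L × I), Y = Θ.ker := ⟨_, rfl⟩
  have hYmem : ∀ y : L × I, y ∈ Y ↔ θ y.1 * ((y.2 : I) : I ⧸ J) = 1 := by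
    intro y
    rw [hY]
    exact Iff.rfl
  -- the subgroup to kill
  have hjY : ∀ e : E, ((ι e, (χ e)⁻¹) : L × I) ∈ Y := by
    intro e
    rw [hYmem]
    show θ (ι e) * (((χ e)⁻¹ : I) : I ⧸ J) = 1
    rw [hθ, QuotientGroup.mk_inv, mul_inv_cancel]
  let j : E →* Y :=
    { toFun := fun e => ⟨(ι e, (χ e)⁻¹), hjY e⟩
      map_one' := by
        apply Subtype.ext
        simp
      map_mul' := by
        intro a b
        apply Subtype.ext
        simp [mul_comm] }
  obtain ⟨N, hN⟩ : ∃ N : Subgroup Y, N = j.range := ⟨_, rfl⟩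
  have hcentY : ∀ (e : E) (x : I) (hm : ((ι e, x) : L × I) ∈ Y) (y : Y),
      (⟨(ι e, x), hm⟩ : Y) * y = y * ⟨(ι e, x), hm⟩ := by
    intro e x hm y
    apply Subtype.ext
    apply Prod.ext
    · exact hcen e y.1.1
    · exact mul_comm _ _
  haveI hNn : N.Normal := by
    constructor
    intro n hn g
    rw [hN] at hn ⊢
    obtain ⟨e, rfl⟩ := hn
    refine ⟨e, ?_⟩
    have := hcentY e (χ e)⁻¹ (hjY e) g
    show (⟨(ι e, (χ e)⁻¹), hjY e⟩ : Y) = g * ⟨(ι e, (χ e)⁻¹), hjY e⟩ * g⁻¹
    rw [← this]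
    group
  let σ₀ : Y →* Q := ξ.comp ((MonoidHom.fst L I).comp Y.subtype)
  have hιξ : ∀ e, ξ (ι e) = 1 := by
    intro e
    have : ι e ∈ ξ.ker := hex ▸ ⟨e, rfl⟩
    exact this
  have hNk : N ≤ σ₀.ker := by
    rw [hN]
    rintro _ ⟨e, rfl⟩
    exact hιξ e
  let σ : Y ⧸ N →* Q := QuotientGroup.lift N σ₀ hNk
  have hσmk : ∀ y : Y, σ (y : Y ⧸ N) = ξ y.1.1 := fun _ => rfl
  have hsurj : Function.Surjective σ := by
    intro q
    obtain ⟨l, rfl⟩ := hs q
    obtain ⟨x, hx⟩ := QuotientGroup.mk'_surjective J (θ l)⁻¹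
    have hm : ((l, x) : L × I) ∈ Y := by
      rw [hYmem]
      show θ l * (QuotientGroup.mk' J x) = 1
      rw [hx, mul_inv_cancel]
    exact ⟨((⟨(l, x), hm⟩ : Y) : Y ⧸ N), rfl⟩
  -- kernel description
  have hE₁Y : ∀ e₁ ∈ E₁, ((ι e₁, 1) : L × I) ∈ Y := by
    intro e₁ he₁
    rw [hYmem]
    show θ (ι e₁) * (((1 : I)) : I ⧸ J) = 1
    rw [hθ, QuotientGroup.mk_one, mul_one, QuotientGroup.eq_one_iff, hJ]
    exact ⟨e₁, he₁, rfl⟩
  let ψ₀ : E₁ →* Y :=
    { toFun := fun e => ⟨(ι e, 1), hE₁Y e e.2⟩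
      map_one' := by
        apply Subtype.ext
        simp
      map_mul' := by
        intro a b
        apply Subtype.ext
        simp }
  let ψ : E₁ →* Y ⧸ N := (QuotientGroup.mk' N).comp ψ₀
  have hψinj : Function.Injective ψ := by
    rw [injective_iff_map_eq_one]
    intro e he
    have h1 : ψ₀ e ∈ N := (QuotientGroup.eq_one_iff _).mp he
    rw [hN] at h1
    obtain ⟨e', he'⟩ := h1
    have h2 : (ι e', (χ e')⁻¹) = (ι e, (1 : I)) := congrArg Subtype.val he'
    have h3 : e' = e := hι (congrArg Prod.fst h2)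
    have h4 : (χ e')⁻¹ = 1 := congrArg Prod.snd h2
    rw [h3, inv_eq_one] at h4
    exact Subtype.ext (hχ _ e.2 h4)
  have hψσ : ∀ e, σ (ψ e) = 1 := fun e => hιξ e
  have hψker : ∀ z ∈ σ.ker, ∃ e, ψ e = z := by
    intro z hz
    induction z using QuotientGroup.induction_on with
    | H y =>
      have hy1 : ξ y.1.1 = 1 := hz
      have hy2 : y.1.1 ∈ ι.range := by rw [hex]; exact hy1
      obtain ⟨e, he⟩ := hy2
      have hyY := (hYmem y.1).mp y.2
      rw [← he, hθ, ← QuotientGroup.mk_mul, QuotientGroup.eq_one_iff, hJ] at hyY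
      obtain ⟨e₁, he₁, he₁'⟩ := hyY
      refine ⟨⟨e₁, he₁⟩, ?_⟩
      show ((ψ₀ ⟨e₁, he₁⟩ : Y) : Y ⧸ N) = (y : Y ⧸ N)
      rw [QuotientGroup.eq, hN]
      refine ⟨e₁⁻¹ * e, ?_⟩
      apply Subtype.ext
      apply Prod.ext
      · show ι (e₁⁻¹ * e) = (ι e₁)⁻¹ * y.1.1
        rw [map_mul, map_inv, he]
      · show (χ (e₁⁻¹ * e))⁻¹ = (1 : I)⁻¹ * y.1.2
        rw [map_mul, map_inv, he₁', inv_one, one_mul]
        show ((χ e * y.1.2)⁻¹ * χ e)⁻¹ = y.1.2
        group
  let ψ' : E₁ →* σ.ker := ψ.codRestrict σ.ker hψσ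
  have hψ'bij : Function.Bijective ψ' := by
    constructor
    · intro a b hab
      apply hψinj
      exact congrArg (fun z : σ.ker => (z : Y ⧸ N)) hab
    · rintro ⟨z, hz⟩
      obtain ⟨e, he⟩ := hψker z hz
      exact ⟨e, Subtype.ext he⟩
  haveI : Finite σ.ker := Finite.of_surjective ψ' hψ'bij.2
  haveI hfinL : Finite (Y ⧸ N) := finite_of_ker σ hsurj
  refine ⟨Y ⧸ N, inferInstance, hfinL, σ, ⟨hsurj, ?_, ?_⟩, ⟨MulEquiv.ofBijective ψ' hψ'bij⟩⟩
  · intro z hz
    obtain ⟨e, rfl⟩ := hψker z hz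
    rw [mem_center_iff]
    intro w
    induction w using QuotientGroup.induction_on with
    | H w =>
      have h1 := hcentY e.1 1 (hE₁Y e.1 e.2) w
      show ((w : Y ⧸ N)) * ((ψ₀ e : Y) : Y ⧸ N) = ((ψ₀ e : Y) : Y ⧸ N) * (w : Y ⧸ N)
      rw [← QuotientGroup.mk_mul, ← QuotientGroup.mk_mul]
      exact congrArg (fun t : Y => (t : Y ⧸ N)) h1.symm
  · intro z hz
    obtain ⟨e, rfl⟩ := hψker z hz
    -- lift `ι e` to the commutator of `Y`
    let π₁ : Y →* L := (MonoidHom.fst L I).comp Y.subtype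
    let π₂ : Y →* I := (MonoidHom.snd L I).comp Y.subtype
    have hπ₁ : Function.Surjective π₁ := by
      intro l
      obtain ⟨x, hx⟩ := QuotientGroup.mk'_surjective J (θ l)⁻¹
      have hm : ((l, x) : L × I) ∈ Y := by
        rw [hYmem]
        show θ l * (QuotientGroup.mk' J x) = 1
        rw [hx, mul_inv_cancel]
      exact ⟨⟨(l, x), hm⟩, rfl⟩
    have h1 : ι e ∈ commutator L := by
      have h0 : (e : E) ∈ (commutator L).comap ι := hE₁ ▸ e.2
      exact h0
    rw [← map_commutator_of_surjective π₁ hπ₁] at h1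
    obtain ⟨y', hy', hy'e⟩ := h1
    have hIab : commutator I = ⊥ := by
      rw [_root_.commutator_eq_bot_iff_center_eq_top]
      exact CommGroup.center_eq_top
    have h2 : π₂ y' ∈ commutator I := mem_commutator_map π₂ hy'
    rw [hIab, Subgroup.mem_bot] at h2
    have h3 : y' = ψ₀ e := by
      apply Subtype.ext
      apply Prod.ext
      · exact hy'e
      · exact h2
    rw [h3] at hy'
    exact mem_commutator_map (QuotientGroup.mk' N) hy'

end aux

section main

variable {L : Type u} {Q : Type v} [Group L] [Group Q]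

/-- Center of finite index implies finite commutator subgroup. -/
theorem finite_commutator_of_central [Finite Q] (ξ : L →* Q) (hc : ξ.ker ≤ center L)
    (hs : Function.Surjective ξ) : Finite (commutator L) := by
  classical
  haveI : Finite (L ⧸ ξ.ker) :=
    Finite.of_equiv Q (QuotientGroup.quotientKerEquivOfSurjective ξ hs).symm.toEquiv
  haveI : Finite (L ⧸ center L) :=
    Finite.of_surjective (QuotientGroup.map ξ.ker (center L) (MonoidHom.id L) (by simpa using hc))
      (by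
        intro z
        induction z using QuotientGroup.induction_on with
        | H z => exact ⟨(z : L ⧸ ξ.ker), rfl⟩)
  have hfin : Finite (commutatorSet L) := by
    obtain ⟨rep, hrep⟩ : ∃ rep : L ⧸ center L → L, ∀ q, (rep q : L ⧸ center L) = q :=
      ⟨Quotient.out, Quotient.out_eq⟩
    have hsub : commutatorSet L ⊆ Set.range (fun p : (L ⧸ center L) × (L ⧸ center L) =>
        rep p.1 * rep p.2 * (rep p.1)⁻¹ * (rep p.2)⁻¹) := by
      rintro _ ⟨a, b, rfl⟩
      refine ⟨((a : L ⧸ center L), (b : L ⧸ center L)), ?_⟩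
      have ha : (rep (a : L ⧸ center L))⁻¹ * a ∈ center L := QuotientGroup.eq.mp (hrep _)
      have hb : (rep (b : L ⧸ center L))⁻¹ * b ∈ center L := QuotientGroup.eq.mp (hrep _)
      obtain ⟨r, hr⟩ : ∃ r, r = rep (a : L ⧸ center L) := ⟨_, rfl⟩
      obtain ⟨t, ht⟩ : ∃ t, t = rep (b : L ⧸ center L) := ⟨_, rfl⟩
      show rep _ * rep _ * (rep _)⁻¹ * (rep _)⁻¹ = _
      rw [← hr, ← ht] at ⊢
      rw [← hr] at ha
      rw [← ht] at hb
      obtain ⟨z, hz⟩ : ∃ z, z = r⁻¹ * a := ⟨_, rfl⟩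
      obtain ⟨w, hw⟩ : ∃ w, w = t⁻¹ * b := ⟨_, rfl⟩
      have ha' : a = r * z := by rw [hz]; group
      have hb' : b = t * w := by rw [hw]; group
      rw [← hz] at ha
      rw [← hw] at hb
      have hz' := mem_center_iff.mp ha
      have hw' := mem_center_iff.mp hb
      show _ = a * b * a⁻¹ * b⁻¹
      rw [ha', hb']
      have h1 : r * z * (t * w) * (r * z)⁻¹ = r * (t * w) * r⁻¹ := by
        have h0 : z * (t * w) = (t * w) * z := (hz' _).symm
        calc r * z * (t * w) * (r * z)⁻¹ = r * (z * (t * w)) * z⁻¹ * r⁻¹ := by group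
          _ = r * ((t * w) * z) * z⁻¹ * r⁻¹ := by rw [h0]
          _ = r * (t * w) * r⁻¹ := by group
      rw [h1]
      have h0 : w * r⁻¹ = r⁻¹ * w := (hw' _).symm
      calc r * t * r⁻¹ * t⁻¹ = r * t * (r⁻¹ * w) * w⁻¹ * t⁻¹ := by group
        _ = r * t * (w * r⁻¹) * w⁻¹ * t⁻¹ := by rw [h0]
        _ = r * (t * w) * r⁻¹ * (t * w)⁻¹ := by group
    exact (Set.finite_range _ |>.subset hsub)
  infer_instance

/-- Main theorem: a finite stem extension with kernel `ker ξ ⊓ L'`. -/
theorem exists_stem_of_central [Finite Q] (ξ : L →* Q) (hs : Function.Surjective ξ)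
    (hc : ξ.ker ≤ center L) :
    ∃ (L₀ : Type v) (_ : Group L₀) (_ : Finite L₀) (σ : L₀ →* Q),
      Cfsg.IsStemExtension σ ∧ Nonempty (σ.ker ≃* ↥(ξ.ker ⊓ commutator L)) := by
  classical
  haveI hfc := finite_commutator_of_central ξ hc hs
  letI cg : CommGroup ξ.ker := { (inferInstance : Group ξ.ker) with
    mul_comm := fun a b => Subtype.ext (mem_center_iff.mp (hc a.2) b).symm }
  have hfin : Finite ((commutator L).comap ξ.ker.subtype) := by
    apply Finite.of_injective (fun x : (commutator L).comap ξ.ker.subtype =>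
      (⟨(x : ξ.ker), x.2⟩ : commutator L))
    intro a b hab
    apply Subtype.ext
    apply Subtype.ext
    exact congrArg (fun z : commutator L => (z : L)) hab
  obtain ⟨L₀, _, _, σ, hσ, ⟨e⟩⟩ := stem_of_central_aux (E := ξ.ker) ξ.ker.subtype ξ
    ξ.ker.subtype_injective (Subgroup.range_subtype _) (fun a l => (mem_center_iff.mp (hc a.2) l).symm) hs hfin
  obtain ⟨L₁, _, _, ⟨f⟩⟩ := exists_copy.{_, v} L₀
  refine ⟨L₁, inferInstance, inferInstance, σ.comp f.toMonoidHom, isStem_comp_equiv f σ hσ, ?_⟩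
  refine ⟨(kerCompEquiv f σ).trans (e.symm.trans ?_)⟩
  let F : ↥((commutator L).comap ξ.ker.subtype) →* ↥(ξ.ker ⊓ commutator L) :=
    { toFun := fun x => ⟨(x : ξ.ker), Subgroup.mem_inf.mpr ⟨(x : ξ.ker).2, x.2⟩⟩
      map_one' := rfl
      map_mul' := fun _ _ => rfl }
  refine MulEquiv.ofBijective F ⟨?_, ?_⟩
  · intro a b hab
    apply Subtype.ext
    apply Subtype.ext
    exact congrArg (fun z : ↥(ξ.ker ⊓ commutator L) => (z : L)) hab
  · intro z
    exact ⟨⟨⟨z, (Subgroup.mem_inf.mp z.2).1⟩, (Subgroup.mem_inf.mp z.2).2⟩, rfl⟩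

end main

end Cfsg.Agent.Lib.Coprime.SchurExt
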