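import Mathlib
import Cfsg.Agent.Lib.Coprime.SchurExt
import Cfsg.Agent.Lib.Transfer.Hall

/-!
Pullbacks of central extensions, and consequences of the stem extension theorem.
-/

set_option autoImplicit false

namespace Cfsg.Agent.Lib.Coprime.SchurPull

open Subgroup Cfsg.Agent.Lib.Coprime.SchurBasic Cfsg.Agent.Lib.Coprime.SchurExt
open scoped commutatorElement

universe u v w

section pull

variable {Γ : Type u} {Δ : Type v} {Q : Type w} [Group Γ] [Group Δ] [Group Q]

/-- The fibre product of two homomorphisms. -/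
def pull (σ : Γ →* Q) (τ : Δ →* Q) : Subgroup (Γ × Δ) :=
  (σ.comp (MonoidHom.fst Γ Δ)).eqLocus (τ.comp (MonoidHom.snd Γ Δ))

theorem mem_pull {σ : Γ →* Q} {τ : Δ →* Q} {p : Γ × Δ} : p ∈ pull σ τ ↔ σ p.1 = τ p.2 := Iff.rfl

/-- First projection of the fibre product. -/
def pr₁ (σ : Γ →* Q) (τ : Δ →* Q) : pull σ τ →* Γ := (MonoidHom.fst Γ Δ).comp (pull σ τ).subtype

/-- Second projection of the fibre product. -/
def pr₂ (σ : Γ →* Q) (τ : Δ →* Q) : pull σ τ →* Δ := (MonoidHom.snd Γ Δ).comp (pull σ τ).subtype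

@[simp] theorem pr₁_apply (σ : Γ →* Q) (τ : Δ →* Q) (p : pull σ τ) : pr₁ σ τ p = p.1.1 := rfl
@[simp] theorem pr₂_apply (σ : Γ →* Q) (τ : Δ →* Q) (p : pull σ τ) : pr₂ σ τ p = p.1.2 := rfl

theorem pr₁_surjective (σ : Γ →* Q) {τ : Δ →* Q} (hτ : Function.Surjective τ) :
    Function.Surjective (pr₁ σ τ) := by
  intro g
  obtain ⟨d, hd⟩ := hτ (σ g)
  exact ⟨⟨(g, d), hd.symm⟩, rfl⟩

theorem pr₂_surjective {σ : Γ →* Q} (hσ : Function.Surjective σ) (τ : Δ →* Q) :
    Function.Surjective (pr₂ σ τ) := by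
  intro d
  obtain ⟨g, hg⟩ := hσ (τ d)
  exact ⟨⟨(g, d), hg⟩, rfl⟩

/-- The kernel of the first projection is central when that of `τ` is. -/
theorem ker_pr₁_le_center (σ : Γ →* Q) {τ : Δ →* Q} (hτ : τ.ker ≤ center Δ) :
    (pr₁ σ τ).ker ≤ center (pull σ τ) := by
  rintro ⟨⟨g, d⟩, hp⟩ hk
  have hg : g = 1 := hk
  subst hg
  have hd : τ d = 1 := by
    have h := (mem_pull.mp hp)
    simpa using h.symm
  rw [mem_center_iff]
  rintro ⟨⟨g', d'⟩, hp'⟩
  apply Subtype.ext
  apply Prod.ext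
  · show g' * 1 = 1 * g'
    simp
  · exact mem_center_iff.mp (hτ hd) d'

/-- The kernel of the second projection is central when that of `σ` is. -/
theorem ker_pr₂_le_center {σ : Γ →* Q} (hσ : σ.ker ≤ center Γ) (τ : Δ →* Q) :
    (pr₂ σ τ).ker ≤ center (pull σ τ) := by
  rintro ⟨⟨g, d⟩, hp⟩ hk
  have hd : d = 1 := hk
  subst hd
  have hg : σ g = 1 := by
    have h := (mem_pull.mp hp)
    simpa using h
  rw [mem_center_iff]
  rintro ⟨⟨g', d'⟩, hp'⟩
  apply Subtype.ext
  apply Prod.ext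
  · exact mem_center_iff.mp (hσ hg) g'
  · show d' * 1 = 1 * d'
    simp

/-- Key lemma: if no nontrivial element of `P'` dies under the first projection, then the kernel
of `σ` maps onto the kernel of `τ`. -/
theorem exists_surj_of_pull {σ : Γ →* Q} {τ : Δ →* Q} (hσ : Cfsg.IsStemExtension σ)
    (hτ : Cfsg.IsStemExtension τ)
    (hinj : ∀ p ∈ commutator (pull σ τ), pr₁ σ τ p = 1 → p = 1) :
    ∃ π : σ.ker →* τ.ker, Function.Surjective π := by
  classical
  -- elements of `P'` over `σ.ker`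
  let W₁ : Subgroup (pull σ τ) := commutator (pull σ τ) ⊓ (σ.comp (pr₁ σ τ)).ker
  have h₁surj := pr₁_surjective σ hτ.1
  have h₂surj := pr₂_surjective hσ.1 τ
  let f : W₁ →* σ.ker :=
    { toFun := fun p => ⟨pr₁ σ τ p, (Subgroup.mem_inf.mp p.2).2⟩
      map_one' := by apply Subtype.ext; simp
      map_mul' := by intro a b; apply Subtype.ext; simp }
  have hfinj : Function.Injective f := by
    rw [injective_iff_map_eq_one]
    intro a ha
    have h1 : pr₁ σ τ a = 1 := congrArg Subtype.val ha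
    apply Subtype.ext
    exact hinj a (Subgroup.mem_inf.mp a.2).1 h1
  have hfsurj : Function.Surjective f := by
    rintro ⟨m, hm⟩
    have h1 : m ∈ commutator Γ := hσ.2.2 hm
    rw [← map_commutator_of_surjective (pr₁ σ τ) h₁surj] at h1
    obtain ⟨p, hp, rfl⟩ := h1
    exact ⟨⟨p, Subgroup.mem_inf.mpr ⟨hp, hm⟩⟩, rfl⟩
  let g : W₁ →* τ.ker :=
    { toFun := fun p => ⟨pr₂ σ τ p, by
        have h1 : σ ((p : pull σ τ).1.1) = 1 := (Subgroup.mem_inf.mp p.2).2
        have h2 := (p : pull σ τ).2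
        rw [mem_pull, h1] at h2
        exact h2.symm⟩
      map_one' := by apply Subtype.ext; simp
      map_mul' := by intro a b; apply Subtype.ext; simp }
  have hgsurj : Function.Surjective g := by
    rintro ⟨n, hn⟩
    have h1 : n ∈ commutator Δ := hτ.2.2 hn
    rw [← map_commutator_of_surjective (pr₂ σ τ) h₂surj] at h1
    obtain ⟨p, hp, hpn⟩ := h1
    have h2 : σ (p : pull σ τ).1.1 = 1 := by
      rw [mem_pull.mp p.2]
      have : (p : pull σ τ).1.2 = n := hpn
      rw [this]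
      exact hn
    exact ⟨⟨p, Subgroup.mem_inf.mpr ⟨hp, h2⟩⟩, Subtype.ext hpn⟩
  let e : W₁ ≃* σ.ker := MulEquiv.ofBijective f ⟨hfinj, hfsurj⟩
  refine ⟨g.comp e.symm.toMonoidHom, hgsurj.comp e.symm.surjective⟩

end pull

section multiplier

variable {Q : Type u} {A : Type v} [Group Q] [CommGroup A] {L : Type w} [Group L]

/-- A group with a Schur multiplier is finite. -/
theorem finite_of_hasSchur (hA : Cfsg.HasSchurMultiplier Q A) : Finite Q := by
  obtain ⟨⟨Γ, _, _, σ, hσ, _⟩, _⟩ := hA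
  exact Finite.of_surjective σ hσ.1

/-- The Schur multiplier maps onto `ker ξ ⊓ L'` for every central extension `ξ`. -/
theorem ker_image (hA : Cfsg.HasSchurMultiplier Q A) (ξ : L →* Q) (hs : Function.Surjective ξ)
    (hc : ξ.ker ≤ center L) : ∃ π : A →* ↥(ξ.ker ⊓ commutator L), Function.Surjective π := by
  haveI := finite_of_hasSchur hA
  obtain ⟨L₀, _, _, σ, hσ, ⟨e⟩⟩ := exists_stem_of_central ξ hs hc
  obtain ⟨π, hπ⟩ := hA.2 L₀ σ hσ
  exact ⟨e.toMonoidHom.comp π, e.surjective.comp hπ⟩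

/-- Trivial multiplier: every central extension has `ker ξ ⊓ L' = 1`. -/
theorem ker_trivial (hA : Cfsg.HasCyclicSchurMultiplier Q 1) (ξ : L →* Q)
    (hs : Function.Surjective ξ) (hc : ξ.ker ≤ center L) {x : L} (hx : x ∈ ξ.ker)
    (hx' : x ∈ commutator L) : x = 1 := by
  obtain ⟨π, hπ⟩ := ker_image hA ξ hs hc
  obtain ⟨t, ht⟩ := hπ ⟨x, Subgroup.mem_inf.mpr ⟨hx, hx'⟩⟩
  have hs1 : Subsingleton (Multiplicative (ZMod 1)) := inferInstanceAs (Subsingleton (ZMod 1))
  have ht1 : t = 1 := Subsingleton.elim _ _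
  rw [ht1, map_one] at ht
  exact (congrArg Subtype.val ht).symm

end multiplier

/-- A Schur cover lifts to every central extension with divisible kernel. -/
theorem lift_of_cover {Q : Type u} {A : Type v} [Group Q] [CommGroup A]
    (hA : Cfsg.HasSchurMultiplier Q A) {Γ : Type*} [Group Γ] [Finite Γ] (σ : Γ →* Q)
    (hσ : Cfsg.IsStemExtension σ) (hk : Nonempty (σ.ker ≃* A)) {E : Type w} [Group E]
    (ξ : E →* Q) (hs : Function.Surjective ξ) (hc : ξ.ker ≤ center E)
    (hdiv : ∀ (n : ℕ) (c : E), c ∈ ξ.ker → n ≠ 0 → ∃ d ∈ ξ.ker, d ^ n = c) :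
    ∃ ρ : Γ →* E, ξ.comp ρ = σ := by
  classical
  obtain ⟨e₀⟩ := hk
  haveI : Finite A := Finite.of_equiv _ e₀.toEquiv
  have h₁ := pr₁_surjective σ hs
  -- the central extension of `Q`
  let ζ : pull σ ξ →* Q := σ.comp (pr₁ σ ξ)
  have hζs : Function.Surjective ζ := hσ.1.comp h₁
  have hζc : ζ.ker ≤ center (pull σ ξ) := by
    rintro ⟨⟨g, d⟩, hp⟩ hk
    have hg : σ g = 1 := hk
    have hd : ξ d = 1 := by
      have h := mem_pull.mp hp
      rw [← h]
      exact hg
    rw [mem_center_iff]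
    rintro ⟨⟨g', d'⟩, hp'⟩
    apply Subtype.ext
    apply Prod.ext
    · exact mem_center_iff.mp (hσ.2.1 hg) g'
    · exact mem_center_iff.mp (hc hd) d'
  obtain ⟨π₀, hπ₀⟩ := ker_image hA ζ hζs hζc
  -- `W` maps onto `σ.ker`
  let f : ↥(ζ.ker ⊓ commutator (pull σ ξ)) →* σ.ker :=
    { toFun := fun p => ⟨pr₁ σ ξ p, (Subgroup.mem_inf.mp p.2).1⟩
      map_one' := by apply Subtype.ext; simp
      map_mul' := by intro a b; apply Subtype.ext; simp }
  have hfsurj : Function.Surjective f := by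
    rintro ⟨m, hm⟩
    have h1 : m ∈ commutator Γ := hσ.2.2 hm
    rw [← map_commutator_of_surjective (pr₁ σ ξ) h₁] at h1
    obtain ⟨p, hp, rfl⟩ := h1
    exact ⟨⟨p, Subgroup.mem_inf.mpr ⟨hm, hp⟩⟩, rfl⟩
  haveI : Finite ↥(ζ.ker ⊓ commutator (pull σ ξ)) := Finite.of_surjective π₀ hπ₀
  have hfinj : Function.Injective f := by
    have hcard : Nat.card ↥(ζ.ker ⊓ commutator (pull σ ξ)) ≤ Nat.card σ.ker := by
      rw [Nat.card_congr e₀.toEquiv]
      exact Nat.card_le_card_of_surjective π₀ hπ₀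
    exact ((Nat.bijective_iff_surjective_and_card f).mpr ⟨hfsurj, le_antisymm hcard
      (Nat.card_le_card_of_surjective f hfsurj)⟩).1
  have hinj : ∀ p ∈ commutator (pull σ ξ), pr₁ σ ξ p = 1 → p = 1 := by
    intro p hp hp1
    have hm : p ∈ ζ.ker ⊓ commutator (pull σ ξ) := Subgroup.mem_inf.mpr ⟨by
      show σ (pr₁ σ ξ p) = 1
      rw [hp1, map_one], hp⟩
    have h2 : f ⟨p, hm⟩ = 1 := Subtype.ext hp1
    have h3 := hfinj (h2.trans (map_one f).symm)
    exact congrArg Subtype.val h3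
  -- retraction
  letI cg : CommGroup ξ.ker := { (inferInstance : Group ξ.ker) with
    mul_comm := fun a b => Subtype.ext (mem_center_iff.mp (hc a.2) b).symm }
  have hincl : ∀ c : ξ.ker, ((1 : Γ), (c : E)) ∈ pull σ ξ := by
    intro c
    rw [mem_pull, map_one]
    exact c.2.symm
  let i₀ : ξ.ker →* pull σ ξ :=
    { toFun := fun c => ⟨(1, c), hincl c⟩
      map_one' := rfl
      map_mul' := by
        intro a b
        apply Subtype.ext
        apply Prod.ext
        · simp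
        · rfl }
  let i : ξ.ker →* Abelianization (pull σ ξ) := Abelianization.of.comp i₀
  have hi : Function.Injective i := by
    rw [injective_iff_map_eq_one]
    intro c hc'
    have h1 : i₀ c ∈ Abelianization.of.ker := hc'
    rw [Abelianization.ker_of] at h1
    have h2 := hinj _ h1 rfl
    apply Subtype.ext
    exact congrArg (fun z : pull σ ξ => z.1.2) h2
  have hdiv' : ∀ (n : ℕ) (d : ξ.ker), n ≠ 0 → ∃ y : ξ.ker, y ^ n = d := by
    intro n d hn
    obtain ⟨y, hy, hyd⟩ := hdiv n d d.2 hn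
    exact ⟨⟨y, hy⟩, Subtype.ext hyd⟩
  obtain ⟨r, hr⟩ := ext_hom hdiv' i hi (MonoidHom.id _)
  let r' : pull σ ξ →* ξ.ker := r.comp Abelianization.of
  have hr' : ∀ c, r' (i₀ c) = c := fun c => congrArg (fun k : ξ.ker →* ξ.ker => k c) hr
  -- the section
  let f₂ : r'.ker →* Γ := (pr₁ σ ξ).comp r'.ker.subtype
  have hf₂inj : Function.Injective f₂ := by
    rw [injective_iff_map_eq_one]
    rintro ⟨⟨⟨g, d⟩, hp⟩, hk'⟩ hg
    have hg' : g = 1 := hg
    subst hg'
    have hd : d ∈ ξ.ker := by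
      have h := mem_pull.mp hp
      rw [map_one] at h
      exact h.symm
    have h3 := hr' ⟨d, hd⟩
    have h4 : r' (i₀ ⟨d, hd⟩) = 1 := hk'
    rw [h4] at h3
    have h5 : d = 1 := (congrArg Subtype.val h3).symm
    subst h5
    rfl
  have hf₂surj : Function.Surjective f₂ := by
    intro g
    obtain ⟨p, hp⟩ := h₁ g
    refine ⟨⟨p * (i₀ (r' p))⁻¹, ?_⟩, ?_⟩
    · rw [MonoidHom.mem_ker, map_mul, map_inv, hr', mul_inv_cancel]
    · show pr₁ σ ξ (p * (i₀ (r' p))⁻¹) = g
      rw [map_mul, map_inv, hp]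
      have : pr₁ σ ξ (i₀ (r' p)) = 1 := rfl
      rw [this]
      simp
  let e₂ : r'.ker ≃* Γ := MulEquiv.ofBijective f₂ ⟨hf₂inj, hf₂surj⟩
  refine ⟨(pr₂ σ ξ).comp (r'.ker.subtype.comp e₂.symm.toMonoidHom), ?_⟩
  ext g
  have h2 : f₂ (e₂.symm g) = g := e₂.apply_symm_apply g
  have h3 := mem_pull.mp ((e₂.symm g : r'.ker) : pull σ ξ).2
  show ξ (((e₂.symm g : r'.ker) : pull σ ξ).1.2) = σ g
  rw [← h3]
  exact congrArg σ h2

/-- Transfer: the index power of a central element of `Γ'` lies in `U'`. -/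
theorem pow_index_mem_commutator {Γ : Type*} [Group Γ] [Finite Γ] (U : Subgroup Γ) {z : Γ}
    (hz : ∀ y : Γ, y * z = z * y) (hzU : z ∈ U) (hzc : z ∈ commutator Γ) :
    z ^ U.index ∈ ⁅U, U⁆ := by
  have hmem : z ^ U.index ∈ U := pow_mem hzU _
  have h1 := Cfsg.Agent.Lib.Transfer.transfer_central (Abelianization.of (G := U)) z hz hmem
  have h2 : (Abelianization.of (G := U)).transfer z = 1 :=
    Abelianization.commutator_subset_ker _ hzc
  rw [h2] at h1
  have h3 : (⟨z ^ U.index, hmem⟩ : U) ∈ commutator U := by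
    have := h1.symm
    rwa [← MonoidHom.mem_ker, Abelianization.ker_of] at this
  rw [← Subgroup.map_subtype_commutator]
  exact ⟨_, h3, rfl⟩

/-- A finite abelian group contains a copy of each of its quotients. -/
theorem embed_of_surj {X Y : Type*} [CommGroup X] [CommGroup Y] [Finite X] (f : X →* Y)
    (hf : Function.Surjective f) : ∃ C : Subgroup X, Nonempty (Y ≃* C) := by
  classical
  haveI : Finite Y := Finite.of_surjective f hf
  haveI : NeZero ((Monoid.exponent Y : ℕ) : ℂ) := by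
    constructor
    have : Monoid.exponent Y ≠ 0 := Monoid.exponent_ne_zero_of_finite
    exact_mod_cast this
  haveI : NeZero ((Monoid.exponent X : ℕ) : ℂ) := by
    constructor
    have : Monoid.exponent X ≠ 0 := Monoid.exponent_ne_zero_of_finite
    exact_mod_cast this
  obtain ⟨eY⟩ := CommGroup.monoidHom_mulEquiv_of_hasEnoughRootsOfUnity Y ℂ
  obtain ⟨eX⟩ := CommGroup.monoidHom_mulEquiv_of_hasEnoughRootsOfUnity X ℂ
  -- the dual of `f`
  let d : (Y →* ℂˣ) →* (X →* ℂˣ) :=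
    { toFun := fun φ => φ.comp f
      map_one' := rfl
      map_mul' := fun _ _ => rfl }
  have hd : Function.Injective d := by
    intro a b hab
    ext y
    obtain ⟨x, rfl⟩ := hf y
    have := congrArg (fun k : X →* ℂˣ => k x) hab
    exact congrArg Units.val this
  let j : Y →* X := eX.toMonoidHom.comp (d.comp eY.symm.toMonoidHom)
  have hj : Function.Injective j := eX.injective.comp (hd.comp eY.symm.injective)
  exact ⟨j.range, ⟨MonoidHom.ofInjective hj⟩⟩

/-- Two homomorphisms differing by central elements agree on commutators. -/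
theorem eq_on_commutator {X Y : Type*} [Group X] [Group Y] (s₁ s₂ : X →* Y)
    (h : ∀ a, s₁ a * (s₂ a)⁻¹ ∈ center Y) {x : X} (hx : x ∈ commutator X) : s₁ x = s₂ x := by
  have hle : commutator X ≤ s₁.eqLocus s₂ := by
    rw [_root_.commutator_def, Subgroup.commutator_le]
    intro a _ b _
    show s₁ ⁅a, b⁆ = s₂ ⁅a, b⁆
    obtain ⟨z, hz⟩ : ∃ z, z = s₁ a * (s₂ a)⁻¹ := ⟨_, rfl⟩
    obtain ⟨w, hw⟩ : ∃ w, w = s₁ b * (s₂ b)⁻¹ := ⟨_, rfl⟩
    have hza : s₁ a = z * s₂ a := by rw [hz]; group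
    have hwb : s₁ b = w * s₂ b := by rw [hw]; group
    have hz' : ∀ g, g * z = z * g := mem_center_iff.mp (hz ▸ h a)
    have hw' : ∀ g, g * w = w * g := mem_center_iff.mp (hw ▸ h b)
    rw [map_commutatorElement, map_commutatorElement, commutatorElement_def, commutatorElement_def,
      hza, hwb]
    generalize s₂ a = u
    generalize s₂ b = v
    have h1 : z * u * (w * v) * (z * u)⁻¹ = u * (w * v) * u⁻¹ := by
      have h0 : u * (w * v) * u⁻¹ * z = z * (u * (w * v) * u⁻¹) := hz' _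
      calc z * u * (w * v) * (z * u)⁻¹ = z * (u * (w * v) * u⁻¹) * z⁻¹ := by group
        _ = u * (w * v) * u⁻¹ * z * z⁻¹ := by rw [h0]
        _ = u * (w * v) * u⁻¹ := by group
    rw [h1]
    have h2 : u⁻¹ * w = w * u⁻¹ := hw' _
    calc u * (w * v) * u⁻¹ * (w * v)⁻¹ = u * (w * (v * u⁻¹ * v⁻¹)) * w⁻¹ := by group
      _ = u * ((v * u⁻¹ * v⁻¹) * w) * w⁻¹ := by rw [show (v * u⁻¹ * v⁻¹) * w = w * (v * u⁻¹ * v⁻¹) from hw' _]
      _ = u * v * u⁻¹ * v⁻¹ := by group
  exact hle hx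

end Cfsg.Agent.Lib.Coprime.SchurPull
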