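import Mathlib
import Cfsg.Agent.Lib.Coprime.SchurPull
import Cfsg.Agent.Lib.Transfer.Frattini

/-!
If `z ∈ P' ∩ Z(P)` has order `p^e` in the `p`-group `P` then `p^(2e) ≤ |P : Z(P)|`.
-/

set_option autoImplicit false

namespace Cfsg.Agent.Lib.Coprime.SchurExp

open Subgroup Cfsg.Agent.Lib.Coprime.SchurPull Cfsg.Agent.Lib.Coprime.SchurBasic
open scoped commutatorElement

universe u

/-- The key estimate. -/
theorem pow_le_index_center {p : ℕ} [hpf : Fact p.Prime] (n : ℕ) :
    ∀ (P : Type u) [Group P] [Finite P], Nat.card P = n → IsPGroup p P → ∀ (z : P), z ∈ commutator P →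
      (∀ y : P, y * z = z * y) → ∀ e : ℕ, orderOf z = p ^ e → p ^ (2 * e) ≤ (center P).index := by
  induction n using Nat.strong_induction_on with
  | _ n ih =>
    intro P _ _ hcard hP z hzc hzz e he
    have hp : p.Prime := hpf.out
    classical
    have hidxpos : 0 < (center P).index := Nat.pos_of_ne_zero Subgroup.index_ne_zero_of_finite
    rcases Nat.eq_zero_or_pos e with rfl | hepos
    · rw [mul_zero, pow_zero]
      exact hidxpos
    have hz1 : z ≠ 1 := by
      rintro rfl
      rw [orderOf_one] at he
      have : 1 < p ^ e := Nat.one_lt_pow hepos.ne' hp.one_lt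
      omega
    by_cases hN : ∃ N : Subgroup P, N.Normal ∧ N ≠ ⊥ ∧ N ⊓ zpowers z = ⊥
    · -- pass to the quotient
      obtain ⟨N, hNn, hNb, hNz⟩ := hN
      haveI := hNn
      have hlt : Nat.card (P ⧸ N) < n := by
        rw [← hcard, ← Subgroup.card_mul_index N, Subgroup.index_eq_card]
        have h1 : 1 < Nat.card N := Subgroup.one_lt_card_iff_ne_bot _ |>.mpr hNb
        have h2 : 0 < Nat.card (P ⧸ N) := Nat.card_pos
        nlinarith
      have h1 := ih _ hlt (P ⧸ N) rfl (hP.to_quotient N) (z : P ⧸ N)
        (mem_commutator_map (QuotientGroup.mk' N) hzc) (by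
          intro y
          induction y using QuotientGroup.induction_on with
          | H y =>
            rw [← QuotientGroup.mk_mul, ← QuotientGroup.mk_mul, hzz y]) e (by
          rw [← he]
          apply orderOf_eq_orderOf_iff.mpr
          intro k
          constructor
          · intro h
            rw [← QuotientGroup.mk_pow] at h
            have h2 : z ^ k ∈ N := (QuotientGroup.eq_one_iff _).mp h
            have h3 : z ^ k ∈ N ⊓ zpowers z :=
              Subgroup.mem_inf.mpr ⟨h2, Subgroup.pow_mem _ (mem_zpowers z) k⟩
            rw [hNz, Subgroup.mem_bot] at h3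
            exact h3
          · intro h
            rw [← QuotientGroup.mk_pow, h]
            rfl)
      refine h1.trans ?_
      -- index comparison
      have hle : (center P).map (QuotientGroup.mk' N) ≤ center (P ⧸ N) := by
        rintro _ ⟨c, hc, rfl⟩
        rw [mem_center_iff]
        intro y
        induction y using QuotientGroup.induction_on with
        | H y =>
          show (y : P ⧸ N) * (c : P ⧸ N) = (c : P ⧸ N) * (y : P ⧸ N)
          rw [← QuotientGroup.mk_mul, ← QuotientGroup.mk_mul, mem_center_iff.mp hc y]
      have h2 : (center (P ⧸ N)).index ∣ ((center P).map (QuotientGroup.mk' N)).index :=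
        Subgroup.index_dvd_of_le hle
      have h3 : ((center P).map (QuotientGroup.mk' N)).index ∣ (center P).index :=
        Subgroup.index_map_dvd _ (QuotientGroup.mk'_surjective N)
      exact Nat.le_of_dvd hidxpos (h2.trans h3)
    · -- every nontrivial normal subgroup meets `⟨z⟩`
      push Not at hN
      -- choose `a`
      have hne : center P ≠ ⊤ := by
        intro h
        have h1 : commutator P = ⊥ := (_root_.commutator_eq_bot_iff_center_eq_top P).mpr h
        rw [h1, Subgroup.mem_bot] at hzc
        exact hz1 hzc
      have hQp : IsPGroup p (P ⧸ center P) := hP.to_quotient _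
      have hQne : (⊤ : Subgroup (P ⧸ center P)) ≠ ⊥ := by
        intro h
        apply hne
        have h1 : Subsingleton (P ⧸ center P) := by
          rw [← Subgroup.subsingleton_iff]
          exact subsingleton_of_bot_eq_top h.symm
        rw [← Subgroup.index_eq_one, Subgroup.index_eq_card]
        exact Nat.card_of_subsingleton (1 : P ⧸ center P)
      obtain ⟨abar, -, habar1, habarc, habarp⟩ :=
        Cfsg.Agent.Lib.Transfer.exists_central_of_normal hQp (N := (⊤ : Subgroup (P ⧸ center P))) hQne
      obtain ⟨a, rfl⟩ := QuotientGroup.mk'_surjective (center P) abar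
      have ha : a ∉ center P := fun h => habar1 ((QuotientGroup.eq_one_iff a).mpr h)
      have hcen : ∀ x : P, x * a * x⁻¹ * a⁻¹ ∈ center P := by
        intro x
        rw [← QuotientGroup.eq_one_iff]
        have h1 := habarc (x : P ⧸ center P)
        have h2 : ((x : P ⧸ center P)) * ((a : P ⧸ center P)) = (a : P ⧸ center P) * x := h1
        show (x : P ⧸ center P) * a * (x : P ⧸ center P)⁻¹ * (a : P ⧸ center P)⁻¹ = 1
        rw [h2]
        group
      have hcen' : ∀ x y : P, x * a * x⁻¹ * a⁻¹ * y = y * (x * a * x⁻¹ * a⁻¹) :=
        fun x y => (mem_center_iff.mp (hcen x) y).symm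
      have hap : a ^ p ∈ center P := by
        rw [← QuotientGroup.eq_one_iff, QuotientGroup.mk_pow]
        exact habarp
      let φ : P →* P :=
        { toFun := fun x => x * a * x⁻¹ * a⁻¹
          map_one' := by group
          map_mul' := by
            intro x y
            have h1 := hcen' y x
            calc (x * y) * a * (x * y)⁻¹ * a⁻¹ = x * (y * a * y⁻¹ * a⁻¹) * a * x⁻¹ * a⁻¹ := by group
              _ = (y * a * y⁻¹ * a⁻¹) * x * a * x⁻¹ * a⁻¹ := by rw [← h1]
              _ = (y * a * y⁻¹ * a⁻¹) * (x * a * x⁻¹ * a⁻¹) := by group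
              _ = (x * a * x⁻¹ * a⁻¹) * (y * a * y⁻¹ * a⁻¹) := hcen' y _ }
      have hφ : ∀ x, φ x = x * a * x⁻¹ * a⁻¹ := fun _ => rfl
      -- exponent of the values
      have hφp : ∀ x, φ x ^ p = 1 := by
        intro x
        have h1 : x * a * x⁻¹ = φ x * a := by rw [hφ]; group
        have hcomm : Commute (φ x) a := by
          show φ x * a = a * φ x
          rw [hφ]; exact hcen' x a
        have h2 : x * a ^ p * x⁻¹ = a ^ p := by
          have h3 := mem_center_iff.mp hap x
          rw [h3]
          group
        have h4 : x * a ^ p * x⁻¹ = (x * a * x⁻¹) ^ p := by rw [conj_pow]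
        rw [h2, h1, hcomm.mul_pow] at h4
        have h5 : (1 : P) * a ^ p = φ x ^ p * a ^ p := by rw [one_mul]; exact h4
        exact (mul_right_cancel h5).symm
      -- values lie in the subgroup of order `p` of `⟨z⟩`
      have hpd : p ∣ orderOf z := by
        rw [he]
        exact dvd_pow_self p hepos.ne'
      have hoz : orderOf z ≠ 0 := by
        rw [he]
        exact pow_ne_zero _ hp.ne_zero
      obtain ⟨E, hE⟩ : ∃ E, E = z ^ (orderOf z / p) := ⟨_, rfl⟩
      have hEo : orderOf E = p := by
        rw [hE]
        exact orderOf_pow_orderOf_div hoz hpd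
      have hφz : ∀ x, φ x ∈ zpowers E := by
        intro x
        by_cases hw1 : φ x = 1
        · rw [hw1]; exact Subgroup.one_mem _
        have hwc : φ x ∈ center P := hcen x
        have hwo : orderOf (φ x) = p := orderOf_eq_prime (hφp x) hw1
        haveI hWn : (zpowers (φ x)).Normal := by
          constructor
          intro u hu g
          obtain ⟨k, rfl⟩ := mem_zpowers_iff.mp hu
          have h1 : g * (φ x) ^ k = (φ x) ^ k * g :=
            mem_center_iff.mp (Subgroup.zpow_mem _ hwc k) g
          rw [h1]
          simpa using Subgroup.zpow_mem _ (mem_zpowers (φ x)) k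
        have hWne : zpowers (φ x) ≠ ⊥ := by
          intro h
          exact hw1 (zpowers_eq_bot.mp h)
        have hint := hN _ hWn hWne
        obtain ⟨u, hu⟩ := Subgroup.ne_bot_iff_exists_ne_one.mp hint
        have hu₀ : (u : P) ≠ 1 := fun h => hu (Subtype.ext h)
        have hu1 : (u : P) ∈ zpowers (φ x) := (Subgroup.mem_inf.mp u.2).1
        have hu2 : (u : P) ∈ zpowers z := (Subgroup.mem_inf.mp u.2).2
        have hle1 : zpowers (u : P) ≤ zpowers (φ x) := by rwa [zpowers_le]
        have hcard1 : Nat.card (zpowers (u : P)) = p := by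
          rw [Nat.card_zpowers]
          have h1 : orderOf (u : P) ∣ orderOf (φ x) := by
            rw [← Nat.card_zpowers, ← Nat.card_zpowers]
            exact Subgroup.card_dvd_of_le hle1
          rw [hwo] at h1
          rcases (Nat.dvd_prime hp).mp h1 with h2 | h2
          · exact absurd (orderOf_eq_one_iff.mp h2) hu₀
          · exact h2
        have heq : zpowers (u : P) = zpowers (φ x) := by
          apply Subgroup.eq_of_le_of_card_ge hle1
          rw [hcard1, Nat.card_zpowers, hwo]
        have hwz : φ x ∈ zpowers z := by
          have h1 : φ x ∈ zpowers (u : P) := by rw [heq]; exact mem_zpowers _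
          exact (zpowers_le.mpr hu2) h1
        obtain ⟨i, hi⟩ := mem_zpowers_iff.mp hwz
        have h2 : z ^ (i * (p : ℤ)) = 1 := by
          rw [zpow_mul, hi, zpow_natCast]
          exact hφp x
        have h3 : ((orderOf z : ℕ) : ℤ) ∣ i * p := orderOf_dvd_iff_zpow_eq_one.mpr h2
        have h4 : orderOf z = orderOf z / p * p := (Nat.div_mul_cancel hpd).symm
        have h5 : (((orderOf z / p : ℕ) : ℤ)) * (p : ℤ) ∣ i * p := by
          have h6 : (((orderOf z / p : ℕ) : ℤ)) * (p : ℤ) = ((orderOf z : ℕ) : ℤ) := by
            rw [← Nat.cast_mul, ← h4]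
          rw [h6]
          exact h3
        have hp0 : (p : ℤ) ≠ 0 := by exact_mod_cast hp.ne_zero
        obtain ⟨j, hj⟩ := (mul_dvd_mul_iff_right hp0).mp h5
        rw [← hi, hj, zpow_mul, zpow_natCast, ← hE]
        exact Subgroup.zpow_mem _ (mem_zpowers E) j
      -- the centralizer of `a`
      have hkerφ : ∀ x, x ∈ φ.ker ↔ x * a = a * x := by
        intro x
        rw [MonoidHom.mem_ker, hφ, mul_inv_eq_one, mul_inv_eq_iff_eq_mul]
      have hRle : φ.range ≤ zpowers E := by
        rintro _ ⟨x, rfl⟩
        exact hφz x
      have hCidx : φ.ker.index = p := by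
        rw [Subgroup.index_ker]
        have h1 : Nat.card φ.range ∣ p := by
          have h2 := Subgroup.card_dvd_of_le hRle
          rwa [Nat.card_zpowers, hEo] at h2
        rcases (Nat.dvd_prime hp).mp h1 with h2 | h2
        · exfalso
          have h3 : φ.range = ⊥ := Subgroup.card_eq_one.mp h2
          apply ha
          rw [mem_center_iff]
          intro y
          have h4 : φ y ∈ φ.range := ⟨y, rfl⟩
          rw [h3, Subgroup.mem_bot] at h4
          exact (hkerφ y).mp h4
        · exact h2
      have hzC : z ∈ φ.ker := by
        rw [hkerφ]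
        exact (hzz a).symm
      have hcomm := pow_index_mem_commutator φ.ker hzz hzC hzc
      rw [hCidx, ← Subgroup.map_subtype_commutator] at hcomm
      obtain ⟨w, hw, hwz⟩ := hcomm
      have hwz' : (w : P) = z ^ p := hwz
      have hwo : orderOf w = p ^ (e - 1) := by
        rw [← Subgroup.orderOf_coe, hwz', orderOf_pow' z hp.ne_zero, he]
        have h1 : Nat.gcd (p ^ e) p = p := Nat.gcd_eq_right (dvd_pow_self p hepos.ne')
        rw [h1]
        obtain ⟨e', rfl⟩ : ∃ e', e = e' + 1 := ⟨e - 1, by omega⟩
        rw [Nat.add_sub_cancel, pow_succ, Nat.mul_div_cancel _ hp.pos]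
      have hCne : φ.ker ≠ ⊤ := by
        intro h
        rw [h, Subgroup.index_top] at hCidx
        exact hp.one_lt.ne hCidx
      have hClt : Nat.card φ.ker < n := by
        rw [← hcard]
        have h1 : Nat.card φ.ker * φ.ker.index = Nat.card P := Subgroup.card_mul_index _
        rw [← h1, hCidx]
        have h2 : 0 < Nat.card φ.ker := Nat.card_pos
        nlinarith [hp.two_le]
      have hIH := ih _ hClt φ.ker rfl (hP.to_subgroup _) w hw (by
        intro y
        apply Subtype.ext
        show (y : P) * (w : P) = (w : P) * y
        rw [hwz']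
        have h1 : z ^ p ∈ center P := Subgroup.pow_mem _ (mem_center_iff.mpr hzz) p
        exact (mem_center_iff.mp h1 y)) (e - 1) hwo
      -- index chain
      have hZC : center P ≤ φ.ker := by
        intro c hc
        rw [hkerφ]
        exact (mem_center_iff.mp hc a).symm
      have h1 := Subgroup.relIndex_mul_index hZC
      rw [hCidx] at h1
      have hZ' : (center P).subgroupOf φ.ker ≤ center φ.ker := by
        intro c hc
        rw [Subgroup.mem_subgroupOf] at hc
        rw [mem_center_iff]
        intro y
        apply Subtype.ext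
        exact mem_center_iff.mp hc y
      have h2 := Subgroup.relIndex_mul_index hZ'
      have haC : a ∈ φ.ker := by
        rw [hkerφ]
      have hac : (⟨a, haC⟩ : φ.ker) ∈ center φ.ker := by
        rw [mem_center_iff]
        intro y
        apply Subtype.ext
        exact (hkerφ y).mp y.2
      have hrel1 : ((center P).subgroupOf φ.ker).relIndex (center φ.ker) ≠ 1 := by
        intro h
        have h3 := Subgroup.relIndex_eq_one.mp h
        have h4 := h3 hac
        rw [Subgroup.mem_subgroupOf] at h4
        exact ha h4
      have hrelp : p ∣ ((center P).subgroupOf φ.ker).relIndex (center φ.ker) := by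
        have hrd : ((center P).subgroupOf φ.ker).relIndex (center φ.ker) ∣ Nat.card φ.ker := by
          have h3 : ((center P).subgroupOf φ.ker).relIndex (center φ.ker) ∣
              ((center P).subgroupOf φ.ker).index := by
            rw [← h2]
            exact dvd_mul_right _ _
          exact h3.trans (Subgroup.index_dvd_card _)
        obtain ⟨k, hk⟩ := IsPGroup.iff_card.mp (hP.to_subgroup φ.ker)
        rw [hk] at hrd
        obtain ⟨j, -, hj⟩ := (Nat.dvd_prime_pow hp).mp hrd
        rw [hj] at hrel1 ⊢
        refine dvd_pow_self p ?_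
        rintro rfl
        exact hrel1 (pow_zero p)
      have hrelge : p ≤ ((center P).subgroupOf φ.ker).relIndex (center φ.ker) := by
        refine Nat.le_of_dvd (Nat.pos_of_ne_zero ?_) hrelp
        intro h
        rw [h] at h2
        rw [zero_mul] at h2
        exact Subgroup.index_ne_zero_of_finite h2.symm
      -- conclude
      have hfinal : (center P).index = ((center P).subgroupOf φ.ker).relIndex (center φ.ker) *
          (center φ.ker).index * p := by
        rw [← h1, h2]
        rfl
      rw [hfinal]
      obtain ⟨e', rfl⟩ : ∃ e', e = e' + 1 := ⟨e - 1, by omega⟩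
      rw [Nat.add_sub_cancel] at hIH
      have h3 : p ^ (2 * (e' + 1)) = p ^ (2 * e') * p * p := by ring
      rw [h3]
      have h4 : p ^ (2 * e') * p ≤ ((center P).subgroupOf φ.ker).relIndex (center φ.ker) *
          (center φ.ker).index := by
        rw [mul_comm (p ^ (2 * e'))]
        exact Nat.mul_le_mul hrelge hIH
      exact Nat.mul_le_mul_right p h4

end Cfsg.Agent.Lib.Coprime.SchurExp
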