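import Mathlib
import Cfsg.Agent.Lib.Coprime.SchurPull

/-!
The universal central extension `F / [F, R]` of a group presented by `φ : F →* Q`.
-/

set_option autoImplicit false

namespace Cfsg.Agent.Lib.Coprime.SchurFree

open Subgroup Cfsg.Agent.Lib.Coprime.SchurBasic Cfsg.Agent.Lib.Coprime.SchurExt
  Cfsg.Agent.Lib.Coprime.SchurPull
open scoped commutatorElement

universe a b c

variable {F : Type a} {Q : Type b} [Group F] [Group Q] (φ : F →* Q)

/-- The relation subgroup `[F, R]`. -/
abbrev relS : Subgroup F := ⁅(⊤ : Subgroup F), φ.ker⁆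

instance relS_normal : (relS φ).Normal := Subgroup.commutator_normal _ _

/-- The universal central extension. -/
abbrev UCE : Type a := F ⧸ relS φ

theorem relS_le_ker : relS φ ≤ φ.ker := by
  rw [relS, Subgroup.commutator_le]
  intro g _ r hr
  rw [MonoidHom.mem_ker, map_commutatorElement, MonoidHom.mem_ker.mp hr, commutatorElement_one_right]

/-- The projection to `Q`. -/
def piQ : UCE φ →* Q := QuotientGroup.lift (relS φ) φ (relS_le_ker φ)

@[simp] theorem piQ_mk (g : F) : piQ φ (g : UCE φ) = φ g := rfl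

variable {φ}

theorem piQ_surjective (hφ : Function.Surjective φ) : Function.Surjective (piQ φ) :=
  fun q => by
    obtain ⟨g, rfl⟩ := hφ q
    exact ⟨(g : UCE φ), rfl⟩

theorem ker_piQ_le_center : (piQ φ).ker ≤ center (UCE φ) := by
  intro x hx
  induction x using QuotientGroup.induction_on with
  | H r =>
    rw [mem_center_iff]
    intro y
    induction y using QuotientGroup.induction_on with
    | H g =>
      have hr : r ∈ φ.ker := hx
      have h1 : ⁅g, r⁆ ∈ relS φ := Subgroup.commutator_mem_commutator (mem_top g) hr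
      rw [← QuotientGroup.mk_mul, ← QuotientGroup.mk_mul, QuotientGroup.eq]
      have h3 := (inferInstance : (relS φ).Normal).conj_mem _ (Subgroup.inv_mem _ h1) (g * r)⁻¹
      have h2 : (g * r)⁻¹ * (r * g) = (g * r)⁻¹ * (⁅g, r⁆)⁻¹ * ((g * r)⁻¹)⁻¹ := by
        rw [commutatorElement_def]
        group
      rw [h2]
      exact h3

/-- Lifting to central extensions. -/
def lift' {X : Type c} [Group X] (ξ : X →* Q) (hc : ξ.ker ≤ center X) (f : F →* X)
    (hf : ξ.comp f = φ) : UCE φ →* X :=
  QuotientGroup.lift (relS φ) f (by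
    rw [relS, Subgroup.commutator_le]
    intro g _ r hr
    rw [MonoidHom.mem_ker, map_commutatorElement]
    have h1 : f r ∈ ξ.ker := by
      rw [MonoidHom.mem_ker]
      have := congrArg (fun k : F →* Q => k r) hf
      rw [MonoidHom.mem_ker] at hr
      exact this.trans hr
    have h2 := mem_center_iff.mp (hc h1) (f g)
    rw [commutatorElement_eq_one_iff_mul_comm]
    exact h2)

@[simp] theorem lift'_mk {X : Type c} [Group X] (ξ : X →* Q) (hc : ξ.ker ≤ center X) (f : F →* X)
    (hf : ξ.comp f = φ) (g : F) : lift' ξ hc f hf (g : UCE φ) = f g := rfl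

theorem comp_lift' {X : Type c} [Group X] (ξ : X →* Q) (hc : ξ.ker ≤ center X) (f : F →* X)
    (hf : ξ.comp f = φ) : ξ.comp (lift' ξ hc f hf) = piQ φ := by
  apply MonoidHom.ext
  intro x
  induction x using QuotientGroup.induction_on with
  | H g => exact congrArg (fun k : F →* Q => k g) hf

end Cfsg.Agent.Lib.Coprime.SchurFree

namespace Cfsg.Agent.Lib.Coprime.SchurFree

open Subgroup Cfsg.Agent.Lib.Coprime.SchurBasic Cfsg.Agent.Lib.Coprime.SchurExt
  Cfsg.Agent.Lib.Coprime.SchurPull
open scoped commutatorElement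

universe a b c

/-- Commutators ignore central factors. -/
theorem commutator_mul_central {V : Type*} [Group V] (a b z w : V) (hz : z ∈ center V)
    (hw : w ∈ center V) : ⁅a * z, b * w⁆ = ⁅a, b⁆ := by
  have hz' := mem_center_iff.mp hz
  have hw' := mem_center_iff.mp hw
  rw [commutatorElement_def, commutatorElement_def]
  have h1 : a * z * (b * w) * (a * z)⁻¹ = a * (b * w) * a⁻¹ := by
    have h0 : z * (b * w) = (b * w) * z := (hz' _).symm
    calc a * z * (b * w) * (a * z)⁻¹ = a * (z * (b * w)) * z⁻¹ * a⁻¹ := by group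
      _ = a * ((b * w) * z) * z⁻¹ * a⁻¹ := by rw [h0]
      _ = a * (b * w) * a⁻¹ := by group
  rw [h1]
  have h0 : w * a⁻¹ = a⁻¹ * w := (hw' _).symm
  calc a * (b * w) * a⁻¹ * (b * w)⁻¹ = a * b * (w * a⁻¹) * w⁻¹ * b⁻¹ := by group
    _ = a * b * (a⁻¹ * w) * w⁻¹ * b⁻¹ := by rw [h0]
    _ = a * b * a⁻¹ * b⁻¹ := by group

/-- A subgroup mapping onto the base of a stem extension is everything. -/
theorem eq_top_of_stem {Δ : Type*} {Q : Type*} [Group Δ] [Group Q] (τ : Δ →* Q)
    (hτ : Cfsg.IsStemExtension τ) (H : Subgroup Δ) (hH : ∀ q, ∃ h ∈ H, τ h = q) : H = ⊤ := by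
  have hdec : ∀ d : Δ, ∃ h ∈ H, ∃ z ∈ τ.ker, d = h * z := by
    intro d
    obtain ⟨h, hh, hhd⟩ := hH (τ d)
    refine ⟨h, hh, h⁻¹ * d, ?_, by group⟩
    rw [MonoidHom.mem_ker, map_mul, map_inv, hhd]
    simp
  have hcomm : commutator Δ ≤ H := by
    rw [_root_.commutator_def, Subgroup.commutator_le]
    intro a _ b _
    obtain ⟨a', ha', z, hz, rfl⟩ := hdec a
    obtain ⟨b', hb', w, hw, rfl⟩ := hdec b
    rw [commutator_mul_central a' b' z w (hτ.2.1 hz) (hτ.2.1 hw), commutatorElement_def]
    exact H.mul_mem (H.mul_mem (H.mul_mem ha' hb') (H.inv_mem ha')) (H.inv_mem hb')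
  rw [eq_top_iff]
  intro d _
  obtain ⟨h, hh, z, hz, rfl⟩ := hdec d
  exact H.mul_mem hh (hcomm (hτ.2.2 hz))

/-- Sections of homomorphisms into a finitely generated free abelian group. -/
theorem exists_section {A B : Type*} [CommGroup A] [CommGroup B]
    (hfree : Module.Free ℤ (Additive B)) (hfg : Module.Finite ℤ (Additive B)) (f : A →* B) :
    ∃ s : f.range →* A, ∀ b : f.range, f (s b) = b := by
  classical
  let N : Submodule ℤ (Additive B) := AddSubgroup.toIntSubmodule (f.toAdditive.range)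
  obtain ⟨n, ⟨bN⟩⟩ := Submodule.nonempty_basis_of_pid (Module.Free.chooseBasis ℤ (Additive B)) N
  haveI : Module.Free ℤ N := Module.Free.of_basis bN
  let f' : Additive A →+ N := (f.toAdditive).codRestrict N.toAddSubgroup (fun a => ⟨a, rfl⟩)
  have hf' : Function.Surjective f' := by
    rintro ⟨x, a, rfl⟩
    exact ⟨a, rfl⟩
  obtain ⟨h, hh⟩ := Module.projective_lifting_property f'.toIntLinearMap LinearMap.id hf'
  have hmem : ∀ b : f.range, Additive.ofMul (b : B) ∈ N := by
    rintro ⟨_, a, rfl⟩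
    exact ⟨Additive.ofMul a, rfl⟩
  refine ⟨{ toFun := fun b => (h ⟨Additive.ofMul (b : B), hmem b⟩).toMul
            map_one' := by
              have : (⟨Additive.ofMul ((1 : f.range) : B), hmem 1⟩ : N) = 0 := rfl
              rw [this, map_zero]
              rfl
            map_mul' := by
              intro a b
              have : (⟨Additive.ofMul ((a * b : f.range) : B), hmem (a * b)⟩ : N) =
                ⟨Additive.ofMul (a : B), hmem a⟩ + ⟨Additive.ofMul (b : B), hmem b⟩ := rfl
              rw [this, map_add]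
              rfl }, ?_⟩
  intro b
  have h2 := congrArg (fun k => k ⟨Additive.ofMul (b : B), hmem b⟩) hh
  have h3 : f' (h ⟨Additive.ofMul (b : B), hmem b⟩) = ⟨Additive.ofMul (b : B), hmem b⟩ := h2
  exact congrArg (fun z : N => (z : Additive B).toMul) h3

section presentation

variable {F : Type a} {Q : Type b} [Group F] [Group Q] {φ : F →* Q}

/-- The map from the universal central extension to the abelianization of `F`. -/
def abMap (φ : F →* Q) : UCE φ →* Abelianization F :=
  QuotientGroup.lift (relS φ) Abelianization.of (by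
    intro x hx
    rw [MonoidHom.mem_ker, ← MonoidHom.mem_ker, Abelianization.ker_of]
    have h1 : relS φ ≤ commutator F := Subgroup.commutator_mono le_rfl le_top
    exact h1 hx)

theorem abMap_eq_one_iff {x : UCE φ} : abMap φ x = 1 ↔ x ∈ commutator (UCE φ) := by
  constructor
  · intro h
    induction x using QuotientGroup.induction_on with
    | H g =>
      have h1 : (Abelianization.of g : Abelianization F) = 1 := h
      rw [← MonoidHom.mem_ker, Abelianization.ker_of] at h1
      exact mem_commutator_map (QuotientGroup.mk' (relS φ)) h1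
  · intro h
    have h1 : commutator (Abelianization F) = ⊥ := by
      rw [_root_.commutator_eq_bot_iff_center_eq_top]
      exact CommGroup.center_eq_top
    have h2 := mem_commutator_map (abMap φ) h
    rw [h1, Subgroup.mem_bot] at h2
    exact h2

/-- Complements: inside a subgroup `S ≤ ker π` with `S · T = ker π` there is a complement of
`T = ker π ⊓ U'` in `ker π`. -/
theorem exists_complement (hfree : Module.Free ℤ (Additive (Abelianization F)))
    (hfg : Module.Finite ℤ (Additive (Abelianization F))) (S : Subgroup (UCE φ))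
    (hS : S ≤ (piQ φ).ker)
    (hST : ∀ x ∈ (piQ φ).ker, ∃ s ∈ S, x * s⁻¹ ∈ commutator (UCE φ)) :
    ∃ K ≤ S, (∀ k ∈ K, k ∈ commutator (UCE φ) → k = 1) ∧
      ∀ x ∈ (piQ φ).ker, ∃ k ∈ K, x * k⁻¹ ∈ commutator (UCE φ) := by
  classical
  have hc := ker_piQ_le_center (φ := φ)
  letI cg : CommGroup S := { (inferInstance : Group S) with
    mul_comm := fun a b => Subtype.ext (mem_center_iff.mp (hc (hS a.2)) b).symm }
  let ab₁ : S →* Abelianization F := (abMap φ).comp S.subtype
  obtain ⟨s, hs⟩ := exists_section hfree hfg ab₁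
  refine ⟨(S.subtype.comp s).range, ?_, ?_, ?_⟩
  · rintro _ ⟨b, rfl⟩
    exact (s b).2
  · rintro _ ⟨b, rfl⟩ hk
    have h1 : abMap φ (S.subtype (s b)) = 1 := abMap_eq_one_iff.mpr hk
    have h2 : ab₁ (s b) = b := hs b
    have h3 : (b : Abelianization F) = 1 := by
      rw [← h2]
      exact h1
    have h4 : b = 1 := Subtype.ext h3
    rw [h4]
    simp
  · intro x hx
    obtain ⟨s₀, hs₀, hxs⟩ := hST x hx
    let b : ab₁.range := ⟨ab₁ ⟨s₀, hs₀⟩, ⟨_, rfl⟩⟩
    refine ⟨S.subtype (s b), ⟨b, rfl⟩, ?_⟩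
    rw [← abMap_eq_one_iff] at hxs ⊢
    have h2 : ab₁ (s b) = ab₁ ⟨s₀, hs₀⟩ := hs b
    have h3 : abMap φ (S.subtype (s b)) = abMap φ s₀ := h2
    rw [map_mul, map_inv, h3, ← map_inv, ← map_mul]
    exact hxs

/-- Normality of central subgroups of the universal extension. -/
theorem normal_of_le_ker {K : Subgroup (UCE φ)} (hK : K ≤ (piQ φ).ker) : K.Normal := by
  constructor
  intro k hk g
  have h1 := mem_center_iff.mp (ker_piQ_le_center (hK hk)) g
  rw [h1]
  simpa using hk

/-- The stem extension attached to a complement. -/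
theorem stem_of_complement [Finite Q] (hφ : Function.Surjective φ) {K : Subgroup (UCE φ)} [K.Normal]
    (hK : K ≤ (piQ φ).ker) (hK1 : ∀ k ∈ K, k ∈ commutator (UCE φ) → k = 1)
    (hK2 : ∀ x ∈ (piQ φ).ker, ∃ k ∈ K, x * k⁻¹ ∈ commutator (UCE φ)) :
    Finite (UCE φ ⧸ K) ∧ Cfsg.IsStemExtension (QuotientGroup.lift K (piQ φ) hK) ∧
      Nonempty ((QuotientGroup.lift K (piQ φ) hK).ker ≃*
        ↥((piQ φ).ker ⊓ commutator (UCE φ))) := by
  classical
  have hc := ker_piQ_le_center (φ := φ)
  have hπ := piQ_surjective hφ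
  haveI hfc := finite_commutator_of_central (piQ φ) hc hπ
  obtain ⟨σ, hσ⟩ : ∃ σ, σ = QuotientGroup.lift K (piQ φ) hK := ⟨_, rfl⟩
  rw [← hσ]
  have hσmk : ∀ u : UCE φ, σ (u : UCE φ ⧸ K) = piQ φ u := by
    intro u
    rw [hσ]
    rfl
  have hsurj : Function.Surjective σ := by
    intro q
    obtain ⟨u, rfl⟩ := hπ q
    exact ⟨(u : UCE φ ⧸ K), hσmk u⟩
  have hker : ∀ z ∈ σ.ker, ∃ t ∈ (piQ φ).ker ⊓ commutator (UCE φ), (t : UCE φ ⧸ K) = z := by
    intro z hz
    induction z using QuotientGroup.induction_on with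
    | H x =>
      have hx : x ∈ (piQ φ).ker := by
        rw [MonoidHom.mem_ker, ← hσmk]
        exact hz
      obtain ⟨k, hk, hxk⟩ := hK2 x hx
      refine ⟨x * k⁻¹, Subgroup.mem_inf.mpr ⟨(piQ φ).ker.mul_mem hx ((piQ φ).ker.inv_mem (hK hk)), hxk⟩, ?_⟩
      rw [QuotientGroup.eq]
      have h1 : (x * k⁻¹)⁻¹ * x = k := by group
      rw [h1]
      exact hk
  let g : ↥((piQ φ).ker ⊓ commutator (UCE φ)) →* σ.ker :=
    { toFun := fun t => ⟨((t : UCE φ) : UCE φ ⧸ K), by
        rw [MonoidHom.mem_ker, hσmk]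
        exact (Subgroup.mem_inf.mp t.2).1⟩
      map_one' := rfl
      map_mul' := fun _ _ => rfl }
  have hginj : Function.Injective g := by
    rw [injective_iff_map_eq_one]
    intro t ht
    have h1 : ((t : UCE φ) : UCE φ ⧸ K) = 1 := congrArg Subtype.val ht
    have h2 : (t : UCE φ) ∈ K := (QuotientGroup.eq_one_iff _).mp h1
    exact Subtype.ext (hK1 _ h2 (Subgroup.mem_inf.mp t.2).2)
  have hgsurj : Function.Surjective g := by
    rintro ⟨z, hz⟩
    obtain ⟨t, ht, rfl⟩ := hker z hz
    exact ⟨⟨t, ht⟩, rfl⟩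
  let e := MulEquiv.ofBijective g ⟨hginj, hgsurj⟩
  haveI : Finite ↥((piQ φ).ker ⊓ commutator (UCE φ)) :=
    Finite.of_injective (fun t => (⟨t, (Subgroup.mem_inf.mp t.2).2⟩ : commutator (UCE φ))) (by
      intro a b hab
      apply Subtype.ext
      exact congrArg (fun z : commutator (UCE φ) => (z : UCE φ)) hab)
  haveI : Finite σ.ker := Finite.of_equiv _ e.toEquiv
  refine ⟨finite_of_ker σ hsurj, ⟨hsurj, ?_, ?_⟩, ⟨e.symm⟩⟩
  · intro z hz
    obtain ⟨t, ht, rfl⟩ := hker z hz
    rw [mem_center_iff]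
    intro y
    induction y using QuotientGroup.induction_on with
    | H y =>
      have h1 := mem_center_iff.mp (hc (Subgroup.mem_inf.mp ht).1) y
      rw [← QuotientGroup.mk_mul, ← QuotientGroup.mk_mul, h1]
  · intro z hz
    obtain ⟨t, ht, rfl⟩ := hker z hz
    exact mem_commutator_map (QuotientGroup.mk' K) (Subgroup.mem_inf.mp ht).2

/-- The kernel of `π` modulo `U'` is the Schur multiplier. -/
theorem hopf_equiv {F Q : Type b} [Group F] [Group Q] {φ : F →* Q} (hφ : Function.Surjective φ)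
    (hfree : Module.Free ℤ (Additive (Abelianization F)))
    (hfg : Module.Finite ℤ (Additive (Abelianization F)))
    (hL : ∀ (X : Type b) [Group X] [Finite X] (ξ : X →* Q), Function.Surjective ξ →
      ∃ f : F →* X, ξ.comp f = φ)
    {A : Type c} [CommGroup A] (hA : Cfsg.HasSchurMultiplier Q A) :
    Nonempty (↥((piQ φ).ker ⊓ commutator (UCE φ)) ≃* A) := by
  classical
  haveI hQf := finite_of_hasSchur hA
  have hc := ker_piQ_le_center (φ := φ)
  have hπ := piQ_surjective hφ
  -- `A` maps onto `T`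
  obtain ⟨K, hKS, hK1, hK2⟩ := exists_complement hfree hfg (φ := φ) (piQ φ).ker le_rfl (by
    intro x hx
    exact ⟨x, hx, by rw [mul_inv_cancel]; exact Subgroup.one_mem _⟩)
  haveI hKn : K.Normal := normal_of_le_ker hKS
  obtain ⟨hfin, hstem, ⟨e⟩⟩ := stem_of_complement hφ hKS hK1 hK2
  obtain ⟨π₁, hπ₁⟩ := hA.2 _ _ hstem
  let p₁ : A →* ↥((piQ φ).ker ⊓ commutator (UCE φ)) := e.toMonoidHom.comp π₁
  have hp₁ : Function.Surjective p₁ := e.surjective.comp hπ₁
  -- `T` maps onto `A`
  obtain ⟨⟨Γ, _, _, σ, hσ, ⟨e₀⟩⟩, -⟩ := hA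
  haveI : Finite A := Finite.of_equiv _ e₀.toEquiv
  obtain ⟨f, hf⟩ := hL Γ σ hσ.1
  let fb := lift' σ hσ.2.1 f hf
  have hfb : ∀ u, σ (fb u) = piQ φ u := fun u =>
    congrArg (fun k : UCE φ →* Q => k u) (comp_lift' σ hσ.2.1 f hf)
  have htop : fb.range = ⊤ := by
    apply eq_top_of_stem σ hσ
    intro q
    obtain ⟨u, rfl⟩ := hπ q
    exact ⟨fb u, ⟨u, rfl⟩, hfb u⟩
  have hfbs : Function.Surjective fb := MonoidHom.range_eq_top.mp htop
  let p₂ : ↥((piQ φ).ker ⊓ commutator (UCE φ)) →* σ.ker :=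
    { toFun := fun t => ⟨fb t, by
        rw [MonoidHom.mem_ker, hfb]
        exact (Subgroup.mem_inf.mp t.2).1⟩
      map_one' := by apply Subtype.ext; simp
      map_mul' := by intro a b; apply Subtype.ext; simp }
  have hp₂ : Function.Surjective p₂ := by
    rintro ⟨n, hn⟩
    have h1 : n ∈ commutator Γ := hσ.2.2 hn
    rw [← map_commutator_of_surjective fb hfbs] at h1
    obtain ⟨u, hu, rfl⟩ := h1
    have h2 : u ∈ (piQ φ).ker := by
      rw [MonoidHom.mem_ker, ← hfb]
      exact hn
    exact ⟨⟨u, Subgroup.mem_inf.mpr ⟨h2, hu⟩⟩, rfl⟩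
  haveI : Finite ↥((piQ φ).ker ⊓ commutator (UCE φ)) := Finite.of_surjective p₁ hp₁
  -- cardinalities
  have hcard : Nat.card A ≤ Nat.card ↥((piQ φ).ker ⊓ commutator (UCE φ)) := by
    rw [← Nat.card_congr e₀.toEquiv]
    exact Nat.card_le_card_of_surjective p₂ hp₂
  have hbij : Function.Bijective p₁ :=
    (Nat.bijective_iff_surjective_and_card p₁).mpr ⟨hp₁, le_antisymm
      hcard (Nat.card_le_card_of_surjective p₁ hp₁)⟩
  exact ⟨(MulEquiv.ofBijective p₁ hbij).symm⟩

end presentation

/-- The canonical presentation of `Q`. -/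
def canon (Q : Type b) [Group Q] : FreeGroup Q →* Q := FreeGroup.lift id

theorem canon_surjective (Q : Type b) [Group Q] : Function.Surjective (canon Q) :=
  fun q => ⟨FreeGroup.of q, by simp [canon]⟩

theorem exists_lift_canon {Q : Type b} [Group Q] {X : Type c} [Group X] (ξ : X →* Q)
    (hξ : Function.Surjective ξ) : ∃ f : FreeGroup Q →* X, ξ.comp f = canon Q := by
  refine ⟨FreeGroup.lift (Function.surjInv hξ), ?_⟩
  ext q
  simp [canon, Function.surjInv_eq hξ]

/-- `Abelianization (FreeGroup α)` is a free `ℤ`-module. -/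
theorem free_ab_freeGroup (α : Type a) : Module.Free ℤ (Additive (Abelianization (FreeGroup α))) :=
  inferInstanceAs (Module.Free ℤ (FreeAbelianGroup α))

/-- `Abelianization (FreeGroup α)` is finitely generated for finite `α`. -/
theorem fg_ab_freeGroup (α : Type a) [Finite α] :
    Module.Finite ℤ (Additive (Abelianization (FreeGroup α))) := by
  classical
  haveI : Fintype α := Fintype.ofFinite α
  exact Module.Finite.of_basis (FreeAbelianGroup.basis α)

end Cfsg.Agent.Lib.Coprime.SchurFree
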