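import Mathlib
import Cfsg.Agent.Lib.Coprime.SchurFree

/-!
# The transfer for Schur multipliers
-/

set_option autoImplicit false
set_option linter.unusedSectionVars false
set_option linter.style.haveILetI false
set_option linter.unusedVariables false

namespace Cfsg.Agent.Lib.Coprime.SchurTrans

open Subgroup Cfsg.Agent.Lib.Coprime.SchurBasic Cfsg.Agent.Lib.Coprime.SchurExt
  Cfsg.Agent.Lib.Coprime.SchurPull Cfsg.Agent.Lib.Coprime.SchurFree
open scoped commutatorElement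

theorem algebra_final {A B : Type*} [CommGroup A] [CommGroup B] [Finite A] (p : ℕ) [hpf : Fact p.Prime]
    (τ : A →* B) (ι : B →* A) (m : ℕ) (hm : Nat.Coprime m p) (h : ∀ a, ι (τ a) = a ^ m) :
    ∃ C D : Subgroup B, C ⊓ D = ⊥ ∧ C ⊔ D = ⊤ ∧ Nonempty (CommGroup.primaryComponent A p ≃* C) := by
  classical
  have hp : p.Prime := hpf.out
  obtain ⟨k, q, hq, hA⟩ := Nat.exists_eq_pow_mul_and_not_dvd (Nat.card_pos (α := A)).ne' p hp.ne_one
  have hqcop : Nat.Coprime q p := ((Nat.Prime.coprime_iff_not_dvd hp).mpr hq).symm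
  have hcop : Nat.Coprime (q * m) (p ^ k) := Nat.Coprime.pow_right k (Nat.Coprime.mul_left hqcop hm)
  obtain ⟨w, hw⟩ : ∃ w : ℕ, (q * m) * w % p ^ k = 1 % p ^ k := by
    rcases Nat.eq_zero_or_pos k with rfl | hk
    · exact ⟨0, by simp [Nat.mod_one]⟩
    · have h1 : 1 < p ^ k := Nat.one_lt_pow hk.ne' hp.one_lt
      obtain ⟨w, -, hw⟩ := Nat.exists_mul_mod_eq_one_of_coprime hcop h1
      exact ⟨w, by rw [hw, Nat.mod_eq_of_lt h1]⟩
  set n : ℕ := q * w with hn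
  have hpow : ∀ a ∈ CommGroup.primaryComponent A p, a ^ p ^ k = 1 := by
    intro a ha
    obtain ⟨j, hj⟩ := CommGroup.mem_primaryComponent_iff_orderOf.mp ha
    have h1 : orderOf a ∣ p ^ k * q := by
      rw [← hA]
      exact orderOf_dvd_natCard a
    rw [hj] at h1
    have h2 : p ^ j ∣ p ^ k := (Nat.Coprime.pow_left j hqcop.symm).dvd_of_dvd_mul_right h1
    rw [← hj] at h2
    exact orderOf_dvd_iff_pow_eq_one.mp h2
  have hproj : ∀ a ∈ CommGroup.primaryComponent A p, (a ^ m) ^ n = a := by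
    intro a ha
    rw [← pow_mul]
    have e : m * n % p ^ k = 1 % p ^ k := by
      rw [hn, ← hw]
      congr 1
      ring
    rw [pow_eq_pow_mod _ (hpow a ha), e, ← pow_eq_pow_mod _ (hpow a ha), pow_one]
  have hret : ∀ x : A, x ^ n ∈ CommGroup.primaryComponent A p := by
    intro x
    refine ⟨k, ?_⟩
    rw [← pow_mul]
    have e : n * p ^ k = Nat.card A * w := by
      rw [hA, hn]
      ring
    rw [e, pow_mul, pow_card_eq_one', one_pow]
  let ρ : B →* A := (powMonoidHom n).comp ι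
  have hρ : ∀ b, ρ b = (ι b) ^ n := fun b => rfl
  have hρτ : ∀ a ∈ CommGroup.primaryComponent A p, ρ (τ a) = a := by
    intro a ha
    rw [hρ, h, hproj a ha]
  refine ⟨(CommGroup.primaryComponent A p).map τ, ρ.ker, ?_, ?_, ?_⟩
  · rw [eq_bot_iff]
    rintro b ⟨⟨a, ha, rfl⟩, hb⟩
    have h1 : ρ (τ a) = 1 := hb
    rw [hρτ a ha] at h1
    rw [Subgroup.mem_bot, h1, map_one]
  · rw [eq_top_iff]
    intro b _
    have h1 : τ (ρ b) ∈ (CommGroup.primaryComponent A p).map τ := ⟨_, hret (ι b), rfl⟩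
    have h2 : (τ (ρ b))⁻¹ * b ∈ ρ.ker := by
      rw [MonoidHom.mem_ker, map_mul, map_inv, hρτ (ρ b) (hret (ι b)), inv_mul_cancel]
    have : b = τ (ρ b) * ((τ (ρ b))⁻¹ * b) := by group
    rw [this]
    exact Subgroup.mul_mem_sup h1 h2
  · have hsurj := MonoidHom.subgroupMap_surjective τ (CommGroup.primaryComponent A p)
    have hinj : Function.Injective (τ.subgroupMap (CommGroup.primaryComponent A p)) := by
      rw [injective_iff_map_eq_one]
      rintro ⟨a, ha⟩ e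
      have h1 : τ a = 1 := congrArg Subtype.val e
      have h2 := hρτ a ha
      rw [h1, map_one] at h2
      exact Subtype.ext h2.symm
    exact ⟨MulEquiv.ofBijective _ ⟨hinj, hsurj⟩⟩

theorem mem_commutator_of_pow {F Q : Type*} [Group F] [Group Q] (φ : F →* Q)
    (hfree : Module.Free ℤ (Additive (Abelianization F))) {x : UCE φ} {k : ℕ} (hk : k ≠ 0) (hx : x ^ k = 1) :
    x ∈ commutator (UCE φ) := by
  rw [← abMap_eq_one_iff]
  have h1 : (abMap φ x) ^ k = 1 := by rw [← map_pow, hx, map_one]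
  have h2 : (k : ℤ) • Additive.ofMul (abMap φ x) = 0 := by
    rw [natCast_zsmul, ← ofMul_pow, h1]
    rfl
  have h3 := (smul_eq_zero.mp h2).resolve_left (by exact_mod_cast hk)
  exact h3

section Pres

variable {F Q Q₁ : Type*} [Group F] [Group Q] [Group Q₁]

noncomputable instance kerComm (φ : F →* Q) : CommGroup ↥(piQ φ).ker :=
  { (inferInstance : Group ↥(piQ φ).ker) with
    mul_comm := by
      rintro ⟨a, ha⟩ ⟨b, hb⟩
      apply Subtype.ext
      exact (mem_center_iff.mp (ker_piQ_le_center ha) b).symm }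

theorem mem_ker_piQ {φ : F →* Q} {f : F} : ((f : UCE φ)) ∈ (piQ φ).ker ↔ φ f = 1 := Iff.rfl

variable {φ : F →* Q} {F₁ : Subgroup F} {φ₁ : ↥F₁ →* Q₁}

structure Pres (φ : F →* Q) (F₁ : Subgroup F) (φ₁ : ↥F₁ →* Q₁) : Prop where
  hk : ∀ f : ↥F₁, φ₁ f = 1 ↔ φ (f : F) = 1
  hle : φ.ker ≤ F₁

/-- The map between the universal central extensions. -/
noncomputable def iotaHat (h : Pres φ F₁ φ₁) : UCE φ₁ →* UCE φ :=
  QuotientGroup.map (relS φ₁) (relS φ) F₁.subtype (by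
    rw [relS, Subgroup.commutator_le]
    intro a _ b hb
    show F₁.subtype ⁅a, b⁆ ∈ relS φ
    rw [map_commutatorElement]
    exact Subgroup.commutator_mem_commutator (mem_top _) ((h.hk b).mp hb))

theorem iotaHat_mk (h : Pres φ F₁ φ₁) (f : ↥F₁) : iotaHat h (f : UCE φ₁) = (((f : F)) : UCE φ) := rfl

/-- The restriction to kernels. -/
noncomputable def iotaK (h : Pres φ F₁ φ₁) : ↥(piQ φ₁).ker →* ↥(piQ φ).ker :=
  MonoidHom.codRestrict ((iotaHat h).comp (piQ φ₁).ker.subtype) _ (by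
    rintro ⟨x, hx⟩
    obtain ⟨f, rfl⟩ := QuotientGroup.mk_surjective x
    exact (h.hk f).mp hx)

theorem conj_mem_ker (r : ↥φ.ker) (t : F) : t⁻¹ * (r : F) * t ∈ φ.ker := by
  rw [MonoidHom.mem_ker, map_mul, map_mul, MonoidHom.mem_ker.mp r.2]
  simp

/-- Conjugating an element of the relation subgroup into `F₁`. -/
noncomputable def conjK (h : Pres φ F₁ φ₁) (t : F) : ↥φ.ker →* ↥(piQ φ₁).ker where
  toFun r := ⟨((⟨t⁻¹ * (r : F) * t, h.hle (conj_mem_ker r t)⟩ : ↥F₁) : UCE φ₁),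
    (h.hk _).mpr (conj_mem_ker r t)⟩
  map_one' := by
    apply Subtype.ext
    have : (⟨t⁻¹ * ((1 : ↥φ.ker) : F) * t, h.hle (conj_mem_ker 1 t)⟩ : ↥F₁) = 1 := by
      apply Subtype.ext
      simp
    show (((⟨t⁻¹ * ((1 : ↥φ.ker) : F) * t, h.hle (conj_mem_ker 1 t)⟩ : ↥F₁)) : UCE φ₁) = 1
    rw [this]
    rfl
  map_mul' := by
    intro a b
    apply Subtype.ext
    show (((⟨t⁻¹ * (((a * b : ↥φ.ker)) : F) * t, _⟩ : ↥F₁)) : UCE φ₁) =
      (((⟨t⁻¹ * (a : F) * t, _⟩ : ↥F₁)) : UCE φ₁) * (((⟨t⁻¹ * (b : F) * t, _⟩ : ↥F₁)) : UCE φ₁)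
    rw [← QuotientGroup.mk_mul]
    congr 1
    apply Subtype.ext
    show t⁻¹ * ((a : F) * (b : F)) * t = t⁻¹ * (a : F) * t * (t⁻¹ * (b : F) * t)
    group

theorem conjK_coe (h : Pres φ F₁ φ₁) (t : F) (r : ↥φ.ker) :
    ((conjK h t r : ↥(piQ φ₁).ker) : UCE φ₁) = ((⟨t⁻¹ * (r : F) * t, h.hle (conj_mem_ker r t)⟩ : ↥F₁) : UCE φ₁) := rfl

theorem conjK_mul (h : Pres φ F₁ φ₁) (t : F) (f : ↥F₁) : conjK h (t * f) = conjK h t := by
  ext r
  rw [conjK_coe, conjK_coe]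
  have hmem := ker_piQ_le_center (φ := φ₁) (conjK h t r).2
  rw [conjK_coe] at hmem
  have e : (⟨(t * f)⁻¹ * (r : F) * (t * f), h.hle (conj_mem_ker r (t * f))⟩ : ↥F₁) =
      f⁻¹ * ⟨t⁻¹ * (r : F) * t, h.hle (conj_mem_ker r t)⟩ * f := by
    apply Subtype.ext
    show (t * f)⁻¹ * (r : F) * (t * f) = (f : F)⁻¹ * (t⁻¹ * (r : F) * t) * (f : F)
    group
  rw [e, QuotientGroup.mk_mul, QuotientGroup.mk_mul, QuotientGroup.mk_inv]
  have h2 := mem_center_iff.mp hmem ((f : UCE φ₁))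
  rw [mul_assoc, ← h2]
  group

theorem conjK_out (h : Pres φ F₁ φ₁) (t : F) : conjK h ((t : F ⧸ F₁)).out = conjK h t := by
  obtain ⟨f, hf⟩ := QuotientGroup.mk_out_eq_mul F₁ t
  rw [hf, conjK_mul]

variable [Fintype (F ⧸ F₁)]

/-- The norm. -/
noncomputable def normN (h : Pres φ F₁ φ₁) : ↥φ.ker →* ↥(piQ φ₁).ker :=
  ∏ q : F ⧸ F₁, conjK h q.out

theorem normN_apply (h : Pres φ F₁ φ₁) (r : ↥φ.ker) : normN h r = ∏ q : F ⧸ F₁, conjK h q.out r := by
  rw [normN, MonoidHom.finsetProd_apply]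

theorem conjK_conj (h : Pres φ F₁ φ₁) (t x : F) (r : ↥φ.ker) (hm : x * (r : F) * x⁻¹ ∈ φ.ker) :
    conjK h t ⟨x * (r : F) * x⁻¹, hm⟩ = conjK h (x⁻¹ * t) r := by
  apply Subtype.ext
  rw [conjK_coe, conjK_coe]
  congr 1
  apply Subtype.ext
  show t⁻¹ * (x * (r : F) * x⁻¹) * t = (x⁻¹ * t)⁻¹ * (r : F) * (x⁻¹ * t)
  group

theorem normN_conj (h : Pres φ F₁ φ₁) (x : F) (r : ↥φ.ker) (hm : x * (r : F) * x⁻¹ ∈ φ.ker) :
    normN h ⟨x * (r : F) * x⁻¹, hm⟩ = normN h r := by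
  rw [normN_apply, normN_apply]
  have h1 : ∀ q : F ⧸ F₁, conjK h q.out ⟨x * (r : F) * x⁻¹, hm⟩ = conjK h (x⁻¹ • q).out r := by
    intro q
    rw [conjK_conj, ← conjK_out h (x⁻¹ * q.out)]
    congr 2
    have : ((x⁻¹ * q.out : F) : F ⧸ F₁) = x⁻¹ • ((q.out : F) : F ⧸ F₁) := rfl
    rw [this, QuotientGroup.out_eq']
  rw [Finset.prod_congr rfl (fun q _ => h1 q)]
  exact Equiv.prod_comp (MulAction.toPerm x⁻¹) (fun q : F ⧸ F₁ => conjK h q.out r)

/-- The map to the kernel of `π`. -/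
noncomputable def sK (φ : F →* Q) : ↥φ.ker →* ↥(piQ φ).ker where
  toFun r := ⟨((r : F) : UCE φ), r.2⟩
  map_one' := rfl
  map_mul' _ _ := rfl

theorem sK_surjective : Function.Surjective (sK φ) := by
  rintro ⟨x, hx⟩
  obtain ⟨f, rfl⟩ := QuotientGroup.mk_surjective x
  exact ⟨⟨f, hx⟩, rfl⟩

theorem sK_ker_le (h : Pres φ F₁ φ₁) : (sK φ).ker ≤ (normN h).ker := by
  intro r hr
  have h1 : (r : F) ∈ relS φ := by
    have h2 : (((r : F)) : UCE φ) = 1 := congrArg Subtype.val hr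
    exact (QuotientGroup.eq_one_iff _).mp h2
  have h2 : relS φ ≤ (normN h).ker.map φ.ker.subtype := by
    rw [relS, Subgroup.commutator_le]
    intro x _ s hs
    have hm : x * s * x⁻¹ ∈ φ.ker := by
      rw [MonoidHom.mem_ker, map_mul, map_mul, MonoidHom.mem_ker.mp hs]
      simp
    have hm2 : ⁅x, s⁆ ∈ φ.ker := by
      rw [commutatorElement_def]
      exact mul_mem hm (inv_mem hs)
    refine ⟨⟨⁅x, s⁆, hm2⟩, ?_, rfl⟩
    have e : (⟨⁅x, s⁆, hm2⟩ : ↥φ.ker) = ⟨x * s * x⁻¹, hm⟩ * (⟨s, hs⟩ : ↥φ.ker)⁻¹ := by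
      apply Subtype.ext
      show ⁅x, s⁆ = x * s * x⁻¹ * s⁻¹
      rw [commutatorElement_def]
    show normN h ⟨⁅x, s⁆, hm2⟩ = 1
    rw [e, map_mul, map_inv, normN_conj h x ⟨s, hs⟩ hm, mul_inv_cancel]
  obtain ⟨r', hr', e⟩ := h2 h1
  have : r' = r := Subtype.ext e
  rwa [← this]

/-- The induced map `Y → Y₁`. -/
noncomputable def nuK (h : Pres φ F₁ φ₁) : ↥(piQ φ).ker →* ↥(piQ φ₁).ker :=
  (sK φ).liftOfSurjective sK_surjective ⟨normN h, sK_ker_le h⟩

theorem nuK_sK (h : Pres φ F₁ φ₁) (r : ↥φ.ker) : nuK h (sK φ r) = normN h r :=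
  (sK φ).liftOfRightInverse_comp_apply _ _ ⟨normN h, sK_ker_le h⟩ r

theorem iotaK_conjK (h : Pres φ F₁ φ₁) (t : F) (r : ↥φ.ker) : iotaK h (conjK h t r) = sK φ r := by
  apply Subtype.ext
  show iotaHat h (((conjK h t r : ↥(piQ φ₁).ker) : UCE φ₁)) = ((r : F) : UCE φ)
  rw [conjK_coe, iotaHat_mk]
  have e : ((t⁻¹ * (r : F) * t : F) : UCE φ) = ((t : F) : UCE φ)⁻¹ * ((r : F) : UCE φ) * ((t : F) : UCE φ) := by
    rw [QuotientGroup.mk_mul, QuotientGroup.mk_mul, QuotientGroup.mk_inv]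
  show ((t⁻¹ * (r : F) * t : F) : UCE φ) = ((r : F) : UCE φ)
  rw [e]
  have h2 := mem_center_iff.mp (ker_piQ_le_center (φ := φ) (sK φ r).2) ((t : F) : UCE φ)
  have h3 : ((t : F) : UCE φ) * ((r : F) : UCE φ) = ((r : F) : UCE φ) * ((t : F) : UCE φ) := h2
  rw [mul_assoc, ← h3]
  group

theorem iotaK_nuK (h : Pres φ F₁ φ₁) (y : ↥(piQ φ).ker) : iotaK h (nuK h y) = y ^ (Fintype.card (F ⧸ F₁)) := by
  obtain ⟨r, rfl⟩ := sK_surjective y
  rw [nuK_sK, normN_apply, map_prod]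
  rw [Finset.prod_congr rfl (fun q _ => iotaK_conjK h q.out r)]
  rw [Finset.prod_const, Finset.card_univ]

end Pres


universe u

theorem free_of_isFree (X : Type u) [Group X] [IsFreeGroup X] : Module.Free ℤ (Additive (Abelianization X)) := by
  have e : Additive (Abelianization X) ≃+ Additive (Abelianization (FreeGroup (IsFreeGroup.Generators X))) :=
    ((IsFreeGroup.toFreeGroup X).abelianizationCongr).toAdditive
  haveI := free_ab_freeGroup (IsFreeGroup.Generators X)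
  exact Module.Free.of_equiv e.symm.toIntLinearEquiv

theorem fg_of_group_fg (X : Type u) [Group X] [hX : Group.FG X] : Module.Finite ℤ (Additive (Abelianization X)) := by
  rw [Module.Finite.iff_addGroup_fg]
  haveI : Group.FG (Abelianization X) :=
    Group.fg_of_surjective (f := Abelianization.of) (QuotientGroup.mk'_surjective _)
  exact GroupFG.iff_add_fg.mp inferInstance

theorem lift_of_isFree {X Q : Type*} [Group X] [IsFreeGroup X] [Group Q] (φ : X →* Q) {Y : Type*} [Group Y]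
    (ξ : Y →* Q) (hξ : Function.Surjective ξ) : ∃ f : X →* Y, ξ.comp f = φ := by
  refine ⟨IsFreeGroup.lift (fun a => Function.surjInv hξ (φ (IsFreeGroup.of a))), ?_⟩
  apply IsFreeGroup.ext_hom
  intro a
  simp only [MonoidHom.comp_apply, IsFreeGroup.lift_of]
  exact Function.surjInv_eq hξ _

theorem main {G : Type u} [Group G] [Finite G] (p : ℕ) [hpf : Fact p.Prime] (P : Sylow p G) {A B : Type*}
    [CommGroup A] [CommGroup B] (hA : Cfsg.HasSchurMultiplier G A) (hB : Cfsg.HasSchurMultiplier (↥(P : Subgroup G)) B) :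
    ∃ C D : Subgroup B, C ⊓ D = ⊥ ∧ C ⊔ D = ⊤ ∧ Nonempty (CommGroup.primaryComponent A p ≃* C) := by
  classical
  have hp : p.Prime := hpf.out
  obtain ⟨eA⟩ := hopf_equiv (canon_surjective G) (free_ab_freeGroup G) (fg_ab_freeGroup G)
    (fun X _ _ ξ hξ => exists_lift_canon ξ hξ) hA
  set φ : FreeGroup G →* G := canon G with hφdef
  have hφ : Function.Surjective φ := canon_surjective G
  set F₁ : Subgroup (FreeGroup G) := (P : Subgroup G).comap φ with hF₁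
  let φ₁ : ↥F₁ →* ↥(P : Subgroup G) := φ.subgroupComap (P : Subgroup G)
  have hφ₁ : Function.Surjective φ₁ := φ.subgroupComap_surjective_of_surjective _ hφ
  have hindex : F₁.index = (P : Subgroup G).index := Subgroup.index_comap_of_surjective _ hφ
  haveI hfi : F₁.FiniteIndex := ⟨by
    rw [hindex]
    exact Subgroup.index_ne_zero_of_finite⟩
  have hfree₁ := free_of_isFree ↥F₁
  have hfg₁ := fg_of_group_fg ↥F₁
  obtain ⟨eB⟩ := hopf_equiv hφ₁ hfree₁ hfg₁ (fun X _ _ ξ hξ => lift_of_isFree φ₁ ξ hξ) hB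
  have pres : Pres φ F₁ φ₁ := by
    refine ⟨fun f => ?_, fun r hr => ?_⟩
    · constructor
      · intro h
        exact congrArg Subtype.val h
      · intro h
        exact Subtype.ext h
    · show φ r ∈ (P : Subgroup G)
      rw [MonoidHom.mem_ker.mp hr]
      exact one_mem _
  letI : Fintype (FreeGroup G ⧸ F₁) := Fintype.ofFinite _
  haveI hAf : Finite A := by
    obtain ⟨⟨Γ, _, _, σ, -, ⟨e₀⟩⟩, -⟩ := hA
    exact Finite.of_equiv _ e₀.toEquiv
  haveI hMf : Finite ↥((piQ φ).ker ⊓ commutator (UCE φ)) := Finite.of_equiv _ eA.symm.toEquiv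
  let inclM : ↥((piQ φ).ker ⊓ commutator (UCE φ)) →* ↥(piQ φ).ker := Subgroup.inclusion inf_le_left
  have hτmem : ∀ y : ↥((piQ φ).ker ⊓ commutator (UCE φ)),
      (((nuK pres (inclM y) : ↥(piQ φ₁).ker)) : UCE φ₁) ∈ (piQ φ₁).ker ⊓ commutator (UCE φ₁) := by
    intro y
    refine Subgroup.mem_inf.mpr ⟨(nuK pres (inclM y)).2, ?_⟩
    apply mem_commutator_of_pow φ₁ hfree₁ (k := orderOf y) (orderOf_pos y).ne'
    have h1 : (nuK pres (inclM y)) ^ orderOf y = 1 := by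
      rw [← map_pow, ← map_pow, pow_orderOf_eq_one, map_one, map_one]
    exact congrArg Subtype.val h1
  let τ₀ : ↥((piQ φ).ker ⊓ commutator (UCE φ)) →* ↥((piQ φ₁).ker ⊓ commutator (UCE φ₁)) :=
    MonoidHom.codRestrict (((piQ φ₁).ker.subtype).comp ((nuK pres).comp inclM)) _ hτmem
  have hιmem : ∀ y : ↥((piQ φ₁).ker ⊓ commutator (UCE φ₁)),
      iotaHat pres (y : UCE φ₁) ∈ (piQ φ).ker ⊓ commutator (UCE φ) := by
    intro y
    have hy := Subgroup.mem_inf.mp y.2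
    refine Subgroup.mem_inf.mpr ⟨(iotaK pres ⟨y, hy.1⟩).2, ?_⟩
    exact map_commutator_le (iotaHat pres) ⟨_, hy.2, rfl⟩
  let ι₀ : ↥((piQ φ₁).ker ⊓ commutator (UCE φ₁)) →* ↥((piQ φ).ker ⊓ commutator (UCE φ)) :=
    MonoidHom.codRestrict ((iotaHat pres).comp ((piQ φ₁).ker ⊓ commutator (UCE φ₁)).subtype) _ hιmem
  have hcomp₀ : ∀ y, ι₀ (τ₀ y) = y ^ (Fintype.card (FreeGroup G ⧸ F₁)) := by
    intro y
    apply Subtype.ext
    have h1 := iotaK_nuK pres (inclM y)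
    have h2 := congrArg Subtype.val h1
    exact h2
  refine algebra_final p (eB.toMonoidHom.comp (τ₀.comp eA.symm.toMonoidHom))
    (eA.toMonoidHom.comp (ι₀.comp eB.symm.toMonoidHom)) (Fintype.card (FreeGroup G ⧸ F₁)) ?_ ?_
  · rw [← Nat.card_eq_fintype_card]
    have e : Nat.card (FreeGroup G ⧸ F₁) = (P : Subgroup G).index := hindex
    rw [e]
    exact ((Nat.Prime.coprime_iff_not_dvd hp).mpr P.not_dvd_index).symm
  · intro a
    have : (eA.toMonoidHom.comp (ι₀.comp eB.symm.toMonoidHom)) ((eB.toMonoidHom.comp (τ₀.comp eA.symm.toMonoidHom)) a) =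
        eA (ι₀ (eB.symm (eB (τ₀ (eA.symm a))))) := rfl
    rw [this, MulEquiv.symm_apply_apply, hcomp₀, map_pow, MulEquiv.apply_symm_apply]

end Cfsg.Agent.Lib.Coprime.SchurTrans
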