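import Mathlib
import Cfsg.Agent.Lib.Coprime.Extraspecial

/-!
# Semiregular cyclic subgroups of symplectic groups over `ZMod p`

If `x` is an isometry of a finite nondegenerate alternating space of dimension `2n` over `ZMod p`
with `x ^ h = 1`, `h` prime to `p`, and all `x ^ i`, `0 < i < h`, are fixed point free, then
`p ^ n ≡ ±1 mod h`.
-/

set_option autoImplicit false
set_option linter.unusedSectionVars false
set_option linter.style.haveILetI false

namespace Cfsg.Agent.Lib.Coprime.SpCyc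

universe u

open Module

variable {p : ℕ} [hpf : Fact p.Prime]

section field

variable {V : Type u} [AddCommGroup V] [Module (ZMod p) V] [Finite V]

theorem finite_end : Finite (Module.End (ZMod p) V) :=
  Finite.of_injective (fun f : Module.End (ZMod p) V => (f : V → V)) DFunLike.coe_injective

theorem adjoin_pow_card [Nontrivial V] (y : Module.End (ZMod p) V)
    (hinj : ∀ c ∈ Algebra.adjoin (ZMod p) {y}, c ≠ 0 → Function.Injective c) :
    ∀ c ∈ Algebra.adjoin (ZMod p) {y}, c ^ Nat.card (Algebra.adjoin (ZMod p) {y}) = c := by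
  classical
  haveI := finite_end (p := p) (V := V)
  letI : CommRing (Algebra.adjoin (ZMod p) {y}) :=
    Algebra.adjoinCommRingOfComm (ZMod p) (by
      intro a ha b hb
      rw [Set.mem_singleton_iff] at ha hb
      rw [ha, hb])
  have hnzd : ∀ a b : Algebra.adjoin (ZMod p) {y}, a * b = 0 → a = 0 ∨ b = 0 := by
    intro a b hab
    by_cases ha : a = 0
    · exact Or.inl ha
    right
    have ha' : (a : Module.End (ZMod p) V) ≠ 0 := fun h => ha (Subtype.ext h)
    have hi := hinj a a.2 ha'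
    apply Subtype.ext
    apply LinearMap.ext
    intro v
    have h1 : ((a * b : Algebra.adjoin (ZMod p) {y}) : Module.End (ZMod p) V) v = 0 := by
      rw [hab]; rfl
    have h2 : (a : Module.End (ZMod p) V) ((b : Module.End (ZMod p) V) v) = 0 := h1
    have h3 : (a : Module.End (ZMod p) V) ((b : Module.End (ZMod p) V) v) =
        (a : Module.End (ZMod p) V) 0 := by rw [h2, map_zero]
    exact hi h3
  haveI : NoZeroDivisors (Algebra.adjoin (ZMod p) {y}) := ⟨fun {a b} h => hnzd a b h⟩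
  haveI : Nontrivial (Algebra.adjoin (ZMod p) {y}) := by
    refine ⟨⟨0, 1, ?_⟩⟩
    intro h
    obtain ⟨v, hv⟩ := exists_ne (0 : V)
    have h1 := congrArg (fun a : Algebra.adjoin (ZMod p) {y} =>
      (a : Module.End (ZMod p) V) v) h
    exact hv (Eq.symm h1)
  haveI : IsDomain (Algebra.adjoin (ZMod p) {y}) := NoZeroDivisors.to_isDomain _
  letI : Fintype (Algebra.adjoin (ZMod p) {y}) := Fintype.ofFinite _
  letI : Field (Algebra.adjoin (ZMod p) {y}) := Fintype.fieldOfDomain _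
  intro c hc
  have h1 := FiniteField.pow_card (⟨c, hc⟩ : Algebra.adjoin (ZMod p) {y})
  rw [Nat.card_eq_fintype_card]
  exact congrArg Subtype.val h1

end field

section irr

variable {V : Type u} [AddCommGroup V] [Module (ZMod p) V] [Finite V]

/-- Elements commuting with an irreducible operator are zero or injective. -/
theorem inj_of_comm (x c : Module.End (ZMod p) V)
    (hirr : ∀ W : Submodule (ZMod p) V, (∀ v ∈ W, x v ∈ W) → W = ⊥ ∨ W = ⊤)
    (hc : x * c = c * x) (hc0 : c ≠ 0) : Function.Injective c := by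
  have h1 : ∀ v ∈ LinearMap.ker c, x v ∈ LinearMap.ker c := by
    intro v hv
    rw [LinearMap.mem_ker] at hv ⊢
    have : (c * x) v = (x * c) v := by rw [hc]
    rw [show c (x v) = (c * x) v from rfl, this, show (x * c) v = x (c v) from rfl, hv, map_zero]
  rcases hirr _ h1 with h | h
  · exact LinearMap.ker_eq_bot.mp h
  · exfalso
    apply hc0
    apply LinearMap.ext
    intro v
    have : v ∈ LinearMap.ker c := by rw [h]; exact Submodule.mem_top
    simpa using this

theorem comm_adjoin (x y : Module.End (ZMod p) V) (hxy : x * y = y * x) :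
    ∀ c ∈ Algebra.adjoin (ZMod p) {y}, x * c = c * x := by
  intro c hc
  induction hc using Algebra.adjoin_induction with
  | mem a ha =>
    rw [Set.mem_singleton_iff] at ha
    rw [ha, hxy]
  | algebraMap r => exact (Algebra.commutes r x).symm
  | add a b _ _ ha hb => rw [mul_add, add_mul, ha, hb]
  | mul a b _ _ ha hb => rw [← mul_assoc, ha, mul_assoc, hb, mul_assoc]

theorem card_irr_pow [Nontrivial V] (x x' : Module.End (ZMod p) V) (hxx' : x * x' = 1)
    (hirr : ∀ W : Submodule (ZMod p) V, (∀ v ∈ W, x v ∈ W) → W = ⊥ ∨ W = ⊤) :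
    x ^ (p ^ finrank (ZMod p) V) = x := by
  classical
  haveI := finite_end (p := p) (V := V)
  have hinj : ∀ c ∈ Algebra.adjoin (ZMod p) {x}, c ≠ 0 → Function.Injective c := fun c hc hc0 =>
    inj_of_comm x c hirr (comm_adjoin x x rfl c hc) hc0
  have hpow := adjoin_pow_card x hinj
  -- the orbit map
  obtain ⟨u, hu⟩ := exists_ne (0 : V)
  let Φ : (Algebra.adjoin (ZMod p) {x}) →ₗ[ZMod p] V :=
    (LinearMap.applyₗ u).comp (Algebra.adjoin (ZMod p) {x}).val.toLinearMap
  have hΦ : ∀ c : Algebra.adjoin (ZMod p) {x}, Φ c = (c : Module.End (ZMod p) V) u := fun c => rfl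
  have hΦi : Function.Injective Φ := by
    rw [injective_iff_map_eq_zero]
    intro c hc
    rw [hΦ] at hc
    by_contra hc0
    have hc0' : (c : Module.End (ZMod p) V) ≠ 0 := fun h => hc0 (Subtype.ext h)
    exact hu (hinj _ c.2 hc0' (by rw [hc, map_zero]))
  have hΦs : Function.Surjective Φ := by
    have h1 : ∀ v ∈ LinearMap.range Φ, x v ∈ LinearMap.range Φ := by
      rintro _ ⟨c, rfl⟩
      refine ⟨⟨x * c, Subalgebra.mul_mem _ (Algebra.self_mem_adjoin_singleton _ _) c.2⟩, ?_⟩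
      rfl
    rcases hirr _ h1 with h | h
    · exfalso
      have : Φ 1 ∈ LinearMap.range Φ := ⟨1, rfl⟩
      rw [h, Submodule.mem_bot] at this
      exact hu this
    · exact LinearMap.range_eq_top.mp h
  have hcard : Nat.card (Algebra.adjoin (ZMod p) {x}) = Nat.card V :=
    Nat.card_congr (Equiv.ofBijective Φ ⟨hΦi, hΦs⟩)
  have h2 := hpow x (Algebra.self_mem_adjoin_singleton _ _)
  rw [hcard, Module.natCard_eq_pow_finrank (K := ZMod p), Nat.card_zmod] at h2
  exact h2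

end irr

section base

variable {V : Type u} [AddCommGroup V] [Module (ZMod p) V] [Finite V]

theorem base_irr [Nontrivial V] (x x' : Module.End (ZMod p) V) (hxx' : x * x' = 1)
    (hx'x : x' * x = 1)
    (hirr : ∀ W : Submodule (ZMod p) V, (∀ v ∈ W, x v ∈ W) → W = ⊥ ∨ W = ⊤)
    (ω : LinearMap.BilinForm (ZMod p) V) (halt : ω.IsAlt) (hnd : ω.Nondegenerate)
    (hinv : ∀ u v, ω (x u) (x v) = ω u v) :
    ∃ e : ℕ, finrank (ZMod p) V = 2 * e ∧ (x ^ (p ^ e) = x ∨ x ^ (p ^ e) = x') := by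
  classical
  haveI := finite_end (p := p) (V := V)
  have hp : p.Prime := hpf.out
  have hxv : ∀ v, x (x' v) = v := fun v => LinearMap.congr_fun hxx' v
  have hxv' : ∀ v, x' (x v) = v := fun v => LinearMap.congr_fun hx'x v
  have hinv' : ∀ u v, ω (x' u) v = ω u (x v) := by
    intro u v
    rw [← hinv (x' u) v, hxv]
  have hinv'' : ∀ u v, ω (x u) v = ω u (x' v) := by
    intro u v
    rw [← hinv u (x' v), hxv]
  have hcx : x * (x + x') = (x + x') * x := by
    rw [mul_add, add_mul, hxx', hx'x]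
  have hinj : ∀ c ∈ Algebra.adjoin (ZMod p) {x + x'}, c ≠ 0 → Function.Injective c :=
    fun c hc hc0 => inj_of_comm x c hirr (comm_adjoin x _ hcx c hc) hc0
  have hpow := adjoin_pow_card (x + x') hinj
  have hcommF : ∀ a ∈ Algebra.adjoin (ZMod p) {x + x'}, ∀ b ∈ Algebra.adjoin (ZMod p) {x + x'},
      a * b = b * a := fun a ha b hb =>
    comm_adjoin a (x + x') (comm_adjoin (x + x') (x + x') rfl a ha).symm b hb
  have hadj : ∀ c ∈ Algebra.adjoin (ZMod p) {x + x'}, ∀ u v, ω (c u) v = ω u (c v) := by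
    intro c hc
    induction hc using Algebra.adjoin_induction with
    | mem a ha =>
      intro u v
      rw [Set.mem_singleton_iff] at ha
      subst ha
      simp only [LinearMap.add_apply, map_add]
      rw [hinv'', hinv']
      exact add_comm _ _
    | algebraMap r =>
      intro u v
      simp [Module.algebraMap_end_apply]
    | add a b _ _ ha hb =>
      intro u v
      simp only [LinearMap.add_apply, map_add, ha, hb]
    | mul a b ha0 hb0 ha hb =>
      intro u v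
      rw [Module.End.mul_apply, Module.End.mul_apply, ha, hb, ← Module.End.mul_apply,
        ← Module.End.mul_apply, hcommF a ha0 b hb0]
  obtain ⟨u, hu⟩ := exists_ne (0 : V)
  let Φ : (Algebra.adjoin (ZMod p) {x + x'}) →ₗ[ZMod p] V :=
    (LinearMap.applyₗ u).comp (Algebra.adjoin (ZMod p) {x + x'}).val.toLinearMap
  have hΦ : ∀ c : Algebra.adjoin (ZMod p) {x + x'}, Φ c = (c : Module.End (ZMod p) V) u :=
    fun c => rfl
  have hΦi : Function.Injective Φ := by
    rw [injective_iff_map_eq_zero]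
    intro c hc
    rw [hΦ] at hc
    by_contra hc0
    have hc0' : (c : Module.End (ZMod p) V) ≠ 0 := fun h => hc0 (Subtype.ext h)
    exact hu (hinj _ c.2 hc0' (by rw [hc, map_zero]))
  obtain ⟨U, hU⟩ : ∃ U, U = LinearMap.range Φ := ⟨_, rfl⟩
  have hcardU : Nat.card U = Nat.card (Algebra.adjoin (ZMod p) {x + x'}) := by
    rw [hU]
    exact (Nat.card_congr (LinearEquiv.ofInjective Φ hΦi).toEquiv).symm
  have hcardU2 : Nat.card (Algebra.adjoin (ZMod p) {x + x'}) = p ^ finrank (ZMod p) U := by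
    rw [← hcardU, Module.natCard_eq_pow_finrank (K := ZMod p), Nat.card_zmod]
  have huU : u ∈ U := by
    rw [hU]
    exact ⟨1, rfl⟩
  have he1 : 1 ≤ finrank (ZMod p) U := by
    rw [Nat.one_le_iff_ne_zero]
    intro h0
    rw [Submodule.finrank_eq_zero] at h0
    rw [h0, Submodule.mem_bot] at huU
    exact hu huU
  -- self-orthogonality
  have hself : ∀ d ∈ Algebra.adjoin (ZMod p) {x + x'}, ω (d u) u = 0 := by
    intro d hd
    by_cases hp2 : p = 2
    · subst hp2
      obtain ⟨e', he'⟩ : ∃ e', finrank (ZMod 2) U = e' + 1 := ⟨_, (Nat.sub_add_cancel he1).symm⟩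
      have hd' := hpow d hd
      rw [hcardU2, he', pow_succ, pow_mul, pow_two] at hd'
      rw [← hd', Module.End.mul_apply]
      have hmem : d ^ (2 ^ e') ∈ Algebra.adjoin (ZMod 2) {x + x'} := Subalgebra.pow_mem _ hd _
      rw [hadj _ hmem]
      exact halt _
    · have h1 : ω (d u) u = ω u (d u) := hadj d hd u u
      have h2 := halt.neg_eq (d u) u
      have h3 : (2 : ZMod p) * ω (d u) u = 0 := by
        rw [two_mul]
        nth_rw 2 [h1]
        rw [← h2]
        ring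
      have h4 : (2 : ZMod p) ≠ 0 := by
        intro h
        have : ((2 : ℕ) : ZMod p) = 0 := by exact_mod_cast h
        rw [ZMod.natCast_eq_zero_iff] at this
        exact hp2 ((Nat.prime_dvd_prime_iff_eq hp Nat.prime_two).mp this)
      exact (mul_eq_zero.mp h3).resolve_left h4
  have hiso : U ≤ ω.orthogonal U := by
    rw [hU]
    rintro _ ⟨c', rfl⟩
    rw [LinearMap.BilinForm.mem_orthogonal_iff]
    rintro _ ⟨c, rfl⟩
    show ω ((c : Module.End (ZMod p) V) u) ((c' : Module.End (ZMod p) V) u) = 0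
    rw [← hadj _ c'.2 ((c : Module.End (ZMod p) V) u) u, ← Module.End.mul_apply]
    exact hself _ (Subalgebra.mul_mem _ c'.2 c.2)
  have hle1 : 2 * finrank (ZMod p) U ≤ finrank (ZMod p) V := by
    have h1 := Submodule.finrank_mono hiso
    rw [LinearMap.BilinForm.finrank_orthogonal hnd U] at h1
    have h2 := Submodule.finrank_le U
    omega
  -- `U + xU` is invariant
  have hinvt : ∀ v ∈ U ⊔ U.map x, x v ∈ U ⊔ U.map x := by
    intro v hv
    have h0 : U ⊔ U.map x ≤ (U ⊔ U.map x).comap x := by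
      apply sup_le
      · intro w hw
        exact Submodule.mem_sup_right (Submodule.mem_map_of_mem hw)
      · rw [Submodule.map_le_iff_le_comap]
        intro w hw
        rw [Submodule.mem_comap, Submodule.mem_comap]
        have hx2 : x (x w) = x ((x + x') w) - w := by
          simp only [LinearMap.add_apply, map_add, hxv]
          abel
        rw [hx2]
        apply Submodule.sub_mem
        · apply Submodule.mem_sup_right
          apply Submodule.mem_map_of_mem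
          rw [hU] at hw ⊢
          obtain ⟨c, rfl⟩ := hw
          exact ⟨⟨(x + x') * c, Subalgebra.mul_mem _ (Algebra.self_mem_adjoin_singleton _ _) c.2⟩,
            rfl⟩
        · exact Submodule.mem_sup_left hw
    exact h0 hv
  have htop : U ⊔ U.map x = ⊤ := by
    rcases hirr _ hinvt with h | h
    · exfalso
      have : u ∈ U ⊔ U.map x := Submodule.mem_sup_left huU
      rw [h, Submodule.mem_bot] at this
      exact hu this
    · exact h
  have hle2 : finrank (ZMod p) V ≤ 2 * finrank (ZMod p) U := by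
    have h1 := Submodule.finrank_add_le_finrank_add_finrank U (U.map x)
    rw [htop, finrank_top] at h1
    have h2 := Submodule.finrank_map_le x U
    omega
  refine ⟨finrank (ZMod p) U, le_antisymm hle2 hle1, ?_⟩
  -- Frobenius computation
  obtain ⟨e, he⟩ : ∃ e, e = finrank (ZMod p) U := ⟨_, rfl⟩
  rw [← he] at hcardU2 ⊢
  have hy := hpow (x + x') (Algebra.self_mem_adjoin_singleton _ _)
  rw [hcardU2] at hy
  haveI : CharP (Module.End (ZMod p) V) p :=
    charP_of_injective_algebraMap (R := ZMod p) (algebraMap (ZMod p) _).injective p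
  have hcomm : Commute x x' := by
    show x * x' = x' * x
    rw [hxx', hx'x]
  rw [add_pow_char_pow_of_commute p e hcomm] at hy
  obtain ⟨a, ha⟩ : ∃ a, a = x ^ p ^ e := ⟨_, rfl⟩
  obtain ⟨a', ha'⟩ : ∃ a', a' = x' ^ p ^ e := ⟨_, rfl⟩
  rw [← ha, ← ha'] at hy
  rw [← ha]
  have haa' : a * a' = 1 := by
    rw [ha, ha', ← hcomm.mul_pow, hxx', one_pow]
  have hxa : x * a = a * x := by
    rw [ha]
    exact ((Commute.refl x).pow_right _).eq
  have hfac : (a - x) * (a - x') = 0 := by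
    have h1 : (a - x) * (a - x') = a * ((a + a') - (x + x')) := by
      simp only [sub_mul, mul_sub, mul_add, hxx', haa', hxa]
      abel
    rw [h1, hy, sub_self, mul_zero]
  by_cases hax : a = x
  · exact Or.inl hax
  right
  have hi : Function.Injective (a - x) := by
    apply inj_of_comm x _ hirr
    · rw [mul_sub, sub_mul, hxa]
    · exact sub_ne_zero.mpr hax
  have h0 : a - x' = 0 := by
    apply LinearMap.ext
    intro v
    have h1 : (a - x) ((a - x') v) = 0 := by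
      rw [← Module.End.mul_apply, hfac]
      rfl
    have h2 : (a - x) ((a - x') v) = (a - x) 0 := by rw [h1, map_zero]
    exact hi h2
  exact sub_eq_zero.mp h0

end base

section main

variable {V : Type u} [AddCommGroup V] [Module (ZMod p) V] [Finite V]

theorem order_dvd [Nontrivial V] {h : ℕ} (hh : 0 < h) (x : Module.End (ZMod p) V) (hxh : x ^ h = 1)
    (hfpf : ∀ i, 0 < i → i < h → ∀ v, (x ^ i) v = v → v = 0) {m : ℕ} (hm : x ^ m = 1) : h ∣ m := by
  have h1 : x ^ (m % h) = 1 := by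
    have h2 := Nat.div_add_mod m h
    rw [← h2, pow_add, pow_mul, hxh, one_pow, one_mul] at hm
    exact hm
  by_contra hnd
  have h0 : m % h ≠ 0 := fun h0 => hnd (Nat.dvd_of_mod_eq_zero h0)
  obtain ⟨v, hv⟩ := exists_ne (0 : V)
  apply hv
  apply hfpf (m % h) (Nat.pos_of_ne_zero h0) (Nat.mod_lt _ hh)
  rw [h1]
  rfl

theorem coe_restrict_pow (x : Module.End (ZMod p) V) (W : Submodule (ZMod p) V)
    (hW : ∀ v ∈ W, x v ∈ W) (i : ℕ) (v : W) :
    (((x.restrict hW : Module.End (ZMod p) W) ^ i) v : V) = (x ^ i) v := by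
  induction i generalizing v with
  | zero => rfl
  | succ i ih =>
    rw [pow_succ, pow_succ, Module.End.mul_apply, Module.End.mul_apply, ih]
    rfl

theorem zmod_of_pow_eq_self {h : ℕ} (hh : 0 < h) [Nontrivial V] (x x' : Module.End (ZMod p) V)
    (hxx' : x * x' = 1) (hxh : x ^ h = 1)
    (hfpf : ∀ i, 0 < i → i < h → ∀ v, (x ^ i) v = v → v = 0) (e : ℕ) (he : x ^ (p ^ e) = x) :
    ((p : ℕ) : ZMod h) ^ e = 1 := by
  have hp : p.Prime := hpf.out
  have hpos : 1 ≤ p ^ e := Nat.one_le_pow _ _ hp.pos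
  have h1 : x ^ (p ^ e - 1) = 1 := by
    have h2 : x ^ (p ^ e - 1 + 1) = x := by
      rw [Nat.sub_add_cancel hpos]; exact he
    rw [pow_succ] at h2
    calc x ^ (p ^ e - 1) = x ^ (p ^ e - 1) * (x * x') := by rw [hxx', mul_one]
      _ = (x ^ (p ^ e - 1) * x) * x' := by rw [mul_assoc]
      _ = x * x' := by rw [h2]
      _ = 1 := hxx'
  have h2 := order_dvd hh x hxh hfpf h1
  have h3 : ((p ^ e - 1 : ℕ) : ZMod h) = 0 := (ZMod.natCast_eq_zero_iff _ _).mpr h2
  rw [Nat.cast_sub hpos, Nat.cast_pow, Nat.cast_one, sub_eq_zero] at h3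
  exact h3

theorem zmod_of_pow_eq_inv {h : ℕ} (hh : 0 < h) [Nontrivial V] (x x' : Module.End (ZMod p) V)
    (hx'x : x' * x = 1) (hxh : x ^ h = 1)
    (hfpf : ∀ i, 0 < i → i < h → ∀ v, (x ^ i) v = v → v = 0) (e : ℕ) (he : x ^ (p ^ e) = x') :
    ((p : ℕ) : ZMod h) ^ e = -1 := by
  have h1 : x ^ (p ^ e + 1) = 1 := by
    rw [pow_succ, he, hx'x]
  have h2 := order_dvd hh x hxh hfpf h1
  have h3 : ((p ^ e + 1 : ℕ) : ZMod h) = 0 := (ZMod.natCast_eq_zero_iff _ _).mpr h2
  rw [Nat.cast_add, Nat.cast_pow, Nat.cast_one] at h3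
  exact eq_neg_of_add_eq_zero_left h3

theorem irr_restrict (x : Module.End (ZMod p) V) (W₀ : Submodule (ZMod p) V)
    (hinv₀ : ∀ v ∈ W₀, x v ∈ W₀)
    (hmin : ∀ W : Submodule (ZMod p) V, W ≠ ⊥ → (∀ v ∈ W, x v ∈ W) → W ≤ W₀ → W₀ ≤ W)
    (W' : Submodule (ZMod p) W₀) (h' : ∀ v ∈ W', (x.restrict hinv₀) v ∈ W') :
    W' = ⊥ ∨ W' = ⊤ := by
  by_cases hW' : W' = ⊥
  · exact Or.inl hW'
  right
  have hne : W'.map W₀.subtype ≠ ⊥ := by
    intro h
    apply hW'
    rw [eq_bot_iff]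
    intro w hw
    have h1 : W₀.subtype w ∈ W'.map W₀.subtype := Submodule.mem_map_of_mem hw
    rw [h, Submodule.mem_bot] at h1
    rw [Submodule.mem_bot]
    exact Subtype.ext h1
  have hinv : ∀ v ∈ W'.map W₀.subtype, x v ∈ W'.map W₀.subtype := by
    rintro _ ⟨w, hw, rfl⟩
    exact ⟨_, h' w hw, rfl⟩
  have hle : W'.map W₀.subtype ≤ W₀ := by
    rintro _ ⟨w, _, rfl⟩
    exact w.2
  have h2 := hmin _ hne hinv hle
  rw [eq_top_iff]
  intro w _
  obtain ⟨w', hw', hww'⟩ := h2 w.2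
  have : w' = w := Subtype.ext hww'
  rwa [← this]

/-- Restriction of all the data to an invariant subspace which is nondegenerate. -/
theorem restrict_facts {h : ℕ} (x : Module.End (ZMod p) V)
    (ω : LinearMap.BilinForm (ZMod p) V) (halt : ω.IsAlt)
    (hinv : ∀ u v, ω (x u) (x v) = ω u v) (hxh : x ^ h = 1)
    (hfpf : ∀ i, 0 < i → i < h → ∀ v, (x ^ i) v = v → v = 0)
    (U : Submodule (ZMod p) V) (hU : ∀ v ∈ U, x v ∈ U) (hd : Disjoint U (ω.orthogonal U)) :
    (ω.restrict U).IsAlt ∧ (ω.restrict U).Nondegenerate ∧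
    (∀ u v, (ω.restrict U) ((x.restrict hU) u) ((x.restrict hU) v) = (ω.restrict U) u v) ∧
    (x.restrict hU : Module.End (ZMod p) U) ^ h = 1 ∧
    (∀ i, 0 < i → i < h → ∀ v, ((x.restrict hU : Module.End (ZMod p) U) ^ i) v = v → v = 0) := by
  refine ⟨fun v => halt v, ?_, fun u v => hinv u v, ?_, ?_⟩
  · exact LinearMap.BilinForm.nondegenerate_restrict_of_disjoint_orthogonal ω halt.isRefl hd
  · apply LinearMap.ext
    intro v
    apply Subtype.ext
    rw [coe_restrict_pow, hxh]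
    rfl
  · intro i hi hih v hv
    apply Subtype.ext
    apply hfpf i hi hih
    rw [← coe_restrict_pow x U hU, hv]

theorem sp_main {h : ℕ} (hh : 0 < h) (hcop : ((h : ℕ) : ZMod p) ≠ 0) (n : ℕ) :
    ∀ (V : Type u) [AddCommGroup V] [Module (ZMod p) V] [Finite V]
      (x : Module.End (ZMod p) V) (ω : LinearMap.BilinForm (ZMod p) V),
      ω.IsAlt → ω.Nondegenerate → (∀ u v, ω (x u) (x v) = ω u v) → x ^ h = 1 →
      (∀ i, 0 < i → i < h → ∀ v, (x ^ i) v = v → v = 0) → finrank (ZMod p) V = 2 * n →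
      ((p : ℕ) : ZMod h) ^ n = 1 ∨ ((p : ℕ) : ZMod h) ^ n = -1 := by
  classical
  induction n using Nat.strong_induction_on with
  | _ n IH =>
  intro V _ _ _ x ω halt hnd hinv hxh hfpf hfr
  rcases Nat.eq_zero_or_pos n with hn0 | hnpos
  · left; rw [hn0, pow_zero]
  have hrefl := halt.isRefl
  haveI hV : Nontrivial V := Module.nontrivial_of_finrank_pos (R := ZMod p) (by omega)
  obtain ⟨x', hx'⟩ : ∃ x', x' = x ^ (h - 1) := ⟨_, rfl⟩
  have hxx' : x * x' = 1 := by
    rw [hx', ← pow_succ', Nat.sub_add_cancel hh, hxh]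
  have hx'x : x' * x = 1 := by
    rw [hx', ← pow_succ, Nat.sub_add_cancel hh, hxh]
  have hxv : ∀ v, x (x' v) = v := fun v => LinearMap.congr_fun hxx' v
  have hxv' : ∀ v, x' (x v) = v := fun v => LinearMap.congr_fun hx'x v
  haveI : Finite (Submodule (ZMod p) V) :=
    Finite.of_injective (fun W : Submodule (ZMod p) V => (W : Set V)) SetLike.coe_injective
  obtain ⟨W₀, -, hW₀⟩ := (Set.toFinite {W : Submodule (ZMod p) V | W ≠ ⊥ ∧ ∀ v ∈ W, x v ∈ W}).exists_le_minimal
    (a := ⊤) ⟨top_ne_bot, fun _ _ => Submodule.mem_top⟩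
  obtain ⟨⟨hW₀ne, hW₀i⟩, hW₀m⟩ := hW₀
  have hmin : ∀ W : Submodule (ZMod p) V, W ≠ ⊥ → (∀ v ∈ W, x v ∈ W) → W ≤ W₀ → W₀ ≤ W :=
    fun W h1 h2 h3 => hW₀m ⟨h1, h2⟩ h3
  -- invariance under `x'`
  have hpowinv : ∀ (W : Submodule (ZMod p) V), (∀ v ∈ W, x v ∈ W) → ∀ k : ℕ, ∀ v ∈ W,
      (x ^ k) v ∈ W := by
    intro W hW k
    induction k with
    | zero => intro v hv; simpa using hv
    | succ k ih =>
      intro v hv
      rw [pow_succ, Module.End.mul_apply]
      exact ih _ (hW v hv)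
  have hW₀i' : ∀ v ∈ W₀, x' v ∈ W₀ := by
    rw [hx']
    exact hpowinv W₀ hW₀i _
  have hinv' : ∀ u v, ω (x' u) v = ω u (x v) := by
    intro u v
    rw [← hinv (x' u) v, hxv]
  -- orthogonal invariance
  have horth : ∀ W : Submodule (ZMod p) V, (∀ v ∈ W, x v ∈ W) → ∀ v ∈ ω.orthogonal W,
      x v ∈ ω.orthogonal W := by
    intro W hW v hv
    rw [LinearMap.BilinForm.mem_orthogonal_iff] at hv ⊢
    intro w hw
    have hw' : x' w ∈ W := by
      rw [hx']
      exact hpowinv W hW _ w hw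
    have := hv (x' w) hw'
    change ω (x' w) v = 0 at this
    change ω w (x v) = 0
    rw [← hinv' w v]
    exact this
  have hinter : ∀ v ∈ W₀ ⊓ ω.orthogonal W₀, x v ∈ W₀ ⊓ ω.orthogonal W₀ := fun v hv =>
    ⟨hW₀i v hv.1, horth W₀ hW₀i v hv.2⟩
  have hirr₀ := irr_restrict x W₀ hW₀i hmin
  obtain ⟨x₀, hx₀⟩ : ∃ x₀ : Module.End (ZMod p) W₀, x₀ = x.restrict hW₀i := ⟨_, rfl⟩
  obtain ⟨x₀', hx₀'⟩ : ∃ x₀' : Module.End (ZMod p) W₀, x₀' = x'.restrict hW₀i' := ⟨_, rfl⟩
  have hx₀x₀' : x₀ * x₀' = 1 := by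
    apply LinearMap.ext
    intro v
    apply Subtype.ext
    rw [hx₀, hx₀']
    exact hxv v
  have hx₀'x₀ : x₀' * x₀ = 1 := by
    apply LinearMap.ext
    intro v
    apply Subtype.ext
    rw [hx₀, hx₀']
    exact hxv' v
  have hnontriv : Nontrivial W₀ := Submodule.nontrivial_iff_ne_bot.mpr hW₀ne
  have hd₀ : 1 ≤ finrank (ZMod p) W₀ := Module.finrank_pos_iff.mpr hnontriv
  have hpowx₀ : x₀ ^ h = 1 := by
    apply LinearMap.ext
    intro v
    apply Subtype.ext
    rw [hx₀, coe_restrict_pow, hxh]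
    rfl
  have hfpfx₀ : ∀ i, 0 < i → i < h → ∀ v, (x₀ ^ i) v = v → v = 0 := by
    intro i hi hih v hv
    apply Subtype.ext
    apply hfpf i hi hih
    rw [← coe_restrict_pow x W₀ hW₀i, ← hx₀, hv]
  have hfr₀ := LinearMap.BilinForm.finrank_orthogonal hnd W₀
  have horthorth := LinearMap.BilinForm.orthogonal_orthogonal hnd hrefl W₀
  have hdle := Submodule.finrank_le W₀
  rcases eq_or_ne (W₀ ⊓ ω.orthogonal W₀) ⊥ with hcase | hcase
  · -- nondegenerate case
    have hdis : Disjoint W₀ (ω.orthogonal W₀) := disjoint_iff.mpr hcase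
    obtain ⟨ha1, ha2, ha3, -, -⟩ := restrict_facts x ω halt hinv hxh hfpf W₀ hW₀i hdis
    have hbase := base_irr (p := p) x₀ x₀' hx₀x₀' hx₀'x₀
      (by rw [hx₀]; exact hirr₀) (ω.restrict W₀) ha1 ha2 (by rw [hx₀]; exact ha3)
    obtain ⟨e, he, hee⟩ := hbase
    have hE : ((p : ℕ) : ZMod h) ^ e = 1 ∨ ((p : ℕ) : ZMod h) ^ e = -1 := by
      rcases hee with hee | hee
      · exact Or.inl (zmod_of_pow_eq_self hh x₀ x₀' hx₀x₀' hpowx₀ hfpfx₀ e hee)
      · exact Or.inr (zmod_of_pow_eq_inv hh x₀ x₀' hx₀'x₀ hpowx₀ hfpfx₀ e hee)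
    have hdis2 : Disjoint (ω.orthogonal W₀) (ω.orthogonal (ω.orthogonal W₀)) := by
      rw [horthorth]
      exact hdis.symm
    obtain ⟨hb1, hb2, hb3, hb4, hb5⟩ := restrict_facts x ω halt hinv hxh hfpf _
      (horth W₀ hW₀i) hdis2
    have hIH := IH (n - e) (by omega) _ (x.restrict (horth W₀ hW₀i)) (ω.restrict _) hb1 hb2 hb3 hb4 hb5
      (by rw [hfr₀]; omega)
    have hsplit : ((p : ℕ) : ZMod h) ^ n = ((p : ℕ) : ZMod h) ^ (n - e) * ((p : ℕ) : ZMod h) ^ e := by
      rw [← pow_add]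
      congr 1
      omega
    rw [hsplit]
    rcases hIH with h1 | h1 <;> rcases hE with h2 | h2 <;> rw [h1, h2] <;> simp
  · -- isotropic case
    have hle0 : W₀ ≤ ω.orthogonal W₀ := by
      have h1 := hmin _ hcase hinter inf_le_left
      exact fun v hv => (h1 hv).2
    have hE : ((p : ℕ) : ZMod h) ^ (finrank (ZMod p) W₀) = 1 :=
      zmod_of_pow_eq_self hh x₀ x₀' hx₀x₀' hpowx₀ hfpfx₀ _
        (card_irr_pow x₀ x₀' hx₀x₀' (by rw [hx₀]; exact hirr₀))
    -- Maschke
    have hss : x.IsSemisimple := by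
      apply Module.End.isSemisimple_of_squarefree_aeval_eq_zero
        (p := (Polynomial.X ^ h - Polynomial.C (1 : ZMod p)))
      · exact (Polynomial.separable_X_pow_sub_C (1 : ZMod p) hcop one_ne_zero).squarefree
      · simp [hxh]
    obtain ⟨C, hCi, hC⟩ := Module.End.isSemisimple_iff.mp hss W₀ hW₀i
    have hCi' : ∀ v ∈ C, x v ∈ C := hCi
    obtain ⟨U, hUdef⟩ : ∃ U, U = C ⊓ ω.orthogonal W₀ := ⟨_, rfl⟩
    have hUi : ∀ v ∈ U, x v ∈ U := by
      intro v hv
      rw [hUdef] at hv ⊢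
      exact ⟨hCi' v hv.1, horth W₀ hW₀i v hv.2⟩
    have hsup : W₀ ⊔ U = ω.orthogonal W₀ := by
      apply le_antisymm
      · apply sup_le hle0
        rw [hUdef]
        exact inf_le_right
      · intro v hv
        have h1 : v ∈ W₀ ⊔ C := by rw [hC.sup_eq_top]; exact Submodule.mem_top
        obtain ⟨w, hw, c, hc, rfl⟩ := Submodule.mem_sup.mp h1
        refine Submodule.add_mem_sup hw ?_
        rw [hUdef]
        refine ⟨hc, ?_⟩
        have := Submodule.sub_mem _ hv (hle0 hw)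
        rwa [add_sub_cancel_left] at this
    have hinf : W₀ ⊓ U = ⊥ := by
      apply le_bot_iff.mp
      rw [← hC.inf_eq_bot, hUdef]
      exact inf_le_inf_left _ inf_le_left
    have hfrU : finrank (ZMod p) U + 2 * finrank (ZMod p) W₀ = finrank (ZMod p) V := by
      have h1 := Submodule.finrank_sup_add_finrank_inf_eq W₀ U
      rw [hsup, hinf, finrank_bot, hfr₀] at h1
      omega
    have hdis : Disjoint U (ω.orthogonal U) := by
      rw [disjoint_iff, eq_bot_iff]
      rintro u ⟨hu1, hu2⟩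
      have hu3 : u ∈ ω.orthogonal (ω.orthogonal W₀) := by
        rw [LinearMap.BilinForm.mem_orthogonal_iff]
        intro v hv
        rw [← hsup] at hv
        obtain ⟨w, hw, c, hc, rfl⟩ := Submodule.mem_sup.mp hv
        have h1 : ω w u = 0 := by
          have hu4 : u ∈ ω.orthogonal W₀ := by
            rw [hUdef] at hu1
            exact hu1.2
          exact (LinearMap.BilinForm.mem_orthogonal_iff.mp hu4) w hw
        have h2 : ω c u = 0 := (LinearMap.BilinForm.mem_orthogonal_iff.mp hu2) c hc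
        change ω (w + c) u = 0
        rw [map_add, LinearMap.add_apply, h1, h2, add_zero]
      rw [horthorth] at hu3
      have : u ∈ W₀ ⊓ U := ⟨hu3, hu1⟩
      rw [hinf] at this
      exact this
    obtain ⟨hb1, hb2, hb3, hb4, hb5⟩ := restrict_facts x ω halt hinv hxh hfpf U hUi hdis
    have hIH := IH (n - finrank (ZMod p) W₀) (by omega) _ (x.restrict hUi) (ω.restrict _) hb1 hb2 hb3 hb4 hb5
      (by omega)
    have hsplit : ((p : ℕ) : ZMod h) ^ n = ((p : ℕ) : ZMod h) ^ (n - finrank (ZMod p) W₀) *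
        ((p : ℕ) : ZMod h) ^ (finrank (ZMod p) W₀) := by
      rw [← pow_add]
      congr 1
      omega
    rw [hsplit, hE, mul_one]
    exact hIH

end main

section pairing

theorem of_pairing_aux {V : Type u} [AddCommGroup V] [Module (ZMod p) V] [Finite V]
    (b : V →+ V →+ ZMod p) (halt : ∀ v, b v v = 0) (hnd : ∀ v, (∀ w, b v w = 0) → v = 0)
    (x : V →+ V) (hinv : ∀ u v, b (x u) (x v) = b u v) {h : ℕ} (hh : 0 < h)
    (hcop : Nat.Coprime h p) (hxh : ∀ v, x^[h] v = v)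
    (hfpf : ∀ i, 0 < i → i < h → ∀ v, x^[i] v = v → v = 0) {n : ℕ}
    (hcard : Nat.card V = p ^ (2 * n)) :
    ((p : ℕ) : ZMod h) ^ n = 1 ∨ ((p : ℕ) : ZMod h) ^ n = -1 := by
  have hp : p.Prime := hpf.out
  let ω : LinearMap.BilinForm (ZMod p) V :=
    LinearMap.mk₂ (ZMod p) (fun u v => b u v)
      (fun u u' v => by rw [map_add]; rfl)
      (fun r u v => ZMod.map_smul (b.flip v) r u)
      (fun u v v' => map_add _ _ _)
      (fun r u v => ZMod.map_smul (b u) r v)
  have hω : ∀ u v, ω u v = b u v := fun u v => rfl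
  let X : Module.End (ZMod p) V := x.toZModLinearMap p
  have hX : ∀ i v, (X ^ i) v = x^[i] v := by
    intro i v
    rw [Module.End.pow_apply]
    rfl
  have hhalt : ω.IsAlt := fun v => halt v
  have hhnd : ω.Nondegenerate := by
    refine (LinearMap.IsRefl.nondegenerate_iff_separatingLeft hhalt.isRefl).mpr ?_
    exact fun v hv => hnd v hv
  have hfr : finrank (ZMod p) V = 2 * n := by
    have h1 := Module.natCard_eq_pow_finrank (K := ZMod p) (V := V)
    rw [Nat.card_zmod, hcard] at h1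
    exact (Nat.pow_right_injective hp.two_le h1).symm
  refine sp_main hh ?_ n V X ω hhalt hhnd (fun u v => hinv u v) ?_ ?_ hfr
  · intro h0
    rw [ZMod.natCast_eq_zero_iff] at h0
    have := Nat.Coprime.eq_one_of_dvd hcop.symm h0
    exact hp.one_lt.ne' this
  · apply LinearMap.ext
    intro v
    rw [hX, hxh]
    rfl
  · intro i hi hih v hv
    rw [hX] at hv
    exact hfpf i hi hih v hv

theorem of_pairing {V : Type u} [AddCommGroup V] [Finite V] (hpV : ∀ v : V, p • v = 0)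
    (b : V →+ V →+ ZMod p) (halt : ∀ v, b v v = 0) (hnd : ∀ v, (∀ w, b v w = 0) → v = 0)
    (x : V →+ V) (hinv : ∀ u v, b (x u) (x v) = b u v) {h : ℕ} (hh : 0 < h)
    (hcop : Nat.Coprime h p) (hxh : ∀ v, x^[h] v = v)
    (hfpf : ∀ i, 0 < i → i < h → ∀ v, x^[i] v = v → v = 0) {n : ℕ}
    (hcard : Nat.card V = p ^ (2 * n)) :
    ((p : ℕ) : ZMod h) ^ n = 1 ∨ ((p : ℕ) : ZMod h) ^ n = -1 := by
  letI : Module (ZMod p) V := AddCommGroup.zmodModule hpV
  exact of_pairing_aux b halt hnd x hinv hh hcop hxh hfpf hcard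

open scoped commutatorElement

theorem comm_mul_right_of_central {Q : Type u} [Group Q] (g k₁ k₂ : Q)
    (hc : ∀ a : Q, a * ⁅g, k₂⁆ = ⁅g, k₂⁆ * a) : ⁅g, k₁ * k₂⁆ = ⁅g, k₁⁆ * ⁅g, k₂⁆ := by
  have h1 := hc k₁⁻¹
  calc ⁅g, k₁ * k₂⁆ = g * k₁ * g⁻¹ * (⁅g, k₂⁆ * k₁⁻¹) := by
        simp only [commutatorElement_def]
        group
    _ = g * k₁ * g⁻¹ * (k₁⁻¹ * ⁅g, k₂⁆) := by rw [h1]
    _ = ⁅g, k₁⁆ * ⁅g, k₂⁆ := by
        simp only [commutatorElement_def]
        group

theorem comm_mul_left_of_central {Q : Type u} [Group Q] (g₁ g₂ k : Q)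
    (hc : ∀ a : Q, a * ⁅g₂, k⁆ = ⁅g₂, k⁆ * a) : ⁅g₁ * g₂, k⁆ = ⁅g₁, k⁆ * ⁅g₂, k⁆ := by
  have h1 := hc g₁
  calc ⁅g₁ * g₂, k⁆ = (g₁ * ⁅g₂, k⁆) * k * g₁⁻¹ * k⁻¹ := by
        simp only [commutatorElement_def]
        group
    _ = (⁅g₂, k⁆ * g₁) * k * g₁⁻¹ * k⁻¹ := by rw [h1]
    _ = ⁅g₂, k⁆ * ⁅g₁, k⁆ := by
        simp only [commutatorElement_def]
        group
    _ = ⁅g₁, k⁆ * ⁅g₂, k⁆ := (hc _).symm

theorem ext_main {Q : Type u} [Group Q] [Finite Q] (hQ : Cfsg.IsExtraspecial p Q) {n : ℕ}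
    (hn : Nat.card Q = p ^ (2 * n + 1)) (α : Q ≃* Q) {h : ℕ} (hh : 0 < h) (hcop : Nat.Coprime h p)
    (hαh : ∀ g, α^[h] g = g) (hfix : ∀ i, 0 < i → i < h → ∀ g, α^[i] g = g → g ∈ Subgroup.center Q)
    (hZ : ∀ z ∈ Subgroup.center Q, α z = z) :
    ((p : ℕ) : ZMod h) ^ n = 1 ∨ ((p : ℕ) : ZMod h) ^ n = -1 := by
  classical
  have hp : p.Prime := hpf.out
  have hpos : 0 < p := hp.pos
  obtain ⟨Z, hZdef⟩ : ∃ Z, Z = Subgroup.center Q := ⟨_, rfl⟩
  have hmemZ : ∀ z, z ∈ Z ↔ ∀ g, g * z = z * g := by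
    intro z
    rw [hZdef, Subgroup.mem_center_iff]
  haveI hZn : Z.Normal := by rw [hZdef]; infer_instance
  have hcomm : ∀ a b : Q, ⁅a, b⁆ ∈ Z := fun a b => by
    rw [hZdef]
    exact Cfsg.Agent.Lib.Coprime.ext_commutator_mem hQ a b
  have hpow : ∀ a : Q, a ^ p ∈ Z := fun a => by
    rw [hZdef]
    exact Cfsg.Agent.Lib.Coprime.ext_pow_mem hQ a
  have hzp : ∀ z ∈ Z, z ^ p = 1 := fun z hz =>
    Cfsg.Agent.Lib.Coprime.ext_pow_center hQ (by rw [← hZdef]; exact hz)
  have hcardZ : Nat.card Z = p := by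
    rw [hZdef]
    exact hQ.2
  let φ : Z ≃* Multiplicative (ZMod p) := mulEquivOfPrimeCardEq hcardZ (by simp)
  let ψ : Q → ZMod p := fun z => if hz : z ∈ Z then Multiplicative.toAdd (φ ⟨z, hz⟩) else 0
  have hψval : ∀ z (hz : z ∈ Z), ψ z = Multiplicative.toAdd (φ ⟨z, hz⟩) := by
    intro z hz
    simp only [ψ, dif_pos hz]
  have hψmul : ∀ a ∈ Z, ∀ b ∈ Z, ψ (a * b) = ψ a + ψ b := by
    intro a ha b hb
    rw [hψval a ha, hψval b hb, hψval _ (Z.mul_mem ha hb)]
    have : (⟨a * b, Z.mul_mem ha hb⟩ : Z) = ⟨a, ha⟩ * ⟨b, hb⟩ := rfl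
    rw [this, map_mul]
    rfl
  have hψone : ψ 1 = 0 := by
    have := hψmul 1 Z.one_mem 1 Z.one_mem
    rw [mul_one] at this
    exact left_eq_add.mp this
  have hψinj : ∀ z ∈ Z, ψ z = 0 → z = 1 := by
    intro z hz hψz
    rw [hψval z hz] at hψz
    have h1 : φ ⟨z, hz⟩ = 1 := hψz
    have h2 : (⟨z, hz⟩ : Z) = 1 := (MulEquiv.map_eq_one_iff φ).mp h1
    exact congrArg Subtype.val h2
  let c : Q → Q → ZMod p := fun g k => ψ ⁅g, k⁆
  have hcen : ∀ z ∈ Z, ∀ a : Q, a * z = z * a := fun z hz a => (hmemZ z).mp hz a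
  have hright : ∀ g k₁ k₂, c g (k₁ * k₂) = c g k₁ + c g k₂ := by
    intro g k₁ k₂
    show ψ ⁅g, k₁ * k₂⁆ = ψ ⁅g, k₁⁆ + ψ ⁅g, k₂⁆
    rw [comm_mul_right_of_central g k₁ k₂ (hcen _ (hcomm _ _)), hψmul _ (hcomm _ _) _ (hcomm _ _)]
  have hleft : ∀ g₁ g₂ k, c (g₁ * g₂) k = c g₁ k + c g₂ k := by
    intro g₁ g₂ k
    show ψ ⁅g₁ * g₂, k⁆ = ψ ⁅g₁, k⁆ + ψ ⁅g₂, k⁆
    rw [comm_mul_left_of_central g₁ g₂ k (hcen _ (hcomm _ _)), hψmul _ (hcomm _ _) _ (hcomm _ _)]
  have hczr : ∀ g, ∀ z ∈ Z, c g z = 0 := by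
    intro g z hz
    show ψ ⁅g, z⁆ = 0
    have : ⁅g, z⁆ = 1 := by
      rw [commutatorElement_eq_one_iff_mul_comm]
      exact hcen z hz g
    rw [this, hψone]
  have hczl : ∀ z ∈ Z, ∀ k, c z k = 0 := by
    intro z hz g
    show ψ ⁅z, g⁆ = 0
    have : ⁅z, g⁆ = 1 := by
      rw [commutatorElement_eq_one_iff_mul_comm]
      exact (hcen z hz g).symm
    rw [this, hψone]
  letI instC : CommGroup (Q ⧸ Z) :=
    { (inferInstance : Group (Q ⧸ Z)) with
      mul_comm := by
        intro u v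
        obtain ⟨a, rfl⟩ := QuotientGroup.mk_surjective u
        obtain ⟨b, rfl⟩ := QuotientGroup.mk_surjective v
        rw [← QuotientGroup.mk_mul, ← QuotientGroup.mk_mul, QuotientGroup.eq]
        have h1 := hcomm b⁻¹ a⁻¹
        have h2 : (a * b)⁻¹ * (b * a) = ⁅b⁻¹, a⁻¹⁆ := by
          simp only [commutatorElement_def, mul_inv_rev, inv_inv, mul_assoc]
        rw [h2]
        exact h1 }
  let f : (Q ⧸ Z) → (Q ⧸ Z) → ZMod p := fun u v => Quotient.liftOn₂' u v c (by
    intro a₁ a₂ b₁ b₂ h1 h2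
    have h1' : a₁⁻¹ * b₁ ∈ Z := QuotientGroup.leftRel_apply.mp h1
    have h2' : a₂⁻¹ * b₂ ∈ Z := QuotientGroup.leftRel_apply.mp h2
    obtain ⟨z₁, hz₁, rfl⟩ : ∃ z₁ ∈ Z, b₁ = a₁ * z₁ := ⟨_, h1', by group⟩
    obtain ⟨z₂, hz₂, rfl⟩ : ∃ z₂ ∈ Z, b₂ = a₂ * z₂ := ⟨_, h2', by group⟩
    rw [hleft, hright, hright, hczr _ _ hz₂, hczl _ hz₁, hczl _ hz₁]
    simp)
  have hf : ∀ g k : Q, f (g : Q ⧸ Z) (k : Q ⧸ Z) = c g k := fun g k => rfl
  have hfl : ∀ u v w, f (u * v) w = f u w + f v w := by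
    intro u v w
    obtain ⟨a, rfl⟩ := QuotientGroup.mk_surjective u
    obtain ⟨a', rfl⟩ := QuotientGroup.mk_surjective v
    obtain ⟨a'', rfl⟩ := QuotientGroup.mk_surjective w
    exact hleft _ _ _
  have hfr : ∀ u v w, f u (v * w) = f u v + f u w := by
    intro u v w
    obtain ⟨a, rfl⟩ := QuotientGroup.mk_surjective u
    obtain ⟨a', rfl⟩ := QuotientGroup.mk_surjective v
    obtain ⟨a'', rfl⟩ := QuotientGroup.mk_surjective w
    exact hright _ _ _
  let b : Additive (Q ⧸ Z) →+ Additive (Q ⧸ Z) →+ ZMod p :=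
    AddMonoidHom.mk' (fun u => AddMonoidHom.mk' (fun v => f u.toMul v.toMul)
      (fun v w => hfr _ _ _)) (fun u u' => by
        ext v
        exact hfl _ _ _)
  have hb : ∀ g k : Q, b (Additive.ofMul (g : Q ⧸ Z)) (Additive.ofMul (k : Q ⧸ Z)) = c g k :=
    fun g k => rfl
  have hsurj : ∀ v : Additive (Q ⧸ Z), ∃ g : Q, v = Additive.ofMul (g : Q ⧸ Z) := by
    intro v
    obtain ⟨g, hg⟩ := QuotientGroup.mk_surjective (Additive.toMul v)
    exact ⟨g, by rw [hg]; rfl⟩
  have hle : Z ≤ Z.comap α.toMonoidHom := by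
    intro z hz
    rw [Subgroup.mem_comap]
    have : α z = z := hZ z (by rw [← hZdef]; exact hz)
    show α z ∈ Z
    rw [this]
    exact hz
  let x : Additive (Q ⧸ Z) →+ Additive (Q ⧸ Z) :=
    MonoidHom.toAdditive (QuotientGroup.map Z Z α.toMonoidHom hle)
  have hx : ∀ g : Q, x (Additive.ofMul (g : Q ⧸ Z)) = Additive.ofMul ((α g : Q) : Q ⧸ Z) :=
    fun g => rfl
  have hxi : ∀ (i : ℕ) (g : Q), x^[i] (Additive.ofMul (g : Q ⧸ Z)) =
      Additive.ofMul (((α^[i] g : Q)) : Q ⧸ Z) := by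
    intro i
    induction i with
    | zero => intro g; rfl
    | succ i ih =>
      intro g
      rw [Function.iterate_succ_apply, hx, ih, Function.iterate_succ_apply]
  have hαZ : ∀ k : ℕ, ∀ z ∈ Z, α^[k] z = z := by
    intro k z hz
    have : α z = z := hZ z (by rw [← hZdef]; exact hz)
    exact Function.iterate_fixed this k
  have hid : (α : Q → Q)^[h] = id := funext hαh
  refine of_pairing (V := Additive (Q ⧸ Z)) ?_ b ?_ ?_ x ?_ hh hcop ?_ ?_ ?_
  · intro v
    obtain ⟨g, rfl⟩ := hsurj v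
    show Additive.ofMul (((g : Q ⧸ Z)) ^ p) = 0
    have : ((g : Q ⧸ Z)) ^ p = 1 := by
      rw [← QuotientGroup.mk_pow]
      exact (QuotientGroup.eq_one_iff _).mpr (hpow g)
    rw [this]
    rfl
  · intro v
    obtain ⟨g, rfl⟩ := hsurj v
    rw [hb]
    show ψ ⁅g, g⁆ = 0
    rw [commutatorElement_self, hψone]
  · intro v hv
    obtain ⟨g, rfl⟩ := hsurj v
    have hgZ : g ∈ Z := by
      rw [hmemZ]
      intro k
      have h1 := hv (Additive.ofMul (k : Q ⧸ Z))
      rw [hb] at h1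
      have h2 := hψinj _ (hcomm g k) h1
      rw [commutatorElement_eq_one_iff_mul_comm] at h2
      exact h2.symm
    have : (g : Q ⧸ Z) = 1 := (QuotientGroup.eq_one_iff _).mpr hgZ
    rw [this]
    rfl
  · intro u v
    obtain ⟨g, rfl⟩ := hsurj u
    obtain ⟨k, rfl⟩ := hsurj v
    rw [hx, hx, hb, hb]
    show ψ ⁅α g, α k⁆ = ψ ⁅g, k⁆
    rw [← map_commutatorElement, hZ _ (by rw [← hZdef]; exact hcomm g k)]
  · intro v
    obtain ⟨g, rfl⟩ := hsurj v
    rw [hxi, hαh]
  · intro i hi hih v hv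
    obtain ⟨g, rfl⟩ := hsurj v
    rw [hxi] at hv
    have h1 : (((α^[i] g : Q)) : Q ⧸ Z) = (g : Q ⧸ Z) := Additive.ofMul.injective hv
    have h2 : g⁻¹ * α^[i] g ∈ Z := by
      exact QuotientGroup.eq.mp h1.symm
    obtain ⟨z, hz⟩ : ∃ z, z = g⁻¹ * α^[i] g := ⟨_, rfl⟩
    rw [← hz] at h2
    have h3 : α^[i] g = g * z := by rw [hz]; group
    have h4 : ∀ k : ℕ, α^[i * k] g = g * z ^ k := by
      intro k
      induction k with
      | zero => simp
      | succ k ih =>
        rw [Nat.mul_succ, add_comm, Function.iterate_add_apply, ih, iterate_map_mul, h3,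
          iterate_map_pow, hαZ i z h2, pow_succ', mul_assoc]
    have h5 : z ^ h = 1 := by
      have h6 := h4 h
      rw [mul_comm i h, Function.iterate_mul, hid, Function.iterate_id] at h6
      simpa using h6.symm
    have h7 : z = 1 := by
      have h8 := (pow_gcd_eq_one (a := z)).mpr ⟨h5, hzp z h2⟩
      rw [hcop.gcd_eq_one, pow_one] at h8
      exact h8
    have h9 : α^[i] g = g := by rw [h3, h7, mul_one]
    have hgZ := hfix i hi hih g h9
    rw [← hZdef] at hgZ
    have : (g : Q ⧸ Z) = 1 := (QuotientGroup.eq_one_iff _).mpr hgZ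
    rw [this]
    rfl
  · have h1 : Nat.card Q = Nat.card (Q ⧸ Z) * Nat.card Z :=
      Subgroup.card_eq_card_quotient_mul_card_subgroup Z
    rw [hn, hcardZ, pow_succ] at h1
    have h2 : p ^ (2 * n) = Nat.card (Q ⧸ Z) := Nat.eq_of_mul_eq_mul_right hpos h1
    rw [h2]
    exact Nat.card_congr Additive.toMul

end pairing

end Cfsg.Agent.Lib.Coprime.SpCyc
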