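import Mathlib
import Cfsg.Agent.S3761
import Cfsg.Agent.Lib.Transfer.NormalAb
import Cfsg.Agent.Lib.Transfer.Frattini
import Cfsg.Agent.Lib.OddLocal.UniqueP

/-!
# `p`-groups without a normal elementary abelian subgroup of order `p²`

Such a group is cyclic, or `p = 2` and it is dihedral, generalized quaternion or semidihedral.
-/

set_option autoImplicit false
set_option linter.unusedSectionVars false
set_option linter.style.haveILetI false
set_option linter.unusedVariables false

namespace Cfsg.Agent.Lib.Coprime.SympType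

open Subgroup Cfsg
open scoped commutatorElement

/-- No normal elementary abelian subgroup of order `p²`. -/
def NoNormalE (p : ℕ) (X : Type*) [Group X] : Prop :=
  ∀ A : Subgroup X, A.Normal → IsElementaryAbelian p A → Nat.card A = p ^ 2 → False

theorem card_comap_mk' {X : Type*} [Group X] [Finite X] (M : Subgroup X) [M.Normal] (A : Subgroup (X ⧸ M)) :
    Nat.card (A.comap (QuotientGroup.mk' M)) = Nat.card M * Nat.card A := by
  have h1 := (A.comap (QuotientGroup.mk' M)).card_mul_index
  rw [Subgroup.index_comap_of_surjective _ (QuotientGroup.mk'_surjective M)] at h1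
  have h2 := A.card_mul_index
  have h3 := Subgroup.card_eq_card_quotient_mul_card_subgroup M
  have h4 : Nat.card A * A.index * Nat.card M = Nat.card (A.comap (QuotientGroup.mk' M)) * A.index := by
    rw [h1, h3, h2]
  have h5 : 0 < A.index := Nat.pos_of_ne_zero (Subgroup.index_ne_zero_of_finite)
  apply Nat.eq_of_mul_eq_mul_right h5
  rw [← h4]
  ring

/-- A normal subgroup of order at least `p²` of a `p`-group contains a normal subgroup of order `p²`. -/
theorem exists_normal_card_sq {X : Type*} [Group X] [Finite X] {p : ℕ} [hfp : Fact p.Prime]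
    (hX : IsPGroup p X) (N : Subgroup X) [hN : N.Normal] (hcard : p ^ 2 ≤ Nat.card N) :
    ∃ A : Subgroup X, A.Normal ∧ A ≤ N ∧ Nat.card A = p ^ 2 := by
  have hp : p.Prime := Fact.out
  have hNb : N ≠ ⊥ := by
    rintro rfl
    rw [Subgroup.card_bot] at hcard
    have := hp.one_lt
    nlinarith
  obtain ⟨z, hzN, hz1, hzc, hzp⟩ := Cfsg.Agent.Lib.Transfer.exists_central_of_normal hX hNb
  have hzo : orderOf z = p := orderOf_eq_prime hzp hz1
  have hZn : (zpowers z).Normal := ⟨fun w hw y => by
    obtain ⟨k, rfl⟩ := hw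
    have : y * (fun x => z ^ x) k * y⁻¹ = z ^ k := by
      show y * z ^ k * y⁻¹ = z ^ k
      have : y * z ^ k = z ^ k * y := (Commute.zpow_right (show Commute y z from hzc y) k).eq
      rw [this]; group
    rw [this]; exact ⟨k, rfl⟩⟩
  have hZc : Nat.card (zpowers z) = p := by rw [Nat.card_zpowers]; exact hzo
  have hZN : zpowers z ≤ N := zpowers_le.mpr hzN
  have hNq : (N.map (QuotientGroup.mk' (zpowers z))).Normal := hN.map _ (QuotientGroup.mk'_surjective _)
  have hcomap : (N.map (QuotientGroup.mk' (zpowers z))).comap (QuotientGroup.mk' (zpowers z)) = N := by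
    apply Subgroup.comap_map_eq_self
    rwa [QuotientGroup.ker_mk']
  have hcardN : Nat.card N = p * Nat.card (N.map (QuotientGroup.mk' (zpowers z))) := by
    have := card_comap_mk' (zpowers z) (N.map (QuotientGroup.mk' (zpowers z)))
    rwa [hcomap, hZc] at this
  have hNe : N.map (QuotientGroup.mk' (zpowers z)) ≠ ⊥ := by
    intro h0
    rw [h0, Subgroup.card_bot] at hcardN
    rw [hcardN] at hcard
    have := hp.one_lt
    nlinarith
  obtain ⟨c, hcN, hc1, hcc, hcp⟩ := Cfsg.Agent.Lib.Transfer.exists_central_of_normal (hX.to_quotient (zpowers z)) hNe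
  have hco : orderOf c = p := orderOf_eq_prime hcp hc1
  have hCn : (zpowers c).Normal := ⟨fun w hw y => by
    obtain ⟨k, rfl⟩ := hw
    have : y * (fun x => c ^ x) k * y⁻¹ = c ^ k := by
      show y * c ^ k * y⁻¹ = c ^ k
      have : y * c ^ k = c ^ k * y := (Commute.zpow_right (show Commute y c from hcc y) k).eq
      rw [this]; group
    rw [this]; exact ⟨k, rfl⟩⟩
  refine ⟨(zpowers c).comap (QuotientGroup.mk' (zpowers z)), hCn.comap _, ?_, ?_⟩
  · intro x hx
    have h1 : (QuotientGroup.mk' (zpowers z)) x ∈ N.map (QuotientGroup.mk' (zpowers z)) :=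
      (zpowers_le.mpr hcN) hx
    rw [← hcomap]
    exact h1
  · rw [card_comap_mk', hZc, Nat.card_zpowers, hco, sq]

/-- A normal abelian subgroup that is not cyclic contains a normal elementary abelian subgroup of order `p²`. -/
theorem exists_normal_E_of_not_cyclic {X : Type*} [Group X] [Finite X] {p : ℕ} [hfp : Fact p.Prime]
    (hX : IsPGroup p X) (U : Subgroup X) [hU : U.Normal] (hc : IsMulCommutative U) (hnc : ¬ IsCyclic U) :
    ∃ A : Subgroup X, A.Normal ∧ IsElementaryAbelian p A ∧ Nat.card A = p ^ 2 := by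
  have hp : p.Prime := Fact.out
  have hcomm : ∀ a ∈ U, ∀ b ∈ U, a * b = b * a := fun a ha b hb =>
    congrArg Subtype.val (hc.is_comm.comm ⟨a, ha⟩ ⟨b, hb⟩)
  -- `Ω₁(U)`
  let Ω : Subgroup X :=
    { carrier := {x | x ∈ U ∧ x ^ p = 1}
      mul_mem' := by
        rintro a b ⟨ha, ha'⟩ ⟨hb, hb'⟩
        refine ⟨U.mul_mem ha hb, ?_⟩
        rw [(show Commute a b from hcomm a ha b hb).mul_pow, ha', hb', one_mul]
      one_mem' := ⟨U.one_mem, one_pow p⟩
      inv_mem' := by
        rintro a ⟨ha, ha'⟩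
        exact ⟨U.inv_mem ha, by rw [inv_pow, ha', inv_one]⟩ }
  have hΩU : Ω ≤ U := fun x hx => hx.1
  have hΩn : Ω.Normal := ⟨fun a ha g => by
    refine ⟨hU.conj_mem a ha.1 g, ?_⟩
    rw [conj_pow, ha.2, mul_one, mul_inv_cancel]⟩
  have hΩcard : p ^ 2 ≤ Nat.card Ω := by
    by_contra hlt
    push Not at hlt
    apply hnc
    apply Cfsg.Agent.Lib.OddLocal.isCyclic_of_comm_uniqueP (hX.to_subgroup U)
      (fun a b => Subtype.ext (hcomm a a.2 b b.2))
    have hkey : ∀ H : Subgroup U, Nat.card H = p → H.map U.subtype = Ω := by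
      intro H hH
      have hc' : Nat.card (H.map U.subtype) = p := by
        rw [← hH]
        exact Nat.card_congr (Subgroup.equivMapOfInjective H _ U.subtype_injective).toEquiv.symm
      have hle : H.map U.subtype ≤ Ω := by
        rintro _ ⟨⟨x, hxU⟩, hx, rfl⟩
        refine ⟨hxU, ?_⟩
        have h1 : (⟨x, hxU⟩ : U) ^ p = 1 := by
          have := pow_card_eq_one' (x := (⟨⟨x, hxU⟩, hx⟩ : H))
          rw [hH] at this
          exact congrArg Subtype.val this
        exact congrArg Subtype.val h1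
      apply Subgroup.eq_of_le_of_card_ge hle
      rw [hc']
      -- `|Ω|` is a power of `p` below `p²`
      obtain ⟨k, hk⟩ := IsPGroup.iff_card.mp (hX.to_subgroup Ω)
      rw [hk] at hlt ⊢
      have hk2 : k < 2 := (Nat.pow_lt_pow_iff_right hp.one_lt).mp hlt
      interval_cases k
      · simpa using hp.one_lt.le
      · simp
    intro H K hH hK
    exact Subgroup.map_injective U.subtype_injective ((hkey H hH).trans (hkey K hK).symm)
  haveI := hΩn
  obtain ⟨A, hAn, hAΩ, hAc⟩ := exists_normal_card_sq hX Ω hΩcard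
  refine ⟨A, hAn, ⟨⟨⟨fun a b => Subtype.ext (hcomm _ (hΩU (hAΩ a.2)) _ (hΩU (hAΩ b.2)))⟩⟩, fun a ha => (hAΩ ha).2⟩, hAc⟩

/-- The classification of `p`-groups without a normal `E_{p²}`. -/
theorem classify_noNormalE {X : Type*} [Group X] [Finite X] {p : ℕ} [hfp : Fact p.Prime]
    (hX : IsPGroup p X) (hno : NoNormalE p X) :
    IsCyclic X ∨ (p = 2 ∧ ¬ IsMulCommutative X ∧ ((∃ m : ℕ, Nonempty (X ≃* DihedralGroup m)) ∨
      (∃ m : ℕ, Nonempty (X ≃* QuaternionGroup m)) ∨ Cfsg.IsQuasiDihedral X)) := by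
  have hp : p.Prime := Fact.out
  have hS : ({A : Subgroup X | A.Normal ∧ IsMulCommutative A}).Nonempty :=
    ⟨⊥, inferInstance, ⟨⟨fun a b => Subsingleton.elim _ _⟩⟩⟩
  obtain ⟨U, hUm⟩ := (Set.toFinite _).exists_maximal hS
  obtain ⟨hUn, hUc⟩ := hUm.prop
  haveI := hUn
  have hmax : ∀ B : Subgroup X, B.Normal → IsMulCommutative B → U ≤ B → B = U := fun B h1 h2 h3 =>
    le_antisymm (hUm.le_of_ge ⟨h1, h2⟩ h3) h3
  have hcyc : IsCyclic U := by
    by_contra hnc
    obtain ⟨A, hA1, hA2, hA3⟩ := exists_normal_E_of_not_cyclic hX U hUc hnc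
    exact hno A hA1 hA2 hA3
  have hC : centralizer (U : Set X) = U := by
    apply le_antisymm (Cfsg.Agent.Lib.Transfer.centralizer_le_of_maximal hX hUc hmax)
    intro a ha
    rw [mem_centralizer_iff]
    intro b hb
    exact congrArg Subtype.val (hUc.is_comm.comm ⟨b, hb⟩ ⟨a, ha⟩)
  by_cases hcomm : IsMulCommutative X
  · left
    have hUt : U = ⊤ := by
      apply hmax ⊤ inferInstance _ le_top |>.symm
      exact ⟨⟨fun a b => Subtype.ext (hcomm.is_comm.comm a.1 b.1)⟩⟩
    rw [hUt] at hcyc
    exact isCyclic_of_surjective (Subgroup.topEquiv (G := X)).toMonoidHom (Subgroup.topEquiv (G := X)).surjective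
  · obtain ⟨n, hn⟩ := IsPGroup.iff_card.mp (hX.to_subgroup U)
    rcases Cfsg.Agent.S3761.result hX hcomm U hcyc n hn hC with h | ⟨-, h2, h3, h4⟩
    · right
      exact ⟨h.1, hcomm, h.2.2⟩
    · exfalso
      exact hno _ (Subgroup.normal_of_characteristic _) h2 h3

end Cfsg.Agent.Lib.Coprime.SympType
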