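import Mathlib
import Cfsg.Agent.Lib.Coprime.SympType1
import Cfsg.Agent.Lib.Basic.Frattini

/-!
# The preimage `D` of `Ω₁(Z(G/Z))` and its good subgroups
-/

set_option autoImplicit false
set_option linter.unusedSectionVars false
set_option linter.style.haveILetI false
set_option linter.unusedVariables false

namespace Cfsg.Agent.Lib.Coprime.SympType

open Subgroup Cfsg
open scoped commutatorElement

section core

variable {G : Type*} [Group G]

/-- The preimage of `Ω₁(Z(G/Z))`. -/
def DD (p : ℕ) (Z : Subgroup G) [Z.Normal] : Subgroup G where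
  carrier := {x | (x : G ⧸ Z) ∈ center (G ⧸ Z) ∧ (x : G ⧸ Z) ^ p = 1}
  mul_mem' := by
    rintro a b ⟨ha, ha'⟩ ⟨hb, hb'⟩
    refine ⟨?_, ?_⟩
    · rw [QuotientGroup.mk_mul]; exact mul_mem ha hb
    · rw [QuotientGroup.mk_mul, (show Commute (a : G ⧸ Z) (b : G ⧸ Z) from (mem_center_iff.mp ha _).symm).mul_pow,
        ha', hb', one_mul]
  one_mem' := ⟨by rw [QuotientGroup.mk_one]; exact one_mem _, by rw [QuotientGroup.mk_one, one_pow]⟩
  inv_mem' := by
    rintro a ⟨ha, ha'⟩
    refine ⟨?_, ?_⟩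
    · rw [QuotientGroup.mk_inv]; exact inv_mem ha
    · rw [QuotientGroup.mk_inv, inv_pow, ha', inv_one]

variable {p : ℕ} {Z : Subgroup G} [hZn : Z.Normal]

theorem mem_DD {x : G} : x ∈ DD p Z ↔ (∀ g : G, x * g * x⁻¹ * g⁻¹ ∈ Z) ∧ x ^ p ∈ Z := by
  constructor
  · rintro ⟨h1, h2⟩
    refine ⟨fun g => ?_, ?_⟩
    · rw [← QuotientGroup.eq_one_iff]
      have := mem_center_iff.mp h1 (g : G ⧸ Z)
      simp only [QuotientGroup.mk_mul, QuotientGroup.mk_inv]
      rw [← this]; group
    · rw [← QuotientGroup.eq_one_iff, QuotientGroup.mk_pow]; exact h2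
  · rintro ⟨h1, h2⟩
    refine ⟨?_, ?_⟩
    · rw [mem_center_iff]
      intro g
      obtain ⟨g, rfl⟩ := QuotientGroup.mk_surjective g
      have h3 := (QuotientGroup.eq_one_iff _).mpr (h1 g)
      simp only [QuotientGroup.mk_mul, QuotientGroup.mk_inv] at h3
      have h4 : (x : G ⧸ Z) * (g : G ⧸ Z) = (g : G ⧸ Z) * (x : G ⧸ Z) := by
        have h5 : (x : G ⧸ Z) * (g : G ⧸ Z) * (x : G ⧸ Z)⁻¹ = (g : G ⧸ Z) := by
          rw [mul_inv_eq_one] at h3; exact h3
        rw [mul_inv_eq_iff_eq_mul] at h5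
        exact h5
      exact h4.symm
    · rw [← QuotientGroup.mk_pow]
      exact (QuotientGroup.eq_one_iff _).mpr h2

/-- Anything between `Z` and `D` is normal. -/
theorem normal_of_between {L : Subgroup G} (h1 : Z ≤ L) (h2 : L ≤ DD p Z) : L.Normal := by
  refine ⟨fun x hx g => ?_⟩
  have h3 := (mem_DD.mp (h2 hx)).1 g
  have h4 : g * x * g⁻¹ = (x * g * x⁻¹ * g⁻¹)⁻¹ * x := by group
  rw [h4]
  exact L.mul_mem (L.inv_mem (h1 h3)) hx

/-- The subgroups of `D` containing `Z` whose centre is `Z`. -/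
structure Good (p : ℕ) (Z H : Subgroup G) [Z.Normal] : Prop where
  le : Z ≤ H
  sub : H ≤ DD p Z
  cen : ∀ x ∈ H, (∀ y ∈ H, x * y = y * x) → x ∈ Z

variable [Finite G] [hfp : Fact p.Prime]

theorem index_centralizer_le (hZc : Z ≤ center G) (hZp : Nat.card Z = p) {x : G} (hx : x ∈ DD p Z) :
    (centralizer ({x} : Set G)).index ≤ p := by
  have hmem : ∀ g : G, g * x * g⁻¹ * x⁻¹ ∈ Z := fun g => by
    have := Z.inv_mem ((mem_DD.mp hx).1 g)
    have h2 : (x * g * x⁻¹ * g⁻¹)⁻¹ = g * x * g⁻¹ * x⁻¹ := by group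
    rwa [h2] at this
  have hcen : ∀ z ∈ Z, ∀ y : G, z * y = y * z := fun z hz y => (mem_center_iff.mp (hZc hz) y).symm
  let f : G →* Z := MonoidHom.mk' (fun g => ⟨g * x * g⁻¹ * x⁻¹, hmem g⟩) (by
    intro a b
    apply Subtype.ext
    simp only [Subgroup.coe_mul]
    have h1 := hcen _ (hmem a) (b * x * b⁻¹ * x⁻¹)
    have h2 : a * b * x * (a * b)⁻¹ * x⁻¹ = (b * x * b⁻¹ * x⁻¹) * (a * x * a⁻¹ * x⁻¹) := by
      have h3 := hcen _ (hmem b) a
      have : a * b * x * (a * b)⁻¹ * x⁻¹ = a * (b * x * b⁻¹ * x⁻¹) * x * a⁻¹ * x⁻¹ := by group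
      rw [this, ← h3]; group
    rw [h2, h1])
  have hker : f.ker = centralizer ({x} : Set G) := by
    ext g
    rw [MonoidHom.mem_ker, mem_centralizer_singleton_iff]
    constructor
    · intro h
      have h1 : g * x * g⁻¹ * x⁻¹ = 1 := congrArg Subtype.val h
      rw [mul_inv_eq_one, mul_inv_eq_iff_eq_mul] at h1
      exact h1
    · intro h
      apply Subtype.ext
      show g * x * g⁻¹ * x⁻¹ = 1
      rw [h]; group
  rw [← hker, Subgroup.index_ker]
  rw [← hZp]
  exact Subgroup.card_le_card_group _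

theorem index_centralizer_mul_le (hG : IsPGroup p G) (hZc : Z ≤ center G) (hZp : Nat.card Z = p) {H : Subgroup G}
    (hH : Z ≤ H) (hHD : H ≤ DD p Z) : (centralizer (H : Set G)).index * p ≤ Nat.card H := by
  have hp : p.Prime := Fact.out
  have hS : ({L : Subgroup G | Z ≤ L ∧ L ≤ H ∧ (centralizer (L : Set G)).index * p ≤ Nat.card L}).Nonempty := by
    refine ⟨Z, le_refl _, hH, ?_⟩
    have : centralizer (Z : Set G) = ⊤ := by
      rw [eq_top_iff]
      intro g _
      rw [mem_centralizer_iff]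
      intro z hz
      exact (mem_center_iff.mp (hZc hz) g).symm
    rw [this, Subgroup.index_top, one_mul, hZp]
  obtain ⟨L, hLm⟩ := (Set.toFinite _).exists_maximal hS
  obtain ⟨hZL, hLH, hLc⟩ := hLm.prop
  have hLeq : L = H := by
    by_contra hne
    have hlt : L < H := lt_of_le_of_ne hLH hne
    obtain ⟨x, hxH, hxL⟩ := SetLike.exists_of_lt hlt
    have hL' : L ⊔ zpowers x ≤ H := sup_le hLH (zpowers_le.mpr hxH)
    have hLL' : L ≤ L ⊔ zpowers x := le_sup_left
    have hxL' : x ∈ L ⊔ zpowers x := (le_sup_right : zpowers x ≤ L ⊔ zpowers x) (mem_zpowers x)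
    -- the order increases by at least `p`
    have hcard : p * Nat.card L ≤ Nat.card (L ⊔ zpowers x : Subgroup G) := by
      obtain ⟨k, hk⟩ := Subgroup.card_dvd_of_le hLL'
      obtain ⟨n, hn⟩ := IsPGroup.iff_card.mp (hG.to_subgroup (L ⊔ zpowers x))
      have hkd : k ∣ p ^ n := by rw [← hn, hk]; exact dvd_mul_left _ _
      obtain ⟨i, -, rfl⟩ := (Nat.dvd_prime_pow hp).mp hkd
      rw [hk, mul_comm]
      apply Nat.mul_le_mul_left
      rcases i with _ | i
      · exfalso
        apply hxL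
        have : L = L ⊔ zpowers x := by
          apply Subgroup.eq_of_le_of_card_ge hLL'
          rw [hk]; simp
        rw [this]; exact hxL'
      · exact Nat.le_self_pow (by omega) p
    have hC : centralizer (L : Set G) ⊓ centralizer ({x} : Set G) ≤ centralizer ((L ⊔ zpowers x : Subgroup G) : Set G) := by
      intro c hc
      obtain ⟨hc1, hc2⟩ := Subgroup.mem_inf.mp hc
      rw [mem_centralizer_iff] at hc1 ⊢
      rw [mem_centralizer_singleton_iff] at hc2
      have : L ⊔ zpowers x ≤ centralizer ({c} : Set G) := by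
        refine sup_le (fun y hy => ?_) (zpowers_le.mpr ?_)
        · rw [mem_centralizer_singleton_iff]; exact (hc1 y hy)
        · rw [mem_centralizer_singleton_iff]; exact hc2.symm
      intro y hy
      have h3 := this hy
      rw [mem_centralizer_singleton_iff] at h3
      exact h3
    have hi : (centralizer ((L ⊔ zpowers x : Subgroup G) : Set G)).index ≤
        (centralizer (L : Set G)).index * p := by
      have h1 := Nat.le_of_dvd (Nat.pos_of_ne_zero Subgroup.index_ne_zero_of_finite) (Subgroup.index_dvd_of_le hC)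
      have h2 := Subgroup.index_inf_le (H := centralizer (L : Set G)) (K := centralizer ({x} : Set G))
      have h3 := index_centralizer_le hZc hZp (hHD hxH)
      calc _ ≤ _ := h1
        _ ≤ _ := h2
        _ ≤ _ := Nat.mul_le_mul_left _ h3
    have hmem : L ⊔ zpowers x ∈ {L : Subgroup G | Z ≤ L ∧ L ≤ H ∧ (centralizer (L : Set G)).index * p ≤ Nat.card L} := by
      refine ⟨hZL.trans hLL', hL', ?_⟩
      calc _ ≤ (centralizer (L : Set G)).index * p * p := Nat.mul_le_mul_right _ hi
        _ ≤ Nat.card L * p := Nat.mul_le_mul_right _ hLc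
        _ = p * Nat.card L := mul_comm _ _
        _ ≤ _ := hcard
    have := hLm.le_of_ge hmem hLL'
    exact hxL (this hxL')
  rw [hLeq] at hLc
  exact hLc

/-- Lemma A: `G = H C_G(H)`. -/
theorem sup_centralizer_eq_top (hG : IsPGroup p G) (hZc : Z ≤ center G) (hZp : Nat.card Z = p) {H : Subgroup G}
    (hH : Good p Z H) : H ⊔ centralizer (H : Set G) = ⊤ := by
  have hp : p.Prime := Fact.out
  haveI hHn : H.Normal := normal_of_between hH.le hH.sub
  have hcen : centralizer (H : Set G) ⊓ H = Z := by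
    apply le_antisymm
    · intro x hx
      obtain ⟨h1, h2⟩ := Subgroup.mem_inf.mp hx
      rw [mem_centralizer_iff] at h1
      exact hH.cen x h2 (fun y hy => (h1 y hy).symm)
    · intro z hz
      refine Subgroup.mem_inf.mpr ⟨?_, hH.le hz⟩
      rw [mem_centralizer_iff]
      intro y _
      exact (mem_center_iff.mp (hZc hz) y)
  have h1 := index_centralizer_mul_le hG hZc hZp hH.le hH.sub
  have h2 : (centralizer (H : Set G)).relIndex H * p = Nat.card H := by
    have h3 := ((centralizer (H : Set G)).subgroupOf H).card_mul_index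
    have h3' : Nat.card ((centralizer (H : Set G)).subgroupOf H) = p := by
      rw [← Subgroup.inf_subgroupOf_right, Nat.card_congr (Subgroup.subgroupOfEquivOfLe (inf_le_right : centralizer (H : Set G) ⊓ H ≤ H)).toEquiv,
        hcen, hZp]
    rw [h3'] at h3
    rw [mul_comm, Subgroup.relIndex, h3]
  have h4 : (centralizer (H : Set G)).relIndex (H ⊔ centralizer (H : Set G)) = (centralizer (H : Set G)).relIndex H :=
    Subgroup.relIndex_sup_right _ _
  have h5 := Subgroup.relIndex_mul_index (le_sup_right : centralizer (H : Set G) ≤ H ⊔ centralizer (H : Set G))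
  rw [h4] at h5
  have h6 : 0 < (centralizer (H : Set G)).index := Nat.pos_of_ne_zero Subgroup.index_ne_zero_of_finite
  have h7 : (H ⊔ centralizer (H : Set G)).index = 1 := by
    have h8 : (centralizer (H : Set G)).index ≤ (centralizer (H : Set G)).relIndex H := by
      have := hp.pos
      rw [← h2] at h1
      exact Nat.le_of_mul_le_mul_right h1 this
    have h9 : 0 < (H ⊔ centralizer (H : Set G)).index := Nat.pos_of_ne_zero Subgroup.index_ne_zero_of_finite
    have h10 : 0 < (centralizer (H : Set G)).relIndex H := lt_of_lt_of_le h6 h8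
    nlinarith
  exact Subgroup.index_eq_one.mp h7

theorem conj_zpow_of_comm {a b c : G} (hc : ∀ y : G, y * c = c * y) (h : a * b * a⁻¹ * b⁻¹ = c) (j : ℤ) :
    a * b ^ j * a⁻¹ * (b ^ j)⁻¹ = c ^ j := by
  have h1 : a * b * a⁻¹ = c * b := by
    rw [← h]; group
  have h2 : a * b ^ j * a⁻¹ = (c * b) ^ j := by
    rw [← h1, conj_zpow]
  have h3 : Commute c b := (hc b).symm
  rw [h2, h3.mul_zpow]
  group

/-- Lemma B: the centraliser of a maximal good subgroup in `D` is abelian. -/
theorem comm_of_maximal (hZc : Z ≤ center G) (hZp : Nat.card Z = p) {H : Subgroup G}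
    (hH : Good p Z H) (hmax : ∀ K : Subgroup G, Good p Z K → H ≤ K → K ≤ H)
    {a b : G} (ha : a ∈ DD p Z) (hb : b ∈ DD p Z) (haH : a ∈ centralizer (H : Set G))
    (hbH : b ∈ centralizer (H : Set G)) : a * b = b * a := by
  have hp : p.Prime := Fact.out
  by_contra hab
  have hcen : ∀ z ∈ Z, ∀ y : G, y * z = z * y := fun z hz y => (mem_center_iff.mp (hZc hz) y)
  have hcZ : a * b * a⁻¹ * b⁻¹ ∈ Z := (mem_DD.mp ha).1 b
  have hc1 : a * b * a⁻¹ * b⁻¹ ≠ 1 := by
    intro h
    rw [mul_inv_eq_one, mul_inv_eq_iff_eq_mul] at h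
    exact hab h
  have hcpow : (a * b * a⁻¹ * b⁻¹) ^ p = 1 := by
    have := pow_card_eq_one' (x := (⟨_, hcZ⟩ : Z))
    rw [hZp] at this
    exact congrArg Subtype.val this
  have hco : orderOf (a * b * a⁻¹ * b⁻¹) = p := orderOf_eq_prime hcpow hc1
  have hcZ' : b * a * b⁻¹ * a⁻¹ ∈ Z := (mem_DD.mp hb).1 a
  have hcinv : b * a * b⁻¹ * a⁻¹ = (a * b * a⁻¹ * b⁻¹)⁻¹ := by group
  have hco' : orderOf (b * a * b⁻¹ * a⁻¹) = p := by rw [hcinv, orderOf_inv]; exact hco
  -- the bigger group
  have hHa1 : Z ≤ H ⊔ zpowers a := hH.le.trans le_sup_left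
  have hHa2 : H ⊔ zpowers a ≤ DD p Z := sup_le hH.sub (zpowers_le.mpr ha)
  have hK1 : Z ≤ (H ⊔ zpowers a) ⊔ zpowers b := hHa1.trans le_sup_left
  have hK2 : (H ⊔ zpowers a) ⊔ zpowers b ≤ DD p Z := sup_le hHa2 (zpowers_le.mpr hb)
  haveI hHn : H.Normal := normal_of_between hH.le hH.sub
  haveI hHan : (H ⊔ zpowers a).Normal := normal_of_between hHa1 hHa2
  have haK : a ∈ (H ⊔ zpowers a) ⊔ zpowers b :=
    (le_sup_left : H ⊔ zpowers a ≤ _) ((le_sup_right : zpowers a ≤ _) (mem_zpowers a))
  have hbK : b ∈ (H ⊔ zpowers a) ⊔ zpowers b := (le_sup_right : zpowers b ≤ _) (mem_zpowers b)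
  have hHK : H ≤ (H ⊔ zpowers a) ⊔ zpowers b := le_sup_left.trans le_sup_left
  have hpowZ : ∀ {y : G}, y ∈ DD p Z → ∀ i : ℤ, (p : ℤ) ∣ i → y ^ i ∈ Z := by
    rintro y hy i ⟨k, rfl⟩
    rw [zpow_mul, zpow_natCast]
    exact Z.zpow_mem (mem_DD.mp hy).2 k
  have hgood : Good p Z ((H ⊔ zpowers a) ⊔ zpowers b) := by
    refine ⟨hK1, hK2, fun x hx hxc => ?_⟩
    obtain ⟨y, hy, w, hw, rfl⟩ := Subgroup.mem_sup_of_normal_left.mp hx
    obtain ⟨h, hh, u, hu, rfl⟩ := Subgroup.mem_sup_of_normal_left.mp hy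
    obtain ⟨i, rfl⟩ := hu
    obtain ⟨j, rfl⟩ := hw
    simp only at hxc ⊢
    have hah : a * h = h * a := by
      rw [mem_centralizer_iff] at haH
      exact (haH h hh).symm
    have hbh : b * h = h * b := by
      rw [mem_centralizer_iff] at hbH
      exact (hbH h hh).symm
    have hai : Commute a (a ^ i) := (Commute.refl a).zpow_right i
    have hbj : Commute b (b ^ j) := (Commute.refl b).zpow_right j
    -- commuting with `a`
    have h1 := hxc a haK
    have hj : a * b ^ j * a⁻¹ * (b ^ j)⁻¹ = 1 := by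
      have h2 : h * a ^ i * (b ^ j * a) = h * a ^ i * (a * b ^ j) := by
        calc h * a ^ i * (b ^ j * a) = h * a ^ i * b ^ j * a := by group
          _ = a * (h * a ^ i * b ^ j) := h1
          _ = (a * h) * a ^ i * b ^ j := by group
          _ = h * (a * a ^ i) * b ^ j := by rw [hah]; group
          _ = h * (a ^ i * a) * b ^ j := by rw [hai.eq]
          _ = h * a ^ i * (a * b ^ j) := by group
      have h3 := mul_left_cancel h2
      rw [← h3]; group
    rw [conj_zpow_of_comm (fun y => hcen _ hcZ y) rfl] at hj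
    have hjd : (p : ℤ) ∣ j := by
      rw [← hco]; exact orderOf_dvd_iff_zpow_eq_one.mpr hj
    -- commuting with `b`
    have h1' := hxc b hbK
    have hi : b * a ^ i * b⁻¹ * (a ^ i)⁻¹ = 1 := by
      have h2 : h * (a ^ i * b) * b ^ j = h * (b * a ^ i) * b ^ j := by
        calc h * (a ^ i * b) * b ^ j = h * a ^ i * (b * b ^ j) := by group
          _ = h * a ^ i * (b ^ j * b) := by rw [hbj.eq]
          _ = h * a ^ i * b ^ j * b := by group
          _ = b * (h * a ^ i * b ^ j) := h1'
          _ = (b * h) * a ^ i * b ^ j := by group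
          _ = h * (b * a ^ i) * b ^ j := by rw [hbh]; group
      have h3 := mul_left_cancel (mul_right_cancel h2)
      rw [← h3]; group
    rw [conj_zpow_of_comm (fun y => hcen _ hcZ' y) rfl] at hi
    have hid : (p : ℤ) ∣ i := by
      rw [← hco']; exact orderOf_dvd_iff_zpow_eq_one.mpr hi
    have hxH : h * a ^ i * b ^ j ∈ H :=
      H.mul_mem (H.mul_mem hh (hH.le (hpowZ ha i hid))) (hH.le (hpowZ hb j hjd))
    exact hH.cen _ hxH (fun y hy => hxc y (hHK hy))
  have haH' : a ∈ H := hmax _ hgood hHK haK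
  have haZ : a ∈ Z := hH.cen a haH' (fun y hy => by
    rw [mem_centralizer_iff] at haH
    exact (haH y hy).symm)
  exact hab ((mem_center_iff.mp (hZc haZ) b).symm)

/-- A good subgroup different from `Z` is extraspecial. -/
theorem extraspecial_of_good (hG : IsPGroup p G) (hZc : Z ≤ center G) (hZp : Nat.card Z = p) {H : Subgroup G}
    (hH : Good p Z H) (hne : H ≠ Z) : IsExtraspecial p ↥H := by
  have hp : p.Prime := Fact.out
  have hHp : IsPGroup p H := hG.to_subgroup H
  have hcent : center ↥H = Z.subgroupOf H := by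
    ext ⟨x, hx⟩
    rw [Subgroup.mem_subgroupOf, mem_center_iff]
    constructor
    · intro h
      exact hH.cen x hx (fun y hy => (congrArg Subtype.val (h ⟨y, hy⟩)).symm)
    · intro h y
      exact Subtype.ext (mem_center_iff.mp (hZc h) y)
  have hcc : Nat.card (center ↥H) = p := by
    rw [hcent, Nat.card_congr (Subgroup.subgroupOfEquivOfLe hH.le).toEquiv, hZp]
  have hmemZ : ∀ x y : ↥H, ⁅x, y⁆ ∈ center ↥H := by
    intro x y
    rw [hcent, Subgroup.mem_subgroupOf]
    exact (mem_DD.mp (hH.sub x.2)).1 y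
  have hcomm_le : commutator ↥H ≤ center ↥H := by
    rw [commutator_def, Subgroup.commutator_le]
    intro x _ y _
    exact hmemZ x y
  have hcomm_ne : commutator ↥H ≠ ⊥ := by
    intro h0
    apply hne
    apply le_antisymm _ hH.le
    intro x hx
    apply hH.cen x hx
    intro y hy
    have h1 : ⁅(⟨x, hx⟩ : ↥H), (⟨y, hy⟩ : ↥H)⁆ ∈ commutator ↥H :=
      Subgroup.commutator_mem_commutator (Subgroup.mem_top _) (Subgroup.mem_top _)
    rw [h0, Subgroup.mem_bot, commutatorElement_eq_one_iff_mul_comm] at h1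
    exact congrArg Subtype.val h1
  have hcomm_eq : commutator ↥H = center ↥H := by
    apply Subgroup.eq_of_le_of_card_ge hcomm_le
    rw [hcc]
    have h1 : Nat.card (commutator ↥H) ∣ p := by
      rw [← hcc]; exact Subgroup.card_dvd_of_le hcomm_le
    rcases (Nat.dvd_prime hp).mp h1 with h2 | h2
    · exact absurd (Subgroup.card_eq_one.mp h2) hcomm_ne
    · exact h2.ge
  haveI : Group.IsNilpotent ↥H := hHp.isNilpotent
  have hfr_le : frattini ↥H ≤ center ↥H := by
    apply Cfsg.Agent.Lib.Basic.frattini_le_of_commutator_le_of_pow_mem hp _ hcomm_le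
    intro x
    rw [hcent, Subgroup.mem_subgroupOf]
    exact (mem_DD.mp (hH.sub x.2)).2
  have hfr_ge : center ↥H ≤ frattini ↥H := by
    rw [← hcomm_eq]
    exact Cfsg.Agent.Lib.Basic.commutator_le_frattini_of_isNilpotent
  exact ⟨⟨hHp, le_antisymm hfr_le hfr_ge, hcomm_eq⟩, hcc⟩

/-- Normal elementary abelian subgroups of order `p²` lie in `D`. -/
theorem le_DD_of_normal (hG : IsPGroup p G) (hZc : Z ≤ center G) (hZp : Nat.card Z = p)
    (hZu : ∀ z ∈ center G, z ^ p = 1 → z ∈ Z) {A : Subgroup G} (hAn : A.Normal)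
    (hAe : ∀ a ∈ A, a ^ p = 1) (hAc : Nat.card A = p ^ 2) : Z ≤ A ∧ A ≤ DD p Z := by
  have hp : p.Prime := Fact.out
  have hAb : A ≠ ⊥ := by
    rintro rfl
    rw [Subgroup.card_bot] at hAc
    have := hp.one_lt
    nlinarith
  haveI := hAn
  obtain ⟨z, hzA, hz1, hzc, hzp⟩ := Cfsg.Agent.Lib.Transfer.exists_central_of_normal hG hAb
  have hzZ : z ∈ Z := hZu z (mem_center_iff.mpr hzc) hzp
  have hzo : orderOf z = p := orderOf_eq_prime hzp hz1
  have hZeq : zpowers z = Z := by
    apply Subgroup.eq_of_le_of_card_ge (zpowers_le.mpr hzZ)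
    rw [hZp, Nat.card_zpowers, hzo]
  have hZA : Z ≤ A := by
    rw [← hZeq]; exact zpowers_le.mpr hzA
  refine ⟨hZA, ?_⟩
  have hNq : (A.map (QuotientGroup.mk' Z)).Normal := hAn.map _ (QuotientGroup.mk'_surjective _)
  have hcomap : (A.map (QuotientGroup.mk' Z)).comap (QuotientGroup.mk' Z) = A := by
    apply Subgroup.comap_map_eq_self
    rwa [QuotientGroup.ker_mk']
  have hcardN : p ^ 2 = p * Nat.card (A.map (QuotientGroup.mk' Z)) := by
    have := card_comap_mk' Z (A.map (QuotientGroup.mk' Z))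
    rwa [hcomap, hAc, hZp] at this
  have hcardN' : Nat.card (A.map (QuotientGroup.mk' Z)) = p := by
    have h1 : p * Nat.card (A.map (QuotientGroup.mk' Z)) = p * p := by rw [← hcardN, sq]
    exact Nat.eq_of_mul_eq_mul_left hp.pos h1
  have hNe : A.map (QuotientGroup.mk' Z) ≠ ⊥ := by
    intro h0
    rw [h0, Subgroup.card_bot] at hcardN'
    exact hp.one_lt.ne hcardN'
  obtain ⟨c, hcN, hc1, hcc, hcp⟩ := Cfsg.Agent.Lib.Transfer.exists_central_of_normal (hG.to_quotient Z) hNe
  have hco : orderOf c = p := orderOf_eq_prime hcp hc1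
  have hNeq : zpowers c = A.map (QuotientGroup.mk' Z) := by
    apply Subgroup.eq_of_le_of_card_ge (zpowers_le.mpr hcN)
    rw [hcardN', Nat.card_zpowers, hco]
  intro a ha
  have h1 : (a : G ⧸ Z) ∈ zpowers c := by
    rw [hNeq]; exact ⟨a, ha, rfl⟩
  obtain ⟨k, hk⟩ := h1
  refine ⟨?_, ?_⟩
  · rw [mem_center_iff]
    intro g
    rw [← hk]
    exact (Commute.zpow_right (show Commute g c from hcc g) k).eq
  · rw [← QuotientGroup.mk_pow, hAe a ha, QuotientGroup.mk_one]

/-- The centraliser of a maximal good subgroup has no normal `E_{p²}`. -/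
theorem noNormalE_centralizer (hG : IsPGroup p G) (hZc : Z ≤ center G) (hZp : Nat.card Z = p)
    (hZu : ∀ z ∈ center G, z ^ p = 1 → z ∈ Z) (hD : IsCyclic ↥(DD p Z ⊓ centralizer (DD p Z : Set G)))
    {H : Subgroup G} (hH : Good p Z H) (hmax : ∀ K : Subgroup G, Good p Z K → H ≤ K → K ≤ H) :
    NoNormalE p ↥(centralizer (H : Set G)) := by
  have hp : p.Prime := Fact.out
  intro A' hA'n hA'e hA'c
  haveI hHn : H.Normal := normal_of_between hH.le hH.sub
  have htop := sup_centralizer_eq_top hG hZc hZp hH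
  set A := A'.map (centralizer (H : Set G)).subtype with hA
  have hAR : A ≤ centralizer (H : Set G) := map_subtype_le A'
  have hAc : Nat.card A = p ^ 2 := by
    rw [← hA'c]
    exact Nat.card_congr (Subgroup.equivMapOfInjective A' _ (centralizer (H : Set G)).subtype_injective).toEquiv.symm
  have hAe : ∀ a ∈ A, a ^ p = 1 := by
    rintro _ ⟨a, ha, rfl⟩
    exact congrArg Subtype.val (hA'e.2 a ha)
  have hRH : ∀ r ∈ centralizer (H : Set G), ∀ h ∈ H, h * r = r * h := fun r hr h hh => by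
    rw [mem_centralizer_iff] at hr
    exact hr h hh
  have hAn : A.Normal := by
    refine ⟨fun a ha g => ?_⟩
    have hg : g ∈ H ⊔ centralizer (H : Set G) := by rw [htop]; exact mem_top g
    obtain ⟨h, hh, r, hr, rfl⟩ := Subgroup.mem_sup_of_normal_left.mp hg
    obtain ⟨a', ha', rfl⟩ := ha
    have h1 : r * ((centralizer (H : Set G)).subtype a') * r⁻¹ ∈ A := by
      have := hA'n.conj_mem a' ha' ⟨r, hr⟩
      exact ⟨_, this, by simp⟩
    have h2 := hRH _ (hAR h1) h hh
    have h3 : h * r * ((centralizer (H : Set G)).subtype a') * (h * r)⁻¹ = (r * ((centralizer (H : Set G)).subtype a') * r⁻¹) := by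
      calc h * r * ((centralizer (H : Set G)).subtype a') * (h * r)⁻¹ = h * (r * ((centralizer (H : Set G)).subtype a') * r⁻¹) * h⁻¹ := by group
        _ = (r * ((centralizer (H : Set G)).subtype a') * r⁻¹) * h * h⁻¹ := by rw [h2]
        _ = _ := by group
    rw [h3]
    exact h1
  obtain ⟨hZA, hAD⟩ := le_DD_of_normal hG hZc hZp hZu hAn hAe hAc
  have hAC : A ≤ DD p Z ⊓ centralizer (DD p Z : Set G) := by
    intro a ha
    refine Subgroup.mem_inf.mpr ⟨hAD ha, ?_⟩
    rw [mem_centralizer_iff]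
    intro d hd
    have hg : d ∈ H ⊔ centralizer (H : Set G) := by rw [htop]; exact mem_top d
    obtain ⟨h, hh, r, hr, rfl⟩ := Subgroup.mem_sup_of_normal_left.mp hg
    have hrD : r ∈ DD p Z := by
      have := (DD p Z).mul_mem ((DD p Z).inv_mem (hH.sub hh)) hd
      simpa using this
    have h1 := comm_of_maximal hZc hZp hH hmax (hAD ha) hrD (hAR ha) hr
    have h2 := hRH a (hAR ha) h hh
    calc h * r * a = h * (r * a) := by group
      _ = h * (a * r) := by rw [h1]
      _ = (h * a) * r := by group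
      _ = a * h * r := by rw [h2]
      _ = a * (h * r) := by group
  haveI : IsCyclic A := isCyclic_of_injective (Subgroup.inclusion hAC) (Subgroup.inclusion_injective hAC)
  obtain ⟨g, hg⟩ := IsCyclic.exists_generator (α := A)
  have h1 : orderOf g = Nat.card A := orderOf_eq_card_of_forall_mem_zpowers hg
  have h2 : g ^ p = 1 := Subtype.ext (hAe g g.2)
  have h3 : orderOf g ∣ p := orderOf_dvd_of_pow_eq_one h2
  rw [h1, hAc] at h3
  have h4 := Nat.le_of_dvd hp.pos h3
  have := hp.one_lt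
  nlinarith

end core

end Cfsg.Agent.Lib.Coprime.SympType
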